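import Cfsg.Agent.H99.Aschbacher.SymplecticTensor
import Cfsg.Agent.H5.OmegaGL
import Cfsg.Agent.H5.StabNondegGL
import Cfsg.Agent.H98.QuadFun

/-!
The polar form of a quadratic form as form data, and root elements of Ω moving a vector out of a small set.
-/

set_option autoImplicit false
set_option linter.unusedSectionVars false

open scoped MatrixGroups Matrix Kronecker

namespace Cfsg.Agent.H6.OEven

open Cfsg.Geo Cfsg.Agent.H99.Asch

variable {ι : Type} [Fintype ι] [DecidableEq ι] {F : Type*} [Field F] [Fintype F] {Q : (ι → F) → F}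

/-- The bundled form. -/
noncomputable abbrev qf (hQ : IsNondegenerateQuadraticForm Q) : QuadraticForm F (ι → F) := H98.qOfFun Q hQ

omit [Fintype F] in
lemma qf_nondeg (hQ : IsNondegenerateQuadraticForm Q) :
    (QuadraticMap.polarBilin (qf hQ)).Nondegenerate := H98.qOfFun_nondeg hQ

omit [DecidableEq ι] [Fintype F] in
lemma qf_add (hQ : IsNondegenerateQuadraticForm Q) (x y : ι → F) :
    Q (x + y) = Q x + Q y + QuadraticMap.polar Q x y := by
  simp [QuadraticMap.polar]

omit [DecidableEq ι] [Fintype F] in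
lemma polar_self (hQ : IsNondegenerateQuadraticForm Q) (x : ι → F) : QuadraticMap.polar Q x x = 2 * Q x :=
  H5.polar_self' (qf hQ) x

omit [DecidableEq ι] [Fintype F] in
lemma map_zero' (hQ : IsNondegenerateQuadraticForm Q) : Q 0 = 0 := by
  have := hQ.smul 0 0
  simpa using this

lemma polar_eq_gramForm (hQ : IsNondegenerateQuadraticForm Q) :
    ∀ u v, QuadraticMap.polar Q u v =
      gramForm (RingHom.id F) (gramMatrix (QuadraticMap.polar Q)) u v := fun u v => by
  rw [← eq_gramForm (RingHom.id F) hQ.polar_bilinear.add_left hQ.polar_bilinear.smul_left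
    hQ.polar_bilinear.add_right hQ.polar_bilinear.smul_right]

lemma isUnit_gram' (hQ : IsNondegenerateQuadraticForm Q) : IsUnit (gramMatrix (QuadraticMap.polar Q)) := by
  rw [← Matrix.mulVec_injective_iff_isUnit]
  refine (injective_iff_map_eq_zero (Matrix.mulVecLin (gramMatrix (QuadraticMap.polar Q)))).2 fun v hv => ?_
  by_contra h0
  obtain ⟨⟨u, hu⟩, -⟩ := hQ.nondegenerate v h0
  apply hu
  rw [polar_eq_gramForm hQ]
  show u ⬝ᵥ (gramMatrix (QuadraticMap.polar Q) *ᵥ v) = 0
  rw [show gramMatrix (QuadraticMap.polar Q) *ᵥ v = 0 from hv, dotProduct_zero]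

/-- The polar form as form data. -/
noncomputable def polarData (hQ : IsNondegenerateQuadraticForm Q) : FormData ι F where
  σ := RingHom.id F
  invol := fun _ => rfl
  U := (isUnit_gram' hQ).unit
  ε := 1
  eps_ne := one_ne_zero
  herm := by
    rw [IsUnit.unit_spec, map_ringHom_id, one_smul]
    ext i j
    exact QuadraticMap.polar_comm Q _ _

lemma polarData_form (hQ : IsNondegenerateQuadraticForm Q) : (polarData hQ).form = QuadraticMap.polar Q := by
  funext u v
  rw [polar_eq_gramForm hQ u v]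
  rfl

lemma polarData_σ (hQ : IsNondegenerateQuadraticForm Q) : (polarData hQ).σ = RingHom.id F := rfl

lemma polarData_ε (hQ : IsNondegenerateQuadraticForm Q) : (polarData hQ).ε = 1 := rfl

omit [Fintype F] in
lemma isometry_of_mem_omega {g : GL ι F} (hg : g ∈ omegaGL Q) (v : ι → F) :
    Q ((g : Matrix ι ι F) *ᵥ v) = Q v := by
  obtain ⟨x, -, rfl⟩ := hg
  exact H5.mem_isometryGroup.1 x.2 v

omit [Fintype F] in
lemma polar_of_mem_omega {g : GL ι F} (hg : g ∈ omegaGL Q) (u v : ι → F) :
    QuadraticMap.polar Q ((g : Matrix ι ι F) *ᵥ u) ((g : Matrix ι ι F) *ᵥ v) = QuadraticMap.polar Q u v := by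
  simp only [QuadraticMap.polar, ← Matrix.mulVec_add, isometry_of_mem_omega hg]

lemma omega_le_isom (hQ : IsNondegenerateQuadraticForm Q) : omegaGL Q ≤ (polarData hQ).isom := by
  intro g hg u v
  show (polarData hQ).form ((g : Matrix ι ι F) *ᵥ u) ((g : Matrix ι ι F) *ᵥ v) = (polarData hQ).form u v
  rw [polarData_form]
  exact polar_of_mem_omega hg u v

/-- A member containing H but not Ω meets Ω in H. -/
lemma eq_inf_of_maximal {H M : Subgroup (GL ι F)} (hH : IsMaximalIn (omegaGL Q) H) (hle : H ≤ M)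
    (hM : ¬ omegaGL Q ≤ M) : H = M ⊓ omegaGL Q :=
  ((hH.2 _ (le_inf hle hH.1.le) inf_le_right).resolve_right fun e => hM (e ▸ inf_le_left)).symm

/-- A member strictly below a larger proper subgroup contains no maximal subgroup. -/
lemma false_of_between {H M : Subgroup (GL ι F)} (hH : IsMaximalIn (omegaGL Q) H) (hle : H ≤ M)
    (hK : ∃ K, M ⊓ omegaGL Q < K ∧ K < omegaGL Q) : False := by
  obtain ⟨K, h1, h2⟩ := hK
  have hH' : H ≤ M ⊓ omegaGL Q := le_inf hle hH.1.le
  rcases hH.2 K (hH'.trans h1.le) h2.le with e | e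
  · exact (lt_of_le_of_lt hH' h1).ne e.symm
  · exact h2.ne e

/-- A root element fixing v moves w out of a small set. -/
theorem exists_omega_move (hQ : IsNondegenerateQuadraticForm Q) (hn : 6 ≤ Fintype.card ι) (v w : ι → F)
    (hw : w ∉ Submodule.span F {v}) (S : Set (ι → F))
    (hS : S.ncard < Fintype.card F ^ (Fintype.card ι - 2 - Module.finrank F (Submodule.span F {v}))) :
    ∃ g ∈ omegaGL Q, (g : Matrix ι ι F) *ᵥ v = v ∧ (g : Matrix ι ι F) *ᵥ w ∉ S := by
  classical
  haveI : Finite (ι → F) := Pi.finite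
  have hf : ⇑(qf hQ) = Q := H98.coe_qOfFun hQ
  have hnd := qf_nondeg hQ
  have hr : Module.finrank F (ι → F) = Fintype.card ι := Module.finrank_fintype_fun_eq_card F
  set d := Module.finrank F (Submodule.span F {v}) with hd
  have hd1 : d ≤ 1 := by simpa using finrank_span_le_card ({v} : Set (ι → F))
  have hperp := H5.finrank_perp_add hnd (Submodule.span F {v})
  obtain ⟨e, hev, he, hew⟩ := H5.exists_singular_polar_ne (Q := qf hQ)
    (S := H5.perp (qf hQ) (Submodule.span F {v})) (y := w)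
    (by
      have := H5.finrank_rad_perp_le hnd (Submodule.span F {v})
      omega)
    (by
      by_contra hc
      push Not at hc
      apply hw
      rw [← H5.perp_perp hnd (Submodule.span F {v}), H5.mem_perp]
      intro x hx
      rw [QuadraticMap.polar_comm]
      exact hc x hx)
  rw [H5.mem_perp_span] at hev
  set T := Submodule.span F {v} ⊔ Submodule.span F {w} ⊔ Submodule.span F {e} with hT
  let A := H5.perp (qf hQ) T
  have hA : Fintype.card ι - 2 - d ≤ Module.finrank F A := by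
    have h1 := H5.finrank_perp_add hnd T
    have h2 := Submodule.finrank_add_le_finrank_add_finrank (Submodule.span F {v} ⊔ Submodule.span F {w})
      (Submodule.span F {e})
    have h3 := Submodule.finrank_add_le_finrank_add_finrank (Submodule.span F {v}) (Submodule.span F {w})
    rw [← hT] at h2
    have h4 : ∀ z : ι → F, Module.finrank F (Submodule.span F {z}) ≤ 1 := fun z => by
      simpa using finrank_span_le_card ({z} : Set (ι → F))
    have := h4 w
    have := h4 e
    show _ ≤ Module.finrank F (H5.perp (qf hQ) T)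
    omega
  have hmemA : ∀ {a}, a ∈ A → QuadraticMap.polar (qf hQ) e a = 0 ∧ QuadraticMap.polar (qf hQ) a v = 0 ∧
      QuadraticMap.polar (qf hQ) a w = 0 := by
    intro a ha
    simp only [A, hT, H5.perp_sup, Submodule.mem_inf, H5.mem_perp_span] at ha
    refine ⟨ha.2, ?_, ?_⟩ <;> rw [QuadraticMap.polar_comm]
    exacts [ha.1.1, ha.1.2]
  by_contra hcon
  push Not at hcon
  let g : A → GL ι F := fun a => H5.toGLHom (qf hQ) hf (H5.eich (qf hQ) e (a : ι → F))
  have hg : ∀ a, g a ∈ omegaGL Q := fun a => by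
    rw [H5.omegaGL_eq_map (qf hQ) hf]
    exact ⟨_, H5.eich_mem_commutator hnd (by omega) _ _, rfl⟩
  have hgv : ∀ (a : A) x, (g a : Matrix ι ι F) *ᵥ x =
      (H5.eich (qf hQ) e (a : ι → F) : (ι → F) ≃ₗ[F] (ι → F)) x := fun a x => H5.toGLHom_mulVec (qf hQ) hf _ x
  have hfix : ∀ a, (g a : Matrix ι ι F) *ᵥ v = v := fun a => by
    rw [hgv, H5.eich_fix he (hmemA a.2).1 ?_ (hmemA a.2).2.1]
    rwa [QuadraticMap.polar_comm]
  set c := QuadraticMap.polar (qf hQ) e w with hc
  have hc0 : c ≠ 0 := by rw [hc, QuadraticMap.polar_comm]; exact hew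
  have hgw : ∀ a : A, (g a : Matrix ι ι F) *ᵥ w =
      w + c • (a : ι → F) - (qf hQ (a : ι → F) * c) • e := fun a => by
    rw [hgv, H5.eich_apply he (hmemA a.2).1, (hmemA a.2).2.2]
    simp [hc]
  let φ : A → S := fun a => ⟨(g a : Matrix ι ι F) *ᵥ w, hcon _ (hg a) (hfix a)⟩
  have hinj : Function.Injective φ := by
    intro a b hab
    have h1 : (g a : Matrix ι ι F) *ᵥ w = (g b : Matrix ι ι F) *ᵥ w := congrArg Subtype.val hab
    rw [hgw, hgw] at h1
    have h2 : c • ((a : ι → F) - (b : ι → F)) = ((qf hQ (a : ι → F) - qf hQ (b : ι → F)) * c) • e := by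
      rw [sub_mul, sub_smul, smul_sub]
      rw [← sub_eq_zero] at h1 ⊢
      rw [← h1]; abel
    have h3 := congrArg (fun x => QuadraticMap.polar (qf hQ) x w) h2
    simp only [QuadraticMap.polar_smul_left, QuadraticMap.polar_sub_left, (hmemA a.2).2.2, (hmemA b.2).2.2,
      sub_zero, smul_eq_mul, ← hc, mul_zero] at h3
    have h4 : (qf hQ (a : ι → F) - qf hQ (b : ι → F)) * c = 0 :=
      (mul_eq_zero.1 h3.symm).resolve_right hc0
    rw [h4, zero_smul, smul_eq_zero] at h2
    exact Subtype.ext (sub_eq_zero.1 (h2.resolve_left hc0))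
  have hcardA : Fintype.card F ^ (Fintype.card ι - 2 - d) ≤ Nat.card A := by
    rw [Module.natCard_eq_pow_finrank (K := F), Nat.card_eq_fintype_card]
    exact Nat.pow_le_pow_right Fintype.card_pos hA
  have := Nat.card_le_card_of_injective φ hinj
  rw [Nat.card_coe_set_eq] at this
  omega

lemma ncard_submodule (W : Submodule F (ι → F)) :
    (W : Set (ι → F)).ncard = Fintype.card F ^ Module.finrank F W := by
  rw [← Nat.card_coe_set_eq, SetLike.coe_sort_coe, Module.natCard_eq_pow_finrank (K := F),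
    Nat.card_eq_fintype_card]

omit [Fintype F] in
lemma not_mem_span_zero {w : ι → F} (hw : w ≠ 0) : w ∉ Submodule.span F {(0 : ι → F)} := by
  simp [hw]

omit [Fintype F] [DecidableEq ι] in
lemma finrank_span_zero : Module.finrank F (Submodule.span F {(0 : ι → F)}) = 0 := by simp

/-- Ω stabilises no small non-zero subspace. -/
lemma not_le_subspace (hQ : IsNondegenerateQuadraticForm Q) (hn : 6 ≤ Fintype.card ι)
    {W : Submodule F (ι → F)} (hW : W ≠ ⊥) (hd : Module.finrank F W + 3 ≤ Fintype.card ι) :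
    ¬ omegaGL Q ≤ subspaceStabilizer W := by
  intro hle
  obtain ⟨w, hw, hw0⟩ := Submodule.exists_mem_ne_zero_of_ne_bot hW
  obtain ⟨g, hg, -, hgw⟩ := exists_omega_move hQ hn 0 w (not_mem_span_zero hw0) W (by
    rw [ncard_submodule, finrank_span_zero]
    exact Nat.pow_lt_pow_right Fintype.one_lt_card (by omega))
  exact hgw ((hle hg w).1 hw)

/-- Ω stabilises no decomposition. -/
lemma not_le_decomposition (hQ : IsNondegenerateQuadraticForm Q) (hn : 6 ≤ Fintype.card ι)
    {t k : ℕ} {D : Fin t → Submodule F (ι → F)} (hD : IsMDecomposition k D)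
    (ht : t < 2 ^ (Fintype.card ι - 2 - k)) : ¬ omegaGL Q ≤ decompositionStabilizer D := by
  intro hle
  let i₀ : Fin t := ⟨0, by have := hD.two_le; omega⟩
  obtain ⟨w, hw, hw0⟩ := Submodule.exists_mem_ne_zero_of_ne_bot (p := D i₀) fun e => by
    have := hD.finrank_eq i₀
    rw [e, finrank_bot] at this
    exact (this ▸ hD.pos).ne rfl
  have hk : k ≤ Fintype.card ι - 2 := by
    by_contra hc
    rw [show Fintype.card ι - 2 - k = 0 by omega, pow_zero] at ht
    have := hD.two_le
    omega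
  obtain ⟨g, hg, -, hgw⟩ := exists_omega_move hQ hn 0 w (not_mem_span_zero hw0) (⋃ i, (D i : Set (ι → F))) (by
    rw [finrank_span_zero, Nat.sub_zero]
    have h1 : (⋃ i, (D i : Set (ι → F))).ncard ≤ ∑ i : Fin t, Fintype.card F ^ k := by
      refine (Set.ncard_iUnion_le_of_fintype _).trans (Finset.sum_le_sum fun i _ => ?_)
      rw [ncard_submodule, hD.finrank_eq]
    rw [Finset.sum_const, Finset.card_univ, Fintype.card_fin, smul_eq_mul] at h1
    have h2 : t < Fintype.card F ^ (Fintype.card ι - 2 - k) :=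
      lt_of_lt_of_le ht (Nat.pow_le_pow_left Fintype.one_lt_card _)
    calc _ ≤ t * Fintype.card F ^ k := h1
      _ < Fintype.card F ^ (Fintype.card ι - 2 - k) * Fintype.card F ^ k :=
        Nat.mul_lt_mul_of_pos_right h2 (pow_pos Fintype.card_pos _)
      _ = _ := by rw [← pow_add, Nat.sub_add_cancel hk])
  obtain ⟨σ, hσ⟩ := hle hg
  refine hgw (Set.mem_iUnion.2 ⟨σ i₀, ?_⟩)
  rw [← hσ i₀]
  exact ⟨w, hw, Matrix.toLin'_apply _ _⟩

/-- Ω normalises no field of degree two or three. -/
lemma not_le_normalizer (hQ : IsNondegenerateQuadraticForm Q) (hn : 6 ≤ Fintype.card ι) {r : ℕ}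
    {K : Subalgebra F (Matrix ι ι F)} (hK : IsFieldSubalgebra r K) (hr2 : 2 ≤ r)
    (hr : r + 4 ≤ Fintype.card ι) : ¬ omegaGL Q ≤ subalgebraNormalizer K := by
  intro hle
  obtain ⟨i⟩ : Nonempty ι := Fintype.card_pos_iff.1 (by omega)
  let v : ι → F := Pi.single i 1
  let E : K.toSubmodule →ₗ[F] (ι → F) :=
    { toFun := fun M => (M : Matrix ι ι F) *ᵥ v
      map_add' := fun M N => Matrix.add_mulVec _ _ _
      map_smul' := fun c M => Matrix.smul_mulVec _ _ _ }
  have hv : v ≠ 0 := by simp [v]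
  have hEinj : Function.Injective E := by
    rw [injective_iff_map_eq_zero]
    rintro ⟨M, hM⟩ h
    by_contra h0
    have hM0 : M ≠ 0 := fun e => h0 (Subtype.ext e)
    obtain ⟨N, hN, hMN⟩ := hK.inv M hM hM0
    apply hv
    have h2 : (N * M) *ᵥ v = 0 := by
      rw [← Matrix.mulVec_mulVec, show M *ᵥ v = 0 from h, Matrix.mulVec_zero]
    rwa [← hK.comm M hM N hN, hMN, Matrix.one_mulVec] at h2
  have hfr : Module.finrank F (LinearMap.range E) = r := by
    rw [LinearMap.finrank_range_of_inj hEinj]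
    exact hK.finrank_eq
  obtain ⟨w, ⟨⟨k, hk⟩, rfl⟩, hw⟩ : ∃ w ∈ LinearMap.range E, w ∉ Submodule.span F {v} := by
    refine SetLike.not_le_iff_exists.1 fun hle' => ?_
    have h1 := Submodule.finrank_mono hle'
    rw [hfr, finrank_span_singleton hv] at h1
    omega
  obtain ⟨g, hg, hgv, hgw⟩ := exists_omega_move hQ hn v _ hw (LinearMap.range E : Set (ι → F)) (by
    rw [ncard_submodule, hfr, finrank_span_singleton hv]
    exact Nat.pow_lt_pow_right Fintype.one_lt_card (by omega))
  apply hgw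
  refine ⟨⟨_, (hle hg k).1 hk⟩, ?_⟩
  show ((g : Matrix ι ι F) * k * ((g⁻¹ : GL ι F) : Matrix ι ι F)) *ᵥ v = (g : Matrix ι ι F) *ᵥ (k *ᵥ v)
  conv_lhs => rw [← hgv]
  rw [Matrix.mulVec_mulVec, Matrix.mulVec_mulVec, mul_assoc, ← Units.val_mul, inv_mul_cancel, Units.val_one,
    mul_one]

/-- Ω lies in no subfield group. -/
lemma not_le_subfield (hQ : IsNondegenerateQuadraticForm Q) (hn : 8 ≤ Fintype.card ι) {r : ℕ} (hr : 2 ≤ r)
    {F₀ : Subfield F} (hc : Fintype.card F = Nat.card F₀ ^ r) (P : GL ι F) :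
    ¬ omegaGL Q ≤ subfieldSubgroup F₀ P := by
  intro hle
  classical
  let f : F × (ι → F₀) → (ι → F) := fun p => p.1 • ((P : Matrix ι ι F) *ᵥ fun i => ((p.2 i : F₀) : F))
  have hS : (Set.range f).ncard < Fintype.card F ^ (Fintype.card ι - 2) := by
    have h1 : (Set.range f).ncard ≤ Fintype.card F * Nat.card F₀ ^ Fintype.card ι := by
      rw [← Nat.card_coe_set_eq]
      refine (Nat.card_le_card_of_surjective _ Set.rangeFactorization_surjective).trans ?_
      rw [Nat.card_prod, Nat.card_fun, Nat.card_eq_fintype_card (α := F), Nat.card_eq_fintype_card (α := ι)]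
    have hq0 : 1 < Nat.card F₀ := Finite.one_lt_card
    refine lt_of_le_of_lt h1 ?_
    rw [hc, ← pow_mul, ← pow_add]
    refine Nat.pow_lt_pow_right hq0 ?_
    obtain ⟨j, hj⟩ : ∃ j, Fintype.card ι = j + 8 := ⟨Fintype.card ι - 8, by omega⟩
    rw [hj, show j + 8 - 2 = j + 6 by omega]
    nlinarith
  obtain ⟨i⟩ : Nonempty ι := Fintype.card_pos_iff.1 (by omega)
  let w : ι → F := (P : Matrix ι ι F) *ᵥ Pi.single i 1
  have hw0 : w ≠ 0 := fun e => by
    have := Matrix.mulVec_injective_of_isUnit (Units.isUnit P) (e.trans (Matrix.mulVec_zero _).symm)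
    simp at this
  obtain ⟨g, hg, -, hgw⟩ := exists_omega_move hQ (by omega) 0 w (not_mem_span_zero hw0) (Set.range f)
    (by rw [finrank_span_zero, Nat.sub_zero]; exact hS)
  apply hgw
  obtain ⟨x, hx, rfl⟩ := hle hg
  obtain ⟨_, ⟨y, rfl⟩, z, hz, rfl⟩ := Subgroup.mem_sup_of_normal_right.1 hx
  obtain ⟨c, hc'⟩ := (mem_scalars_iff z).1 hz
  refine ⟨((c : F), fun a => (y : Matrix ι ι F₀) a i), ?_⟩
  show (c : F) • ((P : Matrix ι ι F) *ᵥ fun a => (((y : Matrix ι ι F₀) a i : F₀) : F)) =
    ((P * (Matrix.GeneralLinearGroup.map (F₀.subtype : F₀ →+* F) y * z) * P⁻¹ : GL ι F) : Matrix ι ι F) *ᵥ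
      ((P : Matrix ι ι F) *ᵥ Pi.single i 1)
  rw [Matrix.mulVec_mulVec, ← Units.val_mul, inv_mul_cancel_right, Units.val_mul, Units.val_mul, hc',
    Matrix.mul_smul, mul_one, Matrix.mul_smul, Matrix.smul_mulVec, ← Matrix.mulVec_mulVec]
  congr 2
  funext a
  simp [Matrix.mulVec_single]

/-- Ω lies in no tensor product subgroup. -/
lemma not_le_tensor (hQ : IsNondegenerateQuadraticForm Q) (hn : 6 ≤ Fintype.card ι) {s t : ℕ}
    (e : ι ≃ Fin s × Fin t) (P : GL ι F) (hst : s + t + 3 ≤ Fintype.card ι) :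
    ¬ omegaGL Q ≤ tensorProductSubgroup s t e P := by
  intro hle
  classical
  obtain ⟨x⟩ : Nonempty ι := Fintype.card_pos_iff.1 (by omega)
  let f : (Fin s → F) × (Fin t → F) → (ι → F) :=
    fun p => (P : Matrix ι ι F) *ᵥ fun u => p.1 (e u).1 * p.2 (e u).2
  have hS : (Set.range f).ncard < Fintype.card F ^ (Fintype.card ι - 2) := by
    rw [← Nat.card_coe_set_eq]
    refine lt_of_le_of_lt (Nat.card_le_card_of_surjective _ Set.rangeFactorization_surjective) ?_
    rw [Nat.card_prod, Nat.card_fun, Nat.card_fun, Nat.card_eq_fintype_card (α := F),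
      Nat.card_eq_fintype_card (α := Fin s), Nat.card_eq_fintype_card (α := Fin t), Fintype.card_fin,
      Fintype.card_fin, ← pow_add]
    exact Nat.pow_lt_pow_right Fintype.one_lt_card (by omega)
  let w : ι → F := (P : Matrix ι ι F) *ᵥ Pi.single x 1
  have hw0 : w ≠ 0 := fun e => by
    have := Matrix.mulVec_injective_of_isUnit (Units.isUnit P) (e.trans (Matrix.mulVec_zero _).symm)
    simp at this
  obtain ⟨g, hg, -, hgw⟩ := exists_omega_move hQ hn 0 w (not_mem_span_zero hw0) (Set.range f)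
    (by rw [finrank_span_zero, Nat.sub_zero]; exact hS)
  apply hgw
  obtain ⟨a, b, hab⟩ := mem_tensorProductSubgroup_iff.1 (hle hg)
  refine ⟨(fun i => (a : Matrix (Fin s) (Fin s) F) i (e x).1, fun j => (b : Matrix (Fin t) (Fin t) F) j (e x).2), ?_⟩
  show (P : Matrix ι ι F) *ᵥ _ = (g : Matrix ι ι F) *ᵥ ((P : Matrix ι ι F) *ᵥ Pi.single x 1)
  rw [hab, Matrix.mulVec_mulVec, mul_assoc, ← Units.val_mul, inv_mul_cancel, Units.val_one, mul_one,
    ← Matrix.mulVec_mulVec]
  congr 1
  funext u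
  simp [Matrix.mulVec_single, tens_apply]

end Cfsg.Agent.H6.OEven
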