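import Cfsg.Agent.H6.OEven.Forms

/-!
Types of orthogonal decompositions into non-degenerate blocks.
-/

set_option autoImplicit false
set_option linter.unusedSectionVars false

open scoped MatrixGroups Matrix

namespace Cfsg.Agent.H6.OEven

open Cfsg.Geo Cfsg.Agent.H99.Asch

variable {ι : Type} [Fintype ι] [DecidableEq ι] {F : Type*} [Field F] [Fintype F] {Q : (ι → F) → F}
  {t k : ℕ} {D : Fin t → Submodule F (ι → F)}

lemma plus_of_isometric_subspace {W W' : Submodule F (ι → F)} (h : AreIsometricFor Q W W')
    (hp : IsPlusTypeOn Q W) : IsPlusTypeOn Q W' := by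
  obtain ⟨e, he⟩ := h
  obtain ⟨U, hUW, hU, hUd⟩ := hp
  refine ⟨(U.comap W.subtype).map (W'.subtype.comp e.toLinearMap), ?_, ?_, ?_⟩
  · rintro _ ⟨x, -, rfl⟩
    exact (e x).2
  · rintro _ ⟨x, hx, rfl⟩
    exact (he x).trans (hU _ hx)
  · rw [← e.finrank_eq, ← hUd, ← (Submodule.comapSubtypeEquivOfLe hUW).finrank_eq]
    congr 1
    exact ((U.comap W.subtype).equivMapOfInjective _ ((W'.injective_subtype.comp e.injective : Function.Injective (W'.subtype.comp e.toLinearMap)))).finrank_eq.symm

lemma plus_iff_of_isometric_subspace {W W' : Submodule F (ι → F)} (h : AreIsometricFor Q W W') :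
    IsPlusTypeOn Q W ↔ IsPlusTypeOn Q W' :=
  ⟨plus_of_isometric_subspace h, plus_of_isometric_subspace (isometric_symm h)⟩

lemma disjoint_blockSup (hD : IsNondegenerateMDecomposition (QuadraticMap.polar Q) k D) {a : Fin t}
    {S : Finset (Fin t)} (ha : a ∉ S) : Disjoint (D a) (S.sup D) := by
  rw [Finset.sup_eq_iSup]
  exact hD.decomp.indep.disjoint_biSup (y := (S : Set (Fin t))) (by simpa using ha)

lemma orth_blockSup (hQ : IsNondegenerateQuadraticForm Q)
    (hD : IsNondegenerateMDecomposition (QuadraticMap.polar Q) k D) {a : Fin t}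
    {S : Finset (Fin t)} (ha : a ∉ S) : AreOrthogonalFor (QuadraticMap.polar Q) (D a) (S.sup D) := by
  have hle : S.sup D ≤ H5.perp (qf hQ) (D a) := Finset.sup_le fun b hb v hv =>
    H5.mem_perp.2 fun u hu => hD.orthogonal a b (fun e => ha (e ▸ hb)) u hu v hv
  exact fun u hu v hv => H5.mem_perp.1 (hle hv) u hu

lemma finrank_blockSup (hD : IsNondegenerateMDecomposition (QuadraticMap.polar Q) k D)
    (S : Finset (Fin t)) : Module.finrank F (S.sup D : Submodule F (ι → F)) = S.card * k := by
  classical
  induction S using Finset.induction with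
  | empty => simp
  | insert a S ha ih =>
    rw [Finset.sup_insert, finrank_sup_of_disjoint (disjoint_blockSup hD ha), hD.decomp.finrank_eq, ih,
      Finset.card_insert_of_notMem ha]
    ring

lemma blockSup_univ (hD : IsNondegenerateMDecomposition (QuadraticMap.polar Q) k D) :
    (Finset.univ : Finset (Fin t)).sup D = ⊤ := by
  rw [Finset.sup_univ_eq_iSup, hD.decomp.iSup_eq_top]

lemma plus_bot (hQ : IsNondegenerateQuadraticForm Q) : IsPlusTypeOn Q (⊥ : Submodule F (ι → F)) :=
  ⟨⊥, le_rfl, fun x hx => by rw [(Submodule.mem_bot F).1 hx]; exact map_zero' hQ, by simp⟩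

lemma plus_blockSup_of_all (hQ : IsNondegenerateQuadraticForm Q)
    (hD : IsNondegenerateMDecomposition (QuadraticMap.polar Q) k D) (hp : ∀ i, IsPlusTypeOn Q (D i))
    (S : Finset (Fin t)) : IsPlusTypeOn Q (S.sup D) := by
  classical
  induction S using Finset.induction with
  | empty => rw [Finset.sup_empty]; exact plus_bot hQ
  | insert a S ha ih =>
    rw [Finset.sup_insert]
    exact plus_sup hQ (orth_blockSup hQ hD ha) (disjoint_blockSup hD ha) (hp a) ih

lemma plus_blockSup_even (hQ : IsNondegenerateQuadraticForm Q) (hD : IsOrthogonalMDecomposition Q k D)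
    {m : ℕ} (hk : k = 2 * m) (S : Finset (Fin t)) (hS : Even S.card) : IsPlusTypeOn Q (S.sup D) := by
  classical
  induction S using Finset.strongInduction with
  | _ S ih =>
    rcases S.eq_empty_or_nonempty with rfl | ⟨a, ha⟩
    · rw [Finset.sup_empty]; exact plus_bot hQ
    have h2 : (S.erase a).Nonempty := by
      rw [← Finset.card_pos, Finset.card_erase_of_mem ha]
      obtain ⟨j, hj⟩ := hS
      have := Finset.card_pos.2 ⟨a, ha⟩
      omega
    obtain ⟨b, hb⟩ := h2
    obtain ⟨hba, hbS⟩ := Finset.mem_erase.1 hb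
    set R := (S.erase a).erase b with hR
    have hbR : b ∉ R := Finset.notMem_erase _ _
    have haR : a ∉ R := fun e => Finset.notMem_erase a S (Finset.mem_of_mem_erase e)
    have hRS : R ⊂ S := (Finset.erase_ssubset hb).trans_le (Finset.erase_subset _ _)
    have hRe : Even R.card := by
      rw [hR, Finset.card_erase_of_mem hb, Finset.card_erase_of_mem ha]
      obtain ⟨j, hj⟩ := hS
      exact ⟨j - 1, by omega⟩
    have hsplit : S = insert a (insert b R) := by
      rw [hR, Finset.insert_erase hb, Finset.insert_erase ha]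
    have hab : a ∉ insert b R := by
      rw [hR, Finset.insert_erase hb]; exact Finset.notMem_erase _ _
    rw [hsplit, Finset.sup_insert, Finset.sup_insert, ← sup_assoc]
    have hfr := finrank_blockSup hD.decomp (insert a (insert b R))
    rw [Finset.sup_insert, Finset.sup_insert, ← sup_assoc, Finset.card_insert_of_notMem hab,
      Finset.card_insert_of_notMem hbR] at hfr
    have hdab : Disjoint (D a) (D b) := hD.decomp.decomp.indep.pairwiseDisjoint (Ne.symm hba)
    refine plus_sup hQ ?_ ?_ (plus_of_isometric hQ (hD.decomp.nondegenerate a)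
      ((hD.decomp.decomp.finrank_eq a).trans hk) (hD.decomp.orthogonal a b (Ne.symm hba)) hdab
      (hD.isometric a b)) (ih R hRS hRe)
    · intro u hu v hv
      obtain ⟨x, hx, y, hy, rfl⟩ := Submodule.mem_sup.1 hu
      rw [hQ.polar_bilinear.add_left, orth_blockSup hQ hD.decomp haR x hx v hv,
        orth_blockSup hQ hD.decomp hbR y hy v hv, add_zero]
    · rw [disjoint_iff, ← Submodule.finrank_eq_zero]
      have h1 := Submodule.finrank_sup_add_finrank_inf_eq (D a ⊔ D b) (R.sup D)
      rw [hfr, finrank_sup_of_disjoint hdab, hD.decomp.decomp.finrank_eq, hD.decomp.decomp.finrank_eq,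
        finrank_blockSup hD.decomp] at h1
      have e : (R.card + 1 + 1) * k = R.card * k + k + k := by ring
      omega

/-- An even number of isometric blocks of even dimension gives plus type. -/
lemma plus_of_even_blocks (hQ : IsNondegenerateQuadraticForm Q) (hD : IsOrthogonalMDecomposition Q k D)
    (hk : Even k) (ht : Even t) : IsPlusTypeOn Q ⊤ := by
  obtain ⟨m, hm⟩ := hk
  rw [← blockSup_univ hD.decomp]
  exact plus_blockSup_even hQ hD (m := m) (by omega) _ (by simpa using ht)

lemma plus_of_plus_blocks (hQ : IsNondegenerateQuadraticForm Q)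
    (hD : IsNondegenerateMDecomposition (QuadraticMap.polar Q) k D) (hp : ∀ i, IsPlusTypeOn Q (D i)) :
    IsPlusTypeOn Q ⊤ := by
  rw [← blockSup_univ hD]
  exact plus_blockSup_of_all hQ hD hp _

/-- An odd number of isometric blocks of even dimension have the type of the whole space. -/
lemma blocks_plus_of_odd (hQ : IsNondegenerateQuadraticForm Q) (hD : IsOrthogonalMDecomposition Q k D)
    (hk : Even k) (ht : Odd t) (hplus : IsPlusTypeOn Q ⊤) (i : Fin t) : IsPlusTypeOn Q (D i) := by
  classical
  obtain ⟨m, hm⟩ := hk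
  have hi : i ∉ (Finset.univ.erase i) := Finset.notMem_erase _ _
  have hev : Even (Finset.univ.erase i).card := by
    rw [Finset.card_erase_of_mem (Finset.mem_univ i), Finset.card_univ, Fintype.card_fin]
    obtain ⟨j, hj⟩ := ht
    exact ⟨j, by omega⟩
  refine plus_cancel hQ hplus (orth_blockSup hQ hD.decomp hi) (disjoint_blockSup hD.decomp hi) ?_
    (plus_blockSup_even hQ hD (m := m) (by omega) _ hev)
  have h1 := finrank_sup_of_disjoint (disjoint_blockSup hD.decomp hi)
  rw [← Finset.sup_insert, Finset.insert_erase (Finset.mem_univ i), blockSup_univ hD.decomp, finrank_top,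
    Module.finrank_fintype_fun_eq_card] at h1
  exact h1.symm

lemma isSquare_mul_sq_iff {x s : F} (hs : s ≠ 0) : IsSquare (x * (s * s)) ↔ IsSquare x := by
  constructor
  · rintro ⟨r, hr⟩
    exact ⟨r / s, by field_simp; linear_combination hr⟩
  · exact fun h => h.mul ⟨s, rfl⟩

/-- In odd characteristic an even number of isometric blocks has square discriminant. -/
lemma plus_iff_of_blocks (hQ : IsNondegenerateQuadraticForm Q) (h2 : (2 : F) ≠ 0)
    (hD : IsOrthogonalMDecomposition Q k D) (ht : Even t) {m : ℕ} (hn : Fintype.card ι = 2 * m) :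
    IsPlusTypeOn Q ⊤ ↔ IsSquare ((-1 : F) ^ m) := by
  classical
  have hk := hD.decomp.decomp.pos
  have h2' := hD.decomp.decomp.two_le
  obtain ⟨α, hα⟩ := FiniteField.exists_nonsquare (F := F)
    (show ringChar F ≠ 2 from fun e => by
      haveI := ringChar.eq_iff.1 e
      exact h2 CharTwo.two_eq_zero)
  obtain ⟨k', hk'⟩ : ∃ k', k = k' + 1 := ⟨k - 1, by omega⟩
  let i₀ : Fin t := ⟨0, by omega⟩
  obtain ⟨b, d, hd, hbW, hbo, hbq⟩ := exists_orth_family hQ h2 (hD.decomp.nondegenerate i₀)
    ((hD.decomp.decomp.finrank_eq i₀).trans hk') α hα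
  let c : Fin (k' + 1) → F := fun j => if j = Fin.last k' then d else 1
  have hc0 : ∀ j, c j ≠ 0 := fun j => by
    have : d ≠ 0 := by
      rcases hd with rfl | rfl
      · exact one_ne_zero
      · exact fun e => hα (e ▸ IsSquare.zero)
    simp only [c]
    split_ifs
    · exact this
    · exact one_ne_zero
  choose e he using fun i => hD.isometric i₀ i
  let B : Fin t × Fin (k' + 1) → ι → F := fun p => (e p.1 ⟨b p.2, hbW p.2⟩ : ι → F)
  have key := plus_iff_of_orth_family hQ h2 B (fun p => c p.2) (m := m)
    (by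
      rw [Fintype.card_prod, Fintype.card_fin, Fintype.card_fin, ← hn, ← hk',
        mDecomposition_card hD.decomp.decomp])
    hn
    (fun p p' hne => by
      by_cases h : p.1 = p'.1
      · have hj : p.2 ≠ p'.2 := fun e => hne (Prod.ext h e)
        obtain ⟨i, j⟩ := p
        obtain ⟨i', j'⟩ := p'
        simp only at h hj
        subst h
        have h1 := hbo j j' hj
        simp only [B, QuadraticMap.polar, ← Submodule.coe_add, ← map_add, he] at h1 ⊢
        exact h1
      · exact hD.decomp.orthogonal _ _ h _ (e p.1 _).2 _ (e p'.1 _).2)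
    (fun p => (he p.1 _).trans (hbq p.2)) (fun p => hc0 p.2)
  rw [key, Fintype.prod_prod_type]
  dsimp only
  rw [Finset.prod_const, Finset.card_univ, Fintype.card_fin]
  obtain ⟨s, hs⟩ := ht
  rw [hs, pow_add]
  exact isSquare_mul_sq_iff (pow_ne_zero _ (Finset.prod_ne_zero_iff.2 fun j _ => mul_ne_zero h2 (hc0 j)))

/-- In odd characteristic two non-isometric halves of odd dimension. -/
lemma plus_iff_of_nonisometric (hQ : IsNondegenerateQuadraticForm Q) (h2 : (2 : F) ≠ 0)
    {W W' : Submodule F (ι → F)} (hW : IsNondegenerateOn (QuadraticMap.polar Q) W)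
    (hW' : IsNondegenerateOn (QuadraticMap.polar Q) W')
    (horth : AreOrthogonalFor (QuadraticMap.polar Q) W W') {j : ℕ} (hd : Module.finrank F W = 2 * j + 1)
    (hd' : Module.finrank F W' = 2 * j + 1) (hn : Fintype.card ι = 2 * (2 * j + 1))
    (hni : ¬ AreIsometricFor Q W W') : IsPlusTypeOn Q ⊤ ↔ ¬ IsSquare (-1 : F) := by
  classical
  obtain ⟨α, hα⟩ := FiniteField.exists_nonsquare (F := F)
    (show ringChar F ≠ 2 from fun e => by
      haveI := ringChar.eq_iff.1 e
      exact h2 CharTwo.two_eq_zero)
  obtain ⟨b, d, hd1, hbo, hbq⟩ := H4.exists_orth_basis h2 (restrict_nondeg hQ hW) hd α hα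
  obtain ⟨b', d', hd1', hbo', hbq'⟩ := H4.exists_orth_basis h2 (restrict_nondeg hQ hW') hd' α hα
  have hne : d ≠ d' := by
    rintro rfl
    refine hni ?_
    have hg : ∀ {X : Submodule F (ι → F)} (c : Module.Basis (Fin (2 * j + 1)) F X),
        (∀ i i', i ≠ i' → QuadraticMap.polar ((qf hQ).comp X.subtype) (c i) (c i') = 0) →
        (∀ i, ((qf hQ).comp X.subtype) (c i) = if i = Fin.last (2 * j) then d else 1) →
        H4.gram ((qf hQ).comp X.subtype) c =
          Matrix.diagonal fun i => 2 * (if i = Fin.last (2 * j) then d else 1) := by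
      intro X c ho hq
      ext i i'
      rw [Matrix.diagonal_apply]
      show QuadraticMap.polar ((qf hQ).comp X.subtype) (c i) (c i') = _
      split_ifs with e
      · subst e
        rw [H5.polar_self', hq]
        simp [*]
      · subst e
        rw [H5.polar_self', hq]
        simp [*]
      · exact ho i i' e
    obtain ⟨g, hg'⟩ := H4.isom_of_disc h2 (restrict_nondeg hQ hW) (restrict_nondeg hQ hW')
      (hd.trans hd'.symm) b b' (by rw [hg b hbo hbq, hg b' hbo' hbq']; exact ⟨_, rfl⟩)
    exact ⟨g, hg'⟩
  let B : Fin (2 * j + 1) ⊕ Fin (2 * j + 1) → ι → F :=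
    Sum.elim (fun i => (b i : ι → F)) (fun i => (b' i : ι → F))
  let c : Fin (2 * j + 1) ⊕ Fin (2 * j + 1) → F :=
    Sum.elim (fun i => if i = Fin.last (2 * j) then d else 1) (fun i => if i = Fin.last (2 * j) then d' else 1)
  have hα0 : α ≠ 0 := fun e => hα (e ▸ IsSquare.zero)
  have hnz : ∀ {x : F}, x = 1 ∨ x = α → ∀ i : Fin (2 * j + 1),
      (if i = Fin.last (2 * j) then x else (1 : F)) ≠ 0 := by
    rintro x (rfl | rfl) i <;> split_ifs <;> first | exact one_ne_zero | exact hα0
  have key := plus_iff_of_orth_family hQ h2 B c (m := 2 * j + 1) (by simp; omega) hn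
    (by
      rintro (i | i) (i' | i') hne'
      · have := hbo i i' (fun e => hne' (by rw [e]))
        simpa [B, QuadraticMap.polar] using this
      · exact horth _ (b i).2 _ (b' i').2
      · show QuadraticMap.polar Q _ _ = 0
        rw [QuadraticMap.polar_comm]
        exact horth _ (b i').2 _ (b' i).2
      · have := hbo' i i' (fun e => hne' (by rw [e]))
        simpa [B, QuadraticMap.polar] using this)
    (by rintro (i | i) <;> [exact hbq i; exact hbq' i])
    (by rintro (i | i) <;> [exact hnz hd1 i; exact hnz hd1' i])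
  rw [key, Fintype.prod_sum_type]
  simp only [c, Sum.elim_inl, Sum.elim_inr, Finset.prod_mul_distrib, Finset.prod_ite_eq', Finset.mem_univ,
    if_true]
  have hdd : d * d' = α := by
    rcases hd1 with rfl | rfl <;> rcases hd1' with rfl | rfl
    · exact absurd rfl hne
    · exact one_mul _
    · exact mul_one _
    · exact absurd rfl hne
  have e1 : ∀ P : F, (-1 : F) ^ (2 * j + 1) * (P * d * (P * d')) = -1 * α * (P * P) := fun P => by
    rw [← hdd, pow_succ, pow_mul]; ring
  rw [e1, isSquare_mul_sq_iff (Finset.prod_ne_zero_iff.2 fun i _ => h2)]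
  constructor
  · intro h hsq
    exact hα (by simpa using hsq.mul h)
  · intro hsq
    exact H4.isSquare_mul_of_not hsq hα

end Cfsg.Agent.H6.OEven
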