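import Cfsg.Agent.H6.OEven.Subspace
import Cfsg.Agent.H6.OEven.Blocks

/-!
Imprimitive maximal subgroups of Ω in even dimension.
-/

set_option autoImplicit false
set_option linter.unusedSectionVars false

open scoped MatrixGroups Matrix

namespace Cfsg.Agent.H6.OEven

open Cfsg.Geo Cfsg.Agent.H99.Asch

variable {n : ℕ} {F : Type*} [Field F] [Fintype F] {Q : (Fin n → F) → F}
  {H : Subgroup (GL (Fin n) F)}

/-- The possible outcomes for a group preserving an orthogonal decomposition. -/
inductive DecCase (Q : (Fin n → F) → F) (H : Subgroup (GL (Fin n) F)) : Prop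
  | red (h : RedCase Q H)
  | blocks (t k : ℕ) (D : Fin t → Submodule F (Fin n → F)) (hD : IsOrthogonalMDecomposition Q k D)
      (htk : t * k = n) (heq : H = decompositionStabilizer D ⊓ omegaGL Q)

lemma two_mul_lt_two_pow {j : ℕ} (hj : 3 ≤ j) : 2 * j < 2 ^ j := by
  induction j with
  | zero => omega
  | succ j ih =>
    rcases Nat.lt_or_ge j 3 with h | h
    · interval_cases j <;> simp_all
    · have := ih h
      rw [pow_succ]
      omega

lemma blocks_count {t k : ℕ} (hn : 8 ≤ n) (hev : Even n) (h : t * k = n) (ht : 2 ≤ t) :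
    t < 2 ^ (n - 2 - k) := by
  obtain ⟨j, hj⟩ := hev
  have hk : 0 < k := Nat.pos_of_ne_zero fun e => by rw [e, mul_zero] at h; omega
  rcases ht.lt_or_eq with h3 | rfl
  · have h1 : 3 * k ≤ n := by rw [← h]; exact Nat.mul_le_mul_right k h3
    have h2 : t ≤ n := by rw [← h]; exact Nat.le_mul_of_pos_right t hk
    calc t ≤ 2 * j := by omega
      _ < 2 ^ j := two_mul_lt_two_pow (by omega)
      _ ≤ _ := Nat.pow_le_pow_right (by norm_num) (by omega)
  · calc (2 : ℕ) < 2 ^ 2 := by norm_num
      _ ≤ _ := Nat.pow_le_pow_right (by norm_num) (by omega)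

/-- The decomposition alternative of the form-relative theorem. -/
theorem dec_cases (hQ : IsNondegenerateQuadraticForm Q) (hn : 8 ≤ n) (hev : Even n)
    (hH : IsMaximalIn (omegaGL Q) H) (h : InFormDecomposition (polarData hQ) H) : DecCase Q H := by
  classical
  obtain ⟨t, k, D, hD, hle⟩ := h
  rw [polarData_form] at hD
  have htk : t * k = n := (mDecomposition_card hD.decomp).trans (Fintype.card_fin n)
  let i₀ : Fin t := ⟨0, by have := hD.decomp.two_le; omega⟩
  let O : Finset (Fin t) := Finset.univ.filter fun j => ∃ h ∈ H,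
    (D i₀).map (Matrix.toLin' (h : Matrix (Fin n) (Fin n) F)) = D j
  have hmem : ∀ {j}, j ∈ O ↔ ∃ h ∈ H, (D i₀).map (Matrix.toLin' (h : Matrix (Fin n) (Fin n) F)) = D j :=
    fun {j} => by simp [O]
  by_cases hall : ∀ j, j ∈ O
  · have hiso : ∀ j, AreIsometricFor Q (D i₀) (D j) := fun j => by
      obtain ⟨g, hg, hgj⟩ := hmem.1 (hall j)
      exact isometric_of_map (hH.1.le hg) hgj
    refine .blocks t k D ⟨hD, fun i j => isometric_trans (isometric_symm (hiso i)) (hiso j)⟩ htk
      (eq_inf_of_maximal hH hle (not_le_decomposition hQ (by simp; omega) hD.decomp ?_))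
    simpa using blocks_count hn hev htk hD.decomp.two_le
  push Not at hall
  obtain ⟨j₁, hj₁⟩ := hall
  refine .red (red_of_nondeg' hQ hn hH (W := O.sup D) ?_ ?_ ?_ ?_)
  · intro e
    have h1 := finrank_blockSup hD O
    rw [e, finrank_bot] at h1
    have hpos : 0 < O.card := Finset.card_pos.2 ⟨i₀, hmem.2 ⟨1, H.one_mem, by simp⟩⟩
    have := Nat.mul_pos hpos hD.decomp.pos
    omega
  · intro e
    have h1 : D j₁ ≤ O.sup D := by rw [e]; exact le_top
    have h2 : D j₁ = ⊥ := (disjoint_blockSup hD hj₁).eq_bot_of_le h1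
    have h3 := hD.decomp.finrank_eq j₁
    rw [h2, finrank_bot] at h3
    have := hD.decomp.pos
    omega
  · refine H5.isNondegenerateOn_of_inf_perp (qf hQ) (H98.coe_qOfFun hQ) ?_
    rw [eq_bot_iff]
    rintro x ⟨hx, hxp⟩
    rw [Submodule.mem_bot]
    by_contra hx0
    obtain ⟨-, y, hy⟩ := hQ.nondegenerate x hx0
    apply hy
    have key : (Finset.univ : Finset (Fin t)).sup D ≤ H5.perp (qf hQ) (Submodule.span F {x}) := by
      refine Finset.sup_le fun b _ v hv => H5.mem_perp_span.2 ?_
      by_cases hb : b ∈ O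
      · show QuadraticMap.polar Q x v = 0
        rw [QuadraticMap.polar_comm]
        exact H5.mem_perp.1 hxp v (Finset.le_sup (f := D) hb hv)
      · show QuadraticMap.polar Q x v = 0
        rw [QuadraticMap.polar_comm]
        exact orth_blockSup hQ hD hb v hv x hx
    rw [blockSup_univ hD] at key
    exact H5.mem_perp_span.1 (key (Submodule.mem_top (x := y)))
  · intro g hg
    refine mem_subspaceStabilizer_of fun v hv => ?_
    have hle' : (O.sup D).map (Matrix.toLin' (g : Matrix (Fin n) (Fin n) F)) ≤ O.sup D := by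
      rw [Submodule.map_le_iff_le_comap]
      refine Finset.sup_le fun b hb => ?_
      rw [← Submodule.map_le_iff_le_comap]
      obtain ⟨σ, hσ⟩ := hle hg
      rw [hσ b]
      refine Finset.le_sup (f := D) (hmem.2 ?_)
      obtain ⟨k', hk', hb'⟩ := hmem.1 hb
      refine ⟨g * k', H.mul_mem hg hk', ?_⟩
      rw [Units.val_mul, Matrix.toLin'_mul, Submodule.map_comp, hb', hσ b]
    exact hle' ⟨v, hv, Matrix.toLin'_apply _ _⟩

/-- The two halves given by an invariant non-degenerate subspace of half the dimension. -/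
theorem half_decomp (hQ : IsNondegenerateQuadraticForm Q) (hH : IsMaximalIn (omegaGL Q) H) (hn : 8 ≤ n)
    {W : Submodule F (Fin n → F)} (hd : 2 * Module.finrank F W = n)
    (hnd : IsNondegenerateOn (QuadraticMap.polar Q) W) (hle : H ≤ subspaceStabilizer W) :
    IsNondegenerateMDecomposition (QuadraticMap.polar Q) (Module.finrank F W) ![W, H5.perp (qf hQ) W] ∧
      H = decompositionStabilizer ![W, H5.perp (qf hQ) W] ⊓ omegaGL Q := by
  obtain ⟨h1, h2, h3, h4⟩ := nondeg_perp hQ hnd
  have hdec : IsNondegenerateMDecomposition (QuadraticMap.polar Q) (Module.finrank F W)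
      ![W, H5.perp (qf hQ) W] := by
    refine ⟨⟨le_rfl, by omega, ?_, ?_, ?_⟩, ?_, ?_⟩
    · intro i
      fin_cases i
      · rfl
      · show Module.finrank F (H5.perp (qf hQ) W) = _
        omega
    · rw [iSupIndep_pair (by decide : (0 : Fin 2) ≠ 1) (fun i => by fin_cases i <;> simp)]
      exact h4
    · have htop : W ⊔ H5.perp (qf hQ) W = ⊤ := Submodule.eq_top_of_finrank_eq (by
        rw [finrank_sup_of_disjoint h4, Module.finrank_fintype_fun_eq_card, Fintype.card_fin, h2])
      exact eq_top_iff.2 (htop ▸ sup_le (le_iSup ![W, H5.perp (qf hQ) W] 0)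
        (le_iSup ![W, H5.perp (qf hQ) W] 1))
    · intro i
      fin_cases i
      · exact hnd
      · exact h1
    · intro i j hij u hu v hv
      fin_cases i <;> fin_cases j
      · exact absurd rfl hij
      · exact h3 u hu v hv
      · show QuadraticMap.polar Q u v = 0
        rw [QuadraticMap.polar_comm]
        exact h3 v hv u hu
      · exact absurd rfl hij
  refine ⟨hdec, eq_inf_of_maximal hH (fun g hg => ⟨1, fun i => ?_⟩)
    (not_le_decomposition hQ (by simp; omega) hdec.decomp ?_)⟩
  · have key : ∀ X : Submodule F (Fin n → F), H ≤ subspaceStabilizer X →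
        X.map (Matrix.toLin' (g : Matrix (Fin n) (Fin n) F)) = X := fun X hX => by
      refine Submodule.eq_of_le_of_finrank_eq ?_
        (X.equivMapOfInjective _ (Matrix.mulVec_injective_of_isUnit (Units.isUnit g))).finrank_eq.symm
      rintro _ ⟨v, hv, rfl⟩
      exact (hX hg v).1 hv
    fin_cases i
    · exact key W hle
    · exact key _ (perp_invariant hQ hH.1.le hle)
  · rw [Fintype.card_fin]
    calc (2 : ℕ) < 2 ^ 2 := by norm_num
      _ ≤ _ := Nat.pow_le_pow_right (by norm_num) (by omega)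

/-- An orthonormal frame over a field that is not prime puts H into a subfield group. -/
theorem line_subfield (hQ : IsNondegenerateQuadraticForm Q) {t : ℕ} {D : Fin t → Submodule F (Fin n → F)}
    (hD : IsOrthogonalMDecomposition Q 1 D) (htk : t * 1 = n) (hH : H ≤ omegaGL Q)
    (hle : H ≤ decompositionStabilizer D) (hq : ¬ (Fintype.card F).Prime) :
    ∃ (F₀ : Subfield F) (r : ℕ) (P : GL (Fin n) F) (ζ : F), r.Prime ∧ Fintype.card F = Nat.card F₀ ^ r ∧
      ζ ≠ 0 ∧ IsQuadFormRationalStructure (fun v : Fin n → F => ζ * Q v) F₀ P ∧ H ≤ subfieldSubgroup F₀ P := by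
  classical
  rw [mul_one] at htk
  subst htk
  have h2 : (2 : F) ≠ 0 := two_ne_zero_of_odd_finrank hQ
    (hD.decomp.nondegenerate ⟨0, by have := hD.decomp.decomp.two_le; omega⟩)
    (by rw [hD.decomp.decomp.finrank_eq]; exact odd_one)
  have hex : ∀ i, ∃ v : D i, (v : Fin t → F) ≠ 0 := fun i => by
    obtain ⟨v, hv, hv0⟩ := Submodule.exists_mem_ne_zero_of_ne_bot (p := D i) fun e => by
      have := hD.decomp.decomp.finrank_eq i
      rw [e, finrank_bot] at this
      omega
    exact ⟨⟨v, hv⟩, hv0⟩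
  let i₀ : Fin t := ⟨0, by have := hD.decomp.decomp.two_le; omega⟩
  obtain ⟨v0, hv0⟩ := hex i₀
  choose e he using fun i => hD.isometric i₀ i
  set c := Q (v0 : Fin t → F) with hc
  let w : Fin t → Fin t → F := fun i => (e i v0 : Fin t → F)
  have hwc : ∀ i, Q (w i) = c := fun i => he i v0
  have hw0 : ∀ i, w i ≠ 0 := fun i e0 => hv0 (by
    have : e i v0 = 0 := Subtype.ext e0
    rw [(e i).map_eq_zero_iff.1 this]; rfl)
  have hspan : ∀ i, ∀ v ∈ D i, ∃ a : F, a • w i = v := fun i v hv => by
    obtain ⟨a, ha⟩ := exists_smul_eq_of_finrank_eq_one (hD.decomp.decomp.finrank_eq i) (x := e i v0)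
      (fun e0 => hw0 i (congrArg Subtype.val e0)) ⟨v, hv⟩
    exact ⟨a, congrArg Subtype.val ha⟩
  have hc0 : c ≠ 0 := fun e0 => by
    obtain ⟨⟨x, hx, hne⟩, -⟩ := hD.decomp.nondegenerate i₀ (w i₀) (e i₀ v0).2 (hw0 i₀)
    obtain ⟨a, rfl⟩ := hspan i₀ x hx
    rw [hQ.polar_bilinear.smul_left, polar_self hQ, hwc, e0, mul_zero, mul_zero] at hne
    exact hne rfl
  have hpol : ∀ i j, QuadraticMap.polar Q (w i) (w j) = if i = j then 2 * c else 0 := by
    intro i j
    split_ifs with h
    · subst h; rw [polar_self hQ, hwc]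
    · exact hD.decomp.orthogonal i j h _ (e i v0).2 _ (e j v0).2
  let M : Matrix (Fin t) (Fin t) F := Matrix.of fun a i => w i a
  have hMv : ∀ u : Fin t → F, M *ᵥ u = ∑ i, u i • w i := fun u => by
    funext a
    simp [M, Matrix.mulVec, dotProduct, mul_comm]
  have hMu : IsUnit M := by
    rw [← Matrix.mulVec_injective_iff_isUnit]
    refine (injective_iff_map_eq_zero (Matrix.mulVecLin M)).2 fun u hu => funext fun j => ?_
    have h1 := congrArg (fun x => QuadraticMap.polarBilin (qf hQ) x (w j)) ((hMv u).symm.trans hu)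
    simp only [map_sum, map_smul, LinearMap.sum_apply, LinearMap.smul_apply, map_zero, LinearMap.zero_apply,
      smul_eq_mul] at h1
    rw [Finset.sum_eq_single j] at h1
    · rw [show QuadraticMap.polarBilin (qf hQ) (w j) (w j) = 2 * c from (hpol j j).trans (if_pos rfl)] at h1
      exact (mul_eq_zero.1 h1).resolve_right (mul_ne_zero h2 hc0)
    · intro i _ hij
      rw [show QuadraticMap.polarBilin (qf hQ) (w i) (w j) = 0 from (hpol i j).trans (if_neg hij), mul_zero]
    · simp
  obtain ⟨p, hp⟩ := CharP.exists F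
  obtain ⟨d, hpp, hd⟩ := FiniteField.card F p
  have : Fact p.Prime := ⟨hpp⟩
  obtain ⟨K₀, hK₀⟩ := exists_subfield (F := F) (p := p) (d := 1) hd (one_dvd _)
  rw [pow_one] at hK₀
  obtain ⟨F₁, r, -, hr, hcard⟩ := exists_prime_index K₀ (fun e0 => hq (by
    rw [← (subfield_eq_top_iff K₀).1 e0, hK₀]; exact hpp))
  refine ⟨F₁, r, hMu.unit, c⁻¹, hr, hcard, inv_ne_zero hc0, fun u hu => ?_, fun g hg => ?_⟩
  · show c⁻¹ * Q (M *ᵥ u) ∈ F₁
    rw [hMv]
    have hS : ∀ S : Finset (Fin t), Q (∑ i ∈ S, u i • w i) = c * ∑ i ∈ S, u i ^ 2 := by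
      intro S
      induction S using Finset.induction with
      | empty => simp [map_zero' hQ]
      | insert a S ha ih =>
        rw [Finset.sum_insert ha, Finset.sum_insert ha, qf_add hQ, hQ.smul, hwc, ih]
        have : QuadraticMap.polar Q (u a • w a) (∑ i ∈ S, u i • w i) = 0 := by
          show QuadraticMap.polarBilin (qf hQ) (u a • w a) (∑ i ∈ S, u i • w i) = 0
          rw [map_sum]
          refine Finset.sum_eq_zero fun i hi => ?_
          rw [map_smul, map_smul, LinearMap.smul_apply,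
            show QuadraticMap.polarBilin (qf hQ) (w a) (w i) = 0 from
              (hpol a i).trans (if_neg fun (e0 : a = i) => ha (e0 ▸ hi)), smul_zero, smul_zero]
        rw [this]; ring
    rw [hS, ← mul_assoc, inv_mul_cancel₀ hc0, one_mul]
    exact sum_mem fun i _ => F₁.pow_mem (hu i) 2
  · obtain ⟨σ, hσ⟩ := hle hg
    have hcol : ∀ i, ∃ a : F, (a = 1 ∨ a = -1) ∧ (g : Matrix (Fin t) (Fin t) F) *ᵥ w i = a • w (σ i) := by
      intro i
      obtain ⟨a, ha⟩ := hspan (σ i) ((g : Matrix (Fin t) (Fin t) F) *ᵥ w i)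
        (hσ i ▸ ⟨w i, (e i v0).2, Matrix.toLin'_apply _ _⟩)
      refine ⟨a, ?_, ha.symm⟩
      have h1 := isometry_of_mem_omega (hH hg) (w i)
      rw [← ha, hQ.smul, hwc, hwc, mul_eq_right₀ hc0, sq] at h1
      exact mul_self_eq_one_iff.1 h1
    choose a ha1 hga using hcol
    let N : Matrix (Fin t) (Fin t) F := Matrix.of fun j i => if j = σ i then a i else 0
    refine mem_subfieldSubgroup_of_entries F₁ hMu.unit g (M := N) one_ne_zero (fun j i => ?_) ?_
    · show (if j = σ i then a i else 0) ∈ F₁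
      split_ifs
      · rcases ha1 i with h | h <;> rw [h]
        · exact F₁.one_mem
        · exact F₁.neg_mem F₁.one_mem
      · exact F₁.zero_mem
    · have hMN : M * N = (g : Matrix (Fin t) (Fin t) F) * M := by
        refine Matrix.ext_of_mulVec_single fun i => ?_
        rw [← Matrix.mulVec_mulVec, ← Matrix.mulVec_mulVec, hMv, hMv]
        simp [N, Matrix.mulVec_single, Pi.single_apply, Matrix.mulVec_sum, hga, ite_smul]
      rw [one_smul, Units.val_mul, Units.val_mul, mul_assoc, IsUnit.unit_spec, ← hMN, ← mul_assoc]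
      have hinv : ((hMu.unit⁻¹ : GL (Fin t) F) : Matrix (Fin t) (Fin t) F) * M = 1 := hMu.unit.inv_mul
      rw [hinv, one_mul]

end Cfsg.Agent.H6.OEven
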