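import Cfsg.Agent.H6.OEven.Halves

/-!
Subfields of the matrix algebra normalised by a group of isometries of a quadratic form.
-/

set_option autoImplicit false
set_option linter.unusedSectionVars false

open scoped MatrixGroups Matrix

namespace Cfsg.Agent.H6.OEven

open Cfsg.Geo Cfsg.Agent.H99.Asch

variable {n : ℕ} {F : Type*} [Field F] [Fintype F] {Q : (Fin n → F) → F}
  {H : Subgroup (GL (Fin n) F)}

/-- The field alternative gives a subfield of prime degree. -/
theorem field_prime (hQ : IsNondegenerateQuadraticForm Q) (hn : 2 ≤ n) {N : Subgroup (GL (Fin n) F)}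
    (h : InFormField (polarData hQ) H N) :
    ∃ (r : ℕ) (L : Subalgebra F (Matrix (Fin n) (Fin n) F)), r.Prime ∧ r ∣ n ∧ IsFieldSubalgebra r L ∧
      (∀ k ∈ L, (polarData hQ).adj k ∈ L) ∧ Normalises H L := by
  have : Nonempty (Fin n) := ⟨⟨0, by omega⟩⟩
  obtain ⟨d, hd, hK, hKa, hKn⟩ := h
  obtain ⟨r, L, hr, -, hrn, hL, hLa, hLn⟩ := exists_prime_field_adj (polarData hQ) hK hd hKa hKn
  exact ⟨r, L, hr, by simpa using hrn, hL, hLa, hLn⟩

/-- A normalised field of small degree gives a member of the field class. -/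
theorem field_eq (hQ : IsNondegenerateQuadraticForm Q) (hn : 8 ≤ n) (hH : IsMaximalIn (omegaGL Q) H) {r : ℕ}
    {L : Subalgebra F (Matrix (Fin n) (Fin n) F)} (hr : r.Prime) (hr3 : r ≤ 3) (hL : IsFieldSubalgebra r L)
    (hLn : Normalises H L) : H = subalgebraNormalizer L ⊓ omegaGL Q :=
  eq_inf_of_maximal hH (le_subalgebraNormalizer hLn)
    (not_le_normalizer hQ (by simp; omega) hL hr.two_le (by simp; omega))

lemma selfAdjointFor_of (hQ : IsNondegenerateQuadraticForm Q) {L : Subalgebra F (Matrix (Fin n) (Fin n) F)}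
    (hself : ∀ k ∈ L, (polarData hQ).adj k = k) : IsSelfAdjointFor (QuadraticMap.polar Q) L := by
  intro k hk u v
  rw [← polarData_form hQ, (polarData hQ).form_adj, hself k hk]

lemma adjointClosedFor_of (hQ : IsNondegenerateQuadraticForm Q) {L : Subalgebra F (Matrix (Fin n) (Fin n) F)}
    (hLa : ∀ k ∈ L, (polarData hQ).adj k ∈ L) : IsAdjointClosedFor (QuadraticMap.polar Q) L :=
  polarData_form hQ ▸ (polarData hQ).isAdjointClosedFor hLa

lemma adj_eq_of_selfAdjointFor (hQ : IsNondegenerateQuadraticForm Q)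
    {L : Subalgebra F (Matrix (Fin n) (Fin n) F)} (hs : IsSelfAdjointFor (QuadraticMap.polar Q) L)
    {a : Matrix (Fin n) (Fin n) F} (ha : a ∈ L) : (polarData hQ).adj a = a := by
  refine Matrix.toLin'.injective (LinearMap.ext fun v => ?_)
  rw [Matrix.toLin'_apply, Matrix.toLin'_apply]
  by_contra hne
  obtain ⟨⟨u, hu⟩, -⟩ := (polarData hQ).nondegenerate _ (sub_ne_zero.2 hne)
  apply hu
  have h1 := hs a ha u v
  rw [← polarData_form hQ] at h1
  rw [sub_eq_add_neg, (polarData hQ).form_add_right, ← (polarData hQ).form_adj, h1,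
    ← neg_one_smul F (a *ᵥ v), (polarData hQ).form_smul_right]
  simp [polarData_σ]

/-- The adjoint on a field of prime degree is trivial, or the degree is two and only scalars are fixed. -/
theorem self_or_unitary (hQ : IsNondegenerateQuadraticForm Q) (hn : 2 ≤ n) {r : ℕ}
    {L : Subalgebra F (Matrix (Fin n) (Fin n) F)} (hr : r.Prime) (hL : IsFieldSubalgebra r L)
    (hLa : ∀ k ∈ L, (polarData hQ).adj k ∈ L) :
    (∀ k ∈ L, (polarData hQ).adj k = k) ∨
      (r = 2 ∧ ¬ IsSelfAdjointFor (QuadraticMap.polar Q) L ∧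
        ∀ k ∈ L, (polarData hQ).adj k = k → ∃ c : F, k = c • 1) := by
  classical
  by_cases hself : ∀ k ∈ L, (polarData hQ).adj k = k
  · exact Or.inl hself
  refine Or.inr ?_
  push Not at hself
  obtain ⟨a, haL, ha⟩ := hself
  let D := polarData hQ
  have : Nonempty (Fin n) := ⟨⟨0, by omega⟩⟩
  have : Nontrivial L := ⟨⟨0, 1, fun e => zero_ne_one (congrArg Subtype.val e)⟩⟩
  have hF : IsField L :=
    { exists_pair_ne := exists_pair_ne _
      mul_comm := fun a b => Subtype.ext (hL.comm a a.2 b b.2)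
      mul_inv_cancel := fun {a} ha => by
        obtain ⟨y, hy, hxy⟩ := hL.inv a a.2 (fun e => ha (Subtype.ext e))
        exact ⟨⟨y, hy⟩, Subtype.ext hxy⟩ }
  let _ : Field L := hF.toField
  let _ : Fintype L := Fintype.ofFinite L
  let τ : L →+* L :=
    { toFun := fun x => ⟨D.adj x, hLa _ x.2⟩
      map_one' := Subtype.ext D.adj_one
      map_mul' := fun x y => Subtype.ext (by
        show D.adj ((x : Matrix (Fin n) (Fin n) F) * y) = D.adj x * D.adj y
        rw [hL.comm x x.2 y y.2, D.adj_mul])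
      map_zero' := Subtype.ext D.adj_zero
      map_add' := fun x y => Subtype.ext (D.adj_add _ _) }
  have hne : τ ≠ RingHom.id L := fun e => ha (congrArg Subtype.val (RingHom.congr_fun e ⟨a, haL⟩))
  obtain ⟨K', hK', hcard⟩ := card_eq_sq_fixed τ (fun x => Subtype.ext (D.adj_adj _)) hne
  let S : Submodule F L :=
    { carrier := {x | τ x = x}
      add_mem' := fun {x y} hx hy => by
        show τ (x + y) = x + y
        rw [map_add, hx, hy]
      zero_mem' := map_zero τ
      smul_mem' := fun c x hx => Subtype.ext (by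
        show D.adj (c • (x : Matrix (Fin n) (Fin n) F)) = c • (x : Matrix (Fin n) (Fin n) F)
        rw [D.adj_smul, show D.adj x = x from congrArg Subtype.val hx]
        rfl) }
  have hKS : Nat.card K' = Nat.card S :=
    Nat.card_congr
      { toFun := fun x => ⟨x.1, (hK' x.1).1 x.2⟩
        invFun := fun x => ⟨x.1, (hK' x.1).2 x.2⟩
        left_inv := fun _ => rfl
        right_inv := fun _ => rfl }
  rw [← Nat.card_eq_fintype_card, Module.natCard_eq_pow_finrank (K := F), hKS,
    Module.natCard_eq_pow_finrank (K := F) (V := S), hL.finrank_eq, ← pow_mul] at hcard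
  have hj := Nat.pow_right_injective (Finite.one_lt_card (α := F)) hcard
  have hr2 : r = 2 := ((Nat.prime_dvd_prime_iff_eq Nat.prime_two hr).1 ⟨_, by rw [hj]; ring⟩).symm
  refine ⟨hr2, fun hs => ha (adj_eq_of_selfAdjointFor hQ hs haL), fun k hk hkk => ?_⟩
  have hS1 : Module.finrank F S = 1 := by omega
  have h1S : (1 : L) ∈ S := map_one τ
  obtain ⟨c, hc⟩ := exists_smul_eq_of_finrank_eq_one hS1 (x := ⟨1, h1S⟩)
    (fun e => one_ne_zero (congrArg Subtype.val e)) ⟨⟨k, hk⟩, Subtype.ext hkk⟩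
  exact ⟨c, (congrArg (fun x : S => ((x.1 : L) : Matrix (Fin n) (Fin n) F)) hc).symm⟩

set_option synthInstance.maxHeartbeats 400000 in
/-- In characteristic two a self-adjoint field of degree two needs dimension divisible by four. -/
theorem four_dvd_of_selfAdjoint (hQ : IsNondegenerateQuadraticForm Q) (hn : 0 < n) (h2 : (2 : F) = 0)
    {L : Subalgebra F (Matrix (Fin n) (Fin n) F)} (hL : IsFieldSubalgebra 2 L)
    (hself : ∀ k ∈ L, (polarData hQ).adj k = k) : 4 ∣ n := by
  classical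
  haveI : Finite (Fin n → F) := Pi.finite
  let D := polarData hQ
  have : Nonempty (Fin n) := ⟨⟨0, hn⟩⟩
  have : Nontrivial L := ⟨⟨0, 1, fun e => zero_ne_one (congrArg Subtype.val e)⟩⟩
  have hF : IsField L :=
    { exists_pair_ne := exists_pair_ne _
      mul_comm := fun a b => Subtype.ext (hL.comm a a.2 b b.2)
      mul_inv_cancel := fun {a} ha => by
        obtain ⟨y, hy, hxy⟩ := hL.inv a a.2 (fun e => ha (Subtype.ext e))
        exact ⟨⟨y, hy⟩, Subtype.ext hxy⟩ }
  let _ : Field L := hF.toField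
  have : CharP L 2 := CharTwo.of_one_ne_zero_of_two_eq_zero one_ne_zero (Subtype.ext (by
    show (2 : Matrix (Fin n) (Fin n) F) = 0
    rw [← map_ofNat (algebraMap F _) 2, h2, map_zero]))
  have hzero : ∀ v, D.form v v = 0 := fun v => by
    show (polarData hQ).form v v = 0
    rw [polarData_form, polar_self hQ, h2, zero_mul]
  have halt : ∀ k ∈ L, ∀ v, D.form (k *ᵥ v) v = 0 := by
    intro k hk v
    obtain ⟨s, hs⟩ := FiniteField.isSquare_of_char_two (ringChar.eq_iff.2 this) (⟨k, hk⟩ : L)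
    rw [show k = (s : Matrix (Fin n) (Fin n) F) * (s : Matrix (Fin n) (Fin n) F) from congrArg Subtype.val hs,
      ← Matrix.mulVec_mulVec, D.form_adj, hself _ s.2]
    exact hzero _
  let P : Submodule F (Fin n → F) → Prop := fun W =>
    IsTotallySingularFor D.form W ∧ ∀ k ∈ L, ∀ w ∈ W, k *ᵥ w ∈ W
  have hbot : P ⊥ := ⟨fun u hu v _ => by rw [Submodule.mem_bot] at hu; rw [hu, D.form_zero_left],
    fun k _ w hw => by rw [Submodule.mem_bot] at hw ⊢; rw [hw, Matrix.mulVec_zero]⟩
  have : Finite (Submodule F (Fin n → F)) := Finite.of_injective _ SetLike.coe_injective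
  have : Nonempty {W // P W} := ⟨⟨⊥, hbot⟩⟩
  obtain ⟨⟨W, hts, hinv⟩, hmax⟩ := Finite.exists_max fun W : {W // P W} => Module.finrank F W.1
  have hperp : D.perp W ≤ W := by
    intro v hv
    let E : Matrix (Fin n) (Fin n) F →ₗ[F] (Fin n → F) :=
      { toFun := fun M => M *ᵥ v
        map_add' := fun M N => Matrix.add_mulVec _ _ _
        map_smul' := fun c M => Matrix.smul_mulVec _ _ _ }
    let X := Submodule.map E L.toSubmodule
    have hX : ∀ x ∈ X, ∃ k ∈ L, k *ᵥ v = x := fun x hx => hx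
    have hwx : ∀ w ∈ W, ∀ x ∈ X, D.form w x = 0 := fun w hw x hx => by
      obtain ⟨k, hk, rfl⟩ := hX x hx
      rw [← hself k hk, ← D.form_adj, D.form_eq_zero_comm]
      exact hv _ (hinv k hk w hw)
    have hxx : ∀ x ∈ X, ∀ y ∈ X, D.form x y = 0 := fun x hx y hy => by
      obtain ⟨k, hk, rfl⟩ := hX x hx
      obtain ⟨l, hl, rfl⟩ := hX y hy
      rw [← hself l hl, ← D.form_adj, Matrix.mulVec_mulVec]
      exact halt _ (L.mul_mem hl hk) v
    have hP : P (W ⊔ X) := by
      constructor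
      · intro a ha b hb
        obtain ⟨a1, ha1, a2, ha2, rfl⟩ := Submodule.mem_sup.1 ha
        obtain ⟨b1, hb1, b2, hb2, rfl⟩ := Submodule.mem_sup.1 hb
        rw [D.form_add_left, D.form_add_right, D.form_add_right, hts a1 ha1 b1 hb1, hwx a1 ha1 b2 hb2,
          D.form_eq_zero_comm.1 (hwx b1 hb1 a2 ha2), hxx a2 ha2 b2 hb2]
        simp
      · intro k hk a ha
        obtain ⟨a1, ha1, a2, ha2, rfl⟩ := Submodule.mem_sup.1 ha
        obtain ⟨l, hl, rfl⟩ := hX a2 ha2
        rw [Matrix.mulVec_add, Matrix.mulVec_mulVec]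
        exact Submodule.add_mem_sup (hinv k hk a1 ha1) ⟨k * l, L.mul_mem hk hl, rfl⟩
    have he : W = W ⊔ X := Submodule.eq_of_le_of_finrank_le le_sup_left (hmax ⟨W ⊔ X, hP⟩)
    rw [he]
    exact Submodule.mem_sup_right ⟨1, L.one_mem, Matrix.one_mulVec v⟩
  have h1 := D.card_le_finrank_add_perp W
  have h3 := Submodule.finrank_mono hperp
  rw [Fintype.card_fin] at h1
  have h4 : 2 * Module.finrank F W ≤ n := by
    have hle : W ≤ H5.perp (qf hQ) W := fun w hw => H5.mem_perp.2 fun u hu => by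
      show QuadraticMap.polar Q u w = 0
      rw [← polarData_form hQ]
      exact hts u hu w hw
    have := H5.two_mul_finrank_le (qf_nondeg hQ) (W := W) hle
    simpa using this
  let _ : Module L (Fin n → F) :=
    Module.compHom _ ((Matrix.toLinAlgEquiv' :
      Matrix (Fin n) (Fin n) F ≃ₐ[F] _).toAlgHom.comp L.val).toRingHom
  have hST : IsScalarTower F L (Fin n → F) := ⟨fun c k v => by
    show Matrix.toLin' ((c • k : L) : Matrix (Fin n) (Fin n) F) v = c • Matrix.toLin' (k : Matrix (Fin n) (Fin n) F) v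
    rw [Subalgebra.coe_smul, map_smul, LinearMap.smul_apply]⟩
  let W' : Submodule L (Fin n → F) :=
    { W.toAddSubmonoid with smul_mem' := fun k w hw => hinv k.1 k.2 w hw }
  have e' : Module.finrank F W' = Module.finrank F W := LinearEquiv.finrank_eq
    { toFun := fun x => ⟨x.1, x.2⟩
      invFun := fun x => ⟨x.1, x.2⟩
      map_add' := fun _ _ => rfl
      map_smul' := fun _ _ => rfl
      left_inv := fun _ => rfl
      right_inv := fun _ => rfl }
  have : IsScalarTower F L W' := ⟨fun c k w => Subtype.ext (smul_assoc c k (w : Fin n → F))⟩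
  have h5 := Module.finrank_mul_finrank F L W'
  rw [hL.finrank_eq, e'] at h5
  exact ⟨Module.finrank L W', by omega⟩

/-- An adjoint-closed quadratic field with trivial fixed part acts by similarities of Q. -/
theorem unitary_similar (hQ : IsNondegenerateQuadraticForm Q) (hn : 2 ≤ n) (hH : H ≤ omegaGL Q)
    (hirr : ActsIrreducibly (matrixSet H)) {L : Subalgebra F (Matrix (Fin n) (Fin n) F)}
    (hL : IsFieldSubalgebra 2 L) (hLa : ∀ k ∈ L, (polarData hQ).adj k ∈ L) (hLn : Normalises H L)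
    (hns : ¬ IsSelfAdjointFor (QuadraticMap.polar Q) L)
    (hfix : ∀ k ∈ L, (polarData hQ).adj k = k → ∃ c : F, k = c • 1) :
    ∀ k ∈ L, ∃ c : F, ∀ v : Fin n → F, Q (k *ᵥ v) = c * Q v := by
  intro k hk
  let D := polarData hQ
  obtain ⟨c, hc⟩ := hfix (D.adj k * k) (L.mul_mem (hLa k hk) hk) (by
    rw [D.adj_mul, D.adj_adj])
  have hB : ∀ u v, D.form (k *ᵥ u) (k *ᵥ v) = c * D.form u v := fun u v => by
    rw [D.form_adj, Matrix.mulVec_mulVec, hc, Matrix.smul_mulVec, Matrix.one_mulVec, D.form_smul_right]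
    rfl
  refine ⟨c, fun v => ?_⟩
  rcases card_parity (F := F) with hq | h2
  · have h1 := hB v v
    simp only [D, polarData_form, polar_self hQ] at h1
    exact mul_left_cancel₀ (two_ne_zero_of_card_odd hq) (by linear_combination h1)
  have hneg : ∀ M : Matrix (Fin n) (Fin n) F, -M = M := fun M => by
    rw [neg_eq_iff_add_eq_zero, ← two_smul F, h2, zero_smul]
  obtain ⟨a, haL, ha⟩ : ∃ a ∈ L, D.adj a ≠ a := by
    by_contra hc'
    push Not at hc'
    exact hns (selfAdjointFor_of hQ hc')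
  have hb : a + D.adj a ≠ 0 := fun e => ha (by rw [eq_neg_of_add_eq_zero_right e, hneg])
  obtain ⟨b, hb'⟩ := hfix _ (L.add_mem haL (hLa a haL)) (by rw [D.adj_add, D.adj_adj, add_comm])
  have hb0 : b ≠ 0 := fun e => hb (by rw [hb', e, zero_smul])
  let p := b⁻¹ • a
  have hpL : p ∈ L := L.smul_mem haL _
  have hp : D.adj p = 1 - p := by
    rw [eq_sub_iff_add_eq, add_comm, D.adj_smul]
    show b⁻¹ • a + b⁻¹ • D.adj a = 1
    rw [← smul_add, hb', smul_smul, inv_mul_cancel₀ hb0, one_smul]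
  have hzero : ∀ w, D.form w w = 0 := fun w => by
    show (polarData hQ).form w w = 0
    rw [polarData_form, polar_self hQ, h2, zero_mul]
  let Q1 : (Fin n → F) → F := fun w => D.form (p *ᵥ w) w
  have hQ1add : ∀ u w, Q1 (u + w) = Q1 u + Q1 w + D.form u w := by
    intro u w
    show D.form (p *ᵥ (u + w)) (u + w) = D.form (p *ᵥ u) u + D.form (p *ᵥ w) w + D.form u w
    have e1 : D.form (p *ᵥ u) w = D.form u w - D.form u (p *ᵥ w) := by
      rw [D.form_adj, hp, Matrix.sub_mulVec, Matrix.one_mulVec, sub_eq_add_neg, D.form_add_right,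
        ← neg_one_smul F (p *ᵥ w), D.form_smul_right]
      show _ + (-1 : F) * _ = _
      ring
    have e2 : D.form (p *ᵥ w) u = D.form u (p *ᵥ w) := by
      show (polarData hQ).form (p *ᵥ w) u = (polarData hQ).form u (p *ᵥ w)
      rw [polarData_form, QuadraticMap.polar_comm]
    rw [Matrix.mulVec_add, D.form_add_left, D.form_add_right, D.form_add_right, e1, e2]
    ring
  have hQ1smul : ∀ (s : F) w, Q1 (s • w) = s ^ 2 * Q1 w := fun s w => by
    show D.form (p *ᵥ (s • w)) (s • w) = _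
    rw [Matrix.mulVec_smul, D.form_smul_left, D.form_smul_right]
    show s * (s * _) = _
    ring
  have hQ1inv : ∀ h ∈ H, ∀ w, Q1 ((h : Matrix (Fin n) (Fin n) F) *ᵥ w) = Q1 w := by
    intro h hh w
    have hμL : conjHom h⁻¹ p ∈ L := hLn h⁻¹ (inv_mem hh) p hpL
    have hμ : D.adj (conjHom h⁻¹ p) = 1 - conjHom h⁻¹ p := by
      rw [D.adj_conj (omega_le_isom hQ (hH (inv_mem hh))), hp, map_sub, map_one]
    obtain ⟨e, he⟩ := hfix _ (L.sub_mem hμL hpL) (by
      rw [D.adj_sub, hμ, hp, sub_sub_sub_cancel_left, ← neg_sub, hneg])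
    have e1 : Q1 ((h : Matrix (Fin n) (Fin n) F) *ᵥ w) = D.form (conjHom h⁻¹ p *ᵥ w) w := by
      show D.form (p *ᵥ ((h : Matrix (Fin n) (Fin n) F) *ᵥ w)) ((h : Matrix (Fin n) (Fin n) F) *ᵥ w) = _
      rw [← omega_le_isom hQ (hH hh) (conjHom h⁻¹ p *ᵥ w) w]
      show _ = D.form ((h : Matrix (Fin n) (Fin n) F) *ᵥ (conjHom h⁻¹ p *ᵥ w)) ((h : Matrix (Fin n) (Fin n) F) *ᵥ w)
      rw [conjHom_apply, inv_inv]
      simp only [Matrix.mulVec_mulVec, ← mul_assoc]
      rw [← Units.val_mul, mul_inv_cancel, Units.val_one, one_mul]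
    rw [e1, show conjHom h⁻¹ p = e • 1 + p from sub_eq_iff_eq_add.1 he, Matrix.add_mulVec, Matrix.smul_mulVec,
      Matrix.one_mulVec, D.form_add_left, D.form_smul_left, hzero, mul_zero, zero_add]
  have hd := semilinear_eq_zero (by rw [Fintype.card_fin]; exact hn) hirr (fun w => Q w - Q1 w)
    (fun u w => by
      show Q (u + w) - Q1 (u + w) = _
      rw [hQ1add, qf_add hQ]
      simp only [D, polarData_form]
      ring)
    (fun s w => by
      show Q (s • w) - Q1 (s • w) = _
      rw [hQ.smul, hQ1smul]; ring)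
    (fun h hh w => by
      show Q _ - Q1 _ = _
      rw [isometry_of_mem_omega (hH hh), hQ1inv h hh])
  have hQQ : ∀ w, Q w = Q1 w := fun w => sub_eq_zero.1 (hd w)
  rw [hQQ, hQQ]
  show D.form (p *ᵥ (k *ᵥ v)) (k *ᵥ v) = c * D.form (p *ᵥ v) v
  rw [Matrix.mulVec_mulVec, hL.comm p hpL k hk, ← Matrix.mulVec_mulVec, hB]

/-- A form of plus type in dimension ten has no quadratic field of similarities. -/
theorem no_similar_field_ten {Q : (Fin 10 → F) → F} (hQ : IsNondegenerateQuadraticForm Q)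
    (hplus : IsPlusTypeOn Q ⊤) {L : Subalgebra F (Matrix (Fin 10) (Fin 10) F)} (hL : IsFieldSubalgebra 2 L)
    (hsim : ∀ k ∈ L, ∃ c : F, ∀ v : Fin 10 → F, Q (k *ᵥ v) = c * Q v) : False := by
  classical
  haveI : Finite (Fin 10 → F) := Pi.finite
  obtain ⟨U, -, hU, hUd⟩ := hplus
  rw [finrank_top] at hUd
  obtain ⟨g, hg⟩ := H4.isom_qPlus_of_singular (qf_nondeg hQ) (m := 5) (by simp) U hU
    (by simp at hUd; omega)
  set q : ℤ := (Fintype.card F : ℤ) with hq
  have hcount : q * (Nat.card {v : Fin 10 → F // Q v = 0} : ℤ) = q ^ 10 + q ^ 6 - q ^ 5 := by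
    have e : {v : Fin 10 → F // Q v = 0} ≃ {v : Fin 5 ⊕ Fin 5 → F // Cfsg.quadFormPlus 5 F v = 0} :=
      g.toEquiv.subtypeEquiv fun v => by
        show Q v = 0 ↔ Cfsg.quadFormPlus 5 F (g v) = 0
        rw [← H5.coe_qPlus]
        exact (hg v).symm ▸ Iff.rfl
    rw [Nat.card_congr e]
    exact H4.card_qPlus_zeros 5
  let Z : Finset (Fin 10 → F) := Finset.univ.filter fun v => Q v = 0 ∧ v ≠ 0
  let E : (Fin 10 → F) → (L.toSubmodule →ₗ[F] (Fin 10 → F)) := fun v =>
    { toFun := fun M => (M : Matrix (Fin 10) (Fin 10) F) *ᵥ v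
      map_add' := fun M N => Matrix.add_mulVec _ _ _
      map_smul' := fun c M => Matrix.smul_mulVec _ _ _ }
  let f : (Fin 10 → F) → Submodule F (Fin 10 → F) := fun v => LinearMap.range (E v)
  have hmem : ∀ v w, w ∈ f v ↔ ∃ k ∈ L, k *ᵥ v = w := fun v w =>
    ⟨fun ⟨⟨k, hk⟩, h⟩ => ⟨k, hk, h⟩, fun ⟨k, hk, h⟩ => ⟨⟨k, hk⟩, h⟩⟩
  have hinjE : ∀ v, v ≠ 0 → Function.Injective (E v) := fun v hv => by
    rw [injective_iff_map_eq_zero]
    rintro ⟨M, hM⟩ h
    by_contra h0
    have hM0 : M ≠ 0 := fun e => h0 (Subtype.ext e)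
    obtain ⟨N, hN, hMN⟩ := hL.inv M hM hM0
    apply hv
    have h2 : (N * M) *ᵥ v = 0 := by
      rw [← Matrix.mulVec_mulVec, show M *ᵥ v = 0 from h, Matrix.mulVec_zero]
    rwa [← hL.comm M hM N hN, hMN, Matrix.one_mulVec] at h2
  have hself : ∀ v, v ∈ f v := fun v => (hmem v v).2 ⟨1, L.one_mem, Matrix.one_mulVec v⟩
  have hfib : ∀ b ∈ Z.image f, (Z.filter fun w => f w = b).card = Fintype.card F ^ 2 - 1 := by
    intro b hb
    obtain ⟨v, hv, rfl⟩ := Finset.mem_image.1 hb
    obtain ⟨-, hqv, hv0⟩ := Finset.mem_filter.1 hv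
    have hset : Z.filter (fun w => f w = f v) = (Finset.univ.filter fun w => w ∈ f v).erase 0 := by
      ext w
      simp only [Z, Finset.mem_filter, Finset.mem_univ, true_and, Finset.mem_erase, ne_eq]
      constructor
      · rintro ⟨⟨-, hw0⟩, hfw⟩
        exact ⟨hw0, hfw ▸ hself w⟩
      · rintro ⟨hw0, hw⟩
        obtain ⟨k, hk, rfl⟩ := (hmem v w).1 hw
        obtain ⟨c, hc⟩ := hsim k hk
        refine ⟨⟨by rw [hc, hqv, mul_zero], hw0⟩, ?_⟩
        refine Submodule.eq_of_le_of_finrank_eq ?_ ?_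
        · intro x hx
          obtain ⟨l, hl, rfl⟩ := (hmem _ x).1 hx
          rw [Matrix.mulVec_mulVec]
          exact (hmem v _).2 ⟨_, L.mul_mem hl hk, rfl⟩
        · rw [LinearMap.finrank_range_of_inj (hinjE _ hw0), LinearMap.finrank_range_of_inj (hinjE _ hv0)]
    rw [hset, Finset.card_erase_of_mem (by simp)]
    congr 1
    rw [← Fintype.card_subtype, ← Nat.card_eq_fintype_card,
      show Nat.card {w // w ∈ f v} = Nat.card (f v) from rfl,
      Module.natCard_eq_pow_finrank (K := F), LinearMap.finrank_range_of_inj (hinjE _ hv0),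
      Subalgebra.finrank_toSubmodule, hL.finrank_eq,
      Nat.card_eq_fintype_card]
  have hdvd : Fintype.card F ^ 2 - 1 ∣ Z.card :=
    ⟨(Z.image f).card, by
      rw [Finset.card_eq_sum_card_image f Z, Finset.sum_congr rfl hfib, Finset.sum_const, smul_eq_mul, mul_comm]⟩
  have hZ : (Z.card : ℤ) + 1 = Nat.card {v : Fin 10 → F // Q v = 0} := by
    rw [Nat.card_eq_fintype_card, Fintype.card_subtype]
    have : Z = (Finset.univ.filter fun v => Q v = 0).erase 0 := by
      ext v
      simp [Z, and_comm]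
    rw [this, Finset.card_erase_of_mem (by simp [map_zero' hQ])]
    have hpos : 0 < (Finset.univ.filter fun v : Fin 10 → F => Q v = 0).card :=
      Finset.card_pos.2 ⟨0, by simp [map_zero' hQ]⟩
    omega
  rw [← hZ] at hcount
  have h2 : (2 : ℤ) ≤ q := by rw [hq]; exact_mod_cast Fintype.one_lt_card (α := F)
  obtain ⟨j, hj⟩ := hdvd
  have hj' : (Z.card : ℤ) = (q ^ 2 - 1) * j := by
    rw [hj, Nat.cast_mul, Nat.cast_sub (Nat.one_le_pow _ _ Fintype.card_pos), Nat.cast_pow, hq, Nat.cast_one]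
  have hZq : (Z.card : ℤ) = q ^ 9 + q ^ 5 - q ^ 4 - 1 := by
    refine mul_left_cancel₀ (show q ≠ 0 by omega) ?_
    linear_combination hcount
  have hdvd2 : (q ^ 2 - 1) ∣ 2 * (q - 1) :=
    ⟨(j : ℤ) - (q ^ 7 + q ^ 5 + q ^ 3 + q) - (q ^ 3 + q) + (q ^ 2 + 1), by linear_combination hj' - hZq⟩
  have h3 := Int.le_of_dvd (by omega) hdvd2
  nlinarith

end Cfsg.Agent.H6.OEven
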