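import Cfsg.Agent.H6.OEven.Basic
import Cfsg.Agent.H5.Families

/-!
Types of orthogonal sums, discriminants of orthogonal families, and semilinear functions in characteristic two.
-/

set_option autoImplicit false
set_option linter.unusedSectionVars false

open scoped MatrixGroups Matrix

namespace Cfsg.Agent.H6.OEven

open Cfsg.Geo Cfsg.Agent.H99.Asch

variable {ι : Type} [Fintype ι] [DecidableEq ι] {F : Type*} [Field F] [Fintype F] {Q : (ι → F) → F}

lemma not_odd_of_two_eq_zero (h2 : (2 : F) = 0) : ¬ Odd (Fintype.card F) :=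
  fun h => two_ne_zero_of_card_odd h h2

lemma odd_of_two_ne_zero (h2 : (2 : F) ≠ 0) : Odd (Fintype.card F) :=
  (card_parity (F := F)).resolve_right h2

lemma totallySingular_of_isotropic (hQ : IsNondegenerateQuadraticForm Q) (h2 : (2 : F) ≠ 0)
    {W : Submodule F (ι → F)} (hW : IsTotallySingularFor (QuadraticMap.polar Q) W) :
    IsTotallySingularQuad Q W := fun w hw =>
  (mul_eq_zero.1 ((polar_self hQ w).symm.trans (hW w hw w hw))).resolve_left h2

/-- The singular vectors of a totally isotropic subspace, in characteristic two. -/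
def singPart (hQ : IsNondegenerateQuadraticForm Q) (W : Submodule F (ι → F))
    (hW : IsTotallySingularFor (QuadraticMap.polar Q) W) : Submodule F (ι → F) where
  carrier := {v | v ∈ W ∧ Q v = 0}
  add_mem' := fun {a b} ha hb => ⟨W.add_mem ha.1 hb.1, by
    rw [qf_add hQ, ha.2, hb.2, hW a ha.1 b hb.1, add_zero, add_zero]⟩
  zero_mem' := ⟨W.zero_mem, map_zero' hQ⟩
  smul_mem' := fun c v hv => ⟨W.smul_mem c hv.1, by rw [hQ.smul, hv.2, mul_zero]⟩

lemma mem_singPart {hQ : IsNondegenerateQuadraticForm Q} {W : Submodule F (ι → F)}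
    {hW : IsTotallySingularFor (QuadraticMap.polar Q) W} {v : ι → F} :
    v ∈ singPart hQ W hW ↔ v ∈ W ∧ Q v = 0 := Iff.rfl

lemma finrank_le_one_of_singPart (hQ : IsNondegenerateQuadraticForm Q) {W : Submodule F (ι → F)}
    (hW : IsTotallySingularFor (QuadraticMap.polar Q) W) (h : singPart hQ W hW = ⊥) :
    Module.finrank F W ≤ 1 := by
  have hinj : Function.Injective fun w : W => Q (w : ι → F) := by
    intro a b hab
    have hab : Q (a : ι → F) = Q (b : ι → F) := hab
    have h1 : ((a : ι → F) - b) ∈ singPart hQ W hW := by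
      refine ⟨W.sub_mem a.2 b.2, ?_⟩
      have h2 := qf_add hQ ((a : ι → F) - b) b
      rw [sub_add_cancel, hW _ (W.sub_mem a.2 b.2) _ b.2, add_zero, hab] at h2
      exact add_eq_right.1 h2.symm
    rw [h, Submodule.mem_bot, sub_eq_zero] at h1
    exact Subtype.ext h1
  have h1 := Nat.card_le_card_of_injective _ hinj
  rw [Module.natCard_eq_pow_finrank (K := F), Nat.card_eq_fintype_card] at h1
  exact (Nat.pow_le_pow_iff_right Fintype.one_lt_card).1 (by rwa [pow_one])

/-- An invariant semilinear function of an irreducible group vanishes. -/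
lemma semilinear_eq_zero (hn : 2 ≤ Fintype.card ι) {H : Subgroup (GL ι F)}
    (hirr : ActsIrreducibly (matrixSet H)) (d : (ι → F) → F) (hadd : ∀ u v, d (u + v) = d u + d v)
    (hsmul : ∀ (c : F) v, d (c • v) = c ^ 2 * d v)
    (hinv : ∀ h ∈ H, ∀ v, d ((h : Matrix ι ι F) *ᵥ v) = d v) : ∀ v, d v = 0 := by
  let W : Submodule F (ι → F) :=
    { carrier := {v | d v = 0}
      add_mem' := fun {a b} ha hb => by show d (a + b) = 0; rw [hadd, ha, hb, add_zero]
      zero_mem' := by show d 0 = 0; simpa using hsmul 0 0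
      smul_mem' := fun c v hv => by show d (c • v) = 0; rw [hsmul, hv, mul_zero] }
  have hW : IsInv (matrixSet H) W := by
    rintro _ ⟨h, hh, rfl⟩ v hv
    show d _ = 0
    rw [hinv h hh]
    exact hv
  rcases actsIrreducibly_iff.1 hirr W hW with h0 | h0
  · exfalso
    let d' : (ι → F) →+ F := AddMonoidHom.mk' d hadd
    have hinj : Function.Injective d' := (injective_iff_map_eq_zero d').2 fun v hv => by
      have : v ∈ W := hv
      rwa [h0, Submodule.mem_bot] at this
    have h3 := Nat.card_le_card_of_injective d' hinj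
    rw [Module.natCard_eq_pow_finrank (K := F) (V := ι → F), Module.finrank_fintype_fun_eq_card,
      Nat.card_eq_fintype_card] at h3
    have := (Nat.pow_le_pow_iff_right (Fintype.one_lt_card (α := F)) (n := Fintype.card ι) (m := 1)).1
      (by rwa [pow_one])
    omega
  · exact fun v => (show v ∈ W from h0 ▸ Submodule.mem_top)

lemma isometric_of_map {g : GL ι F} (hg : g ∈ omegaGL Q) {W W' : Submodule F (ι → F)}
    (h : W.map (Matrix.toLin' (g : Matrix ι ι F)) = W') : AreIsometricFor Q W W' := by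
  subst h
  refine ⟨W.equivMapOfInjective _ (Matrix.mulVec_injective_of_isUnit (Units.isUnit g)), fun w => ?_⟩
  exact isometry_of_mem_omega hg w

lemma isometric_symm {W W' : Submodule F (ι → F)} (h : AreIsometricFor Q W W') : AreIsometricFor Q W' W := by
  obtain ⟨e, he⟩ := h
  exact ⟨e.symm, fun w => by rw [← he (e.symm w), e.apply_symm_apply]⟩

lemma isometric_trans {W W' W'' : Submodule F (ι → F)} (h : AreIsometricFor Q W W')
    (h' : AreIsometricFor Q W' W'') : AreIsometricFor Q W W'' := by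
  obtain ⟨e, he⟩ := h
  obtain ⟨e', he'⟩ := h'
  exact ⟨e.trans e', fun w => by rw [LinearEquiv.trans_apply, he', he]⟩

lemma restrict_nondeg (hQ : IsNondegenerateQuadraticForm Q) {W : Submodule F (ι → F)}
    (hW : IsNondegenerateOn (QuadraticMap.polar Q) W) :
    (QuadraticMap.polarBilin ((qf hQ).comp W.subtype)).Nondegenerate := by
  have hp : ∀ x y : W, QuadraticMap.polar ((qf hQ).comp W.subtype) x y =
      QuadraticMap.polar Q (x : ι → F) y := fun x y => by simp [QuadraticMap.polar]
  refine ⟨fun x hx => ?_, fun x hx => ?_⟩ <;> by_contra hne <;>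
    obtain ⟨⟨y, hy, hy'⟩, ⟨z, hz, hz'⟩⟩ := hW x x.2 fun e => hne (Subtype.ext e)
  · exact hz' ((hp x ⟨z, hz⟩).symm.trans (hx ⟨z, hz⟩))
  · exact hy' ((hp ⟨y, hy⟩ x).symm.trans (hx ⟨y, hy⟩))

/-- A non-degenerate subspace of odd dimension needs odd characteristic. -/
lemma two_ne_zero_of_odd_finrank (hQ : IsNondegenerateQuadraticForm Q) {W : Submodule F (ι → F)}
    (hW : IsNondegenerateOn (QuadraticMap.polar Q) W) (ho : Odd (Module.finrank F W)) : (2 : F) ≠ 0 := by
  obtain ⟨m, hm⟩ := ho
  exact (H4.isom_std_odd (restrict_nondeg hQ hW) hm).1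

lemma isometric_of_types (hQ : IsNondegenerateQuadraticForm Q) {W W' : Submodule F (ι → F)} {m : ℕ}
    (hW : IsNondegenerateOn (QuadraticMap.polar Q) W) (hW' : IsNondegenerateOn (QuadraticMap.polar Q) W')
    (hd : Module.finrank F W = 2 * m) (hd' : Module.finrank F W' = 2 * m)
    (h : IsPlusTypeOn Q W ↔ IsPlusTypeOn Q W') : AreIsometricFor Q W W' := by
  have key : ∀ X : Submodule F (ι → F), Module.finrank F X = 2 * m → (IsPlusTypeOn Q X ↔
      ∃ U : Submodule F X, (∀ u ∈ U, ((qf hQ).comp X.subtype) u = 0) ∧ Module.finrank F U = m) := by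
    intro X hX
    constructor
    · rintro ⟨U, hUX, hU, hUd⟩
      refine ⟨U.comap X.subtype, fun u hu => hU _ hu, ?_⟩
      rw [(Submodule.comapSubtypeEquivOfLe hUX).finrank_eq]
      omega
    · rintro ⟨U, hU, hUd⟩
      refine ⟨U.map X.subtype, Submodule.map_subtype_le X U, ?_, ?_⟩
      · rintro _ ⟨u, hu, rfl⟩
        exact hU u hu
      · rw [Submodule.finrank_map_subtype_eq]
        omega
  exact H4.isom_even_of_iff (restrict_nondeg hQ hW) (restrict_nondeg hQ hW') hd hd'
    ((key W hd).symm.trans (h.trans (key W' hd')))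

lemma finrank_sup_of_disjoint {W W' : Submodule F (ι → F)} (h : Disjoint W W') :
    Module.finrank F (W ⊔ W' : Submodule F (ι → F)) = Module.finrank F W + Module.finrank F W' := by
  rw [← Submodule.finrank_sup_add_finrank_inf_eq W W', disjoint_iff.1 h, finrank_bot, add_zero]

lemma plus_sup (hQ : IsNondegenerateQuadraticForm Q) {W W' : Submodule F (ι → F)}
    (horth : AreOrthogonalFor (QuadraticMap.polar Q) W W') (hdis : Disjoint W W')
    (h : IsPlusTypeOn Q W) (h' : IsPlusTypeOn Q W') : IsPlusTypeOn Q (W ⊔ W') := by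
  obtain ⟨U, hUW, hU, hUd⟩ := h
  obtain ⟨U', hUW', hU', hUd'⟩ := h'
  refine ⟨U ⊔ U', sup_le_sup hUW hUW', fun x hx => ?_, ?_⟩
  · obtain ⟨a, ha, b, hb, rfl⟩ := Submodule.mem_sup.1 hx
    rw [qf_add hQ, hU a ha, hU' b hb, horth a (hUW ha) b (hUW' hb), add_zero, add_zero]
  · rw [finrank_sup_of_disjoint (hdis.mono hUW hUW'), finrank_sup_of_disjoint hdis]
    omega

/-- Two orthogonal isometric subspaces of even dimension span a subspace of plus type. -/
lemma plus_of_isometric (hQ : IsNondegenerateQuadraticForm Q) {W W' : Submodule F (ι → F)} {m : ℕ}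
    (hW : IsNondegenerateOn (QuadraticMap.polar Q) W) (hd : Module.finrank F W = 2 * m)
    (horth : AreOrthogonalFor (QuadraticMap.polar Q) W W') (hdis : Disjoint W W')
    (hiso : AreIsometricFor Q W W') : IsPlusTypeOn Q (W ⊔ W') := by
  obtain ⟨e, he⟩ := hiso
  set R : QuadraticForm F W := (qf hQ).comp W.subtype with hR
  have hnd : (QuadraticMap.polarBilin R).Nondegenerate := restrict_nondeg hQ hW
  have hnd' : (QuadraticMap.polarBilin (-R)).Nondegenerate := by
    refine ⟨fun x hx => hnd.1 x fun y => ?_, fun x hx => hnd.2 x fun y => ?_⟩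
    · have := hx y; simpa [QuadraticMap.polar_neg] using this
    · have := hx y; simpa [QuadraticMap.polar_neg] using this
  obtain ⟨h, hh⟩ := H4.isom_even_of_iff hnd hnd' hd hd
    (exists_congr fun U => and_congr_left fun _ => by simp)
  let φ : W →ₗ[F] (ι → F) := W.subtype + W'.subtype.comp (e.toLinearMap.comp h.toLinearMap)
  have hφ : ∀ x, φ x = (x : ι → F) + (e (h x) : ι → F) := fun x => rfl
  refine ⟨LinearMap.range φ, ?_, ?_, ?_⟩
  · rintro _ ⟨x, rfl⟩
    rw [hφ]
    exact Submodule.add_mem_sup x.2 (e (h x)).2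
  · rintro _ ⟨x, rfl⟩
    have h2 : -Q (h x : ι → F) = Q (x : ι → F) := hh x
    rw [hφ, qf_add hQ, he, horth _ x.2 _ (e (h x)).2, ← h2]
    ring
  · rw [LinearMap.finrank_range_of_inj, finrank_sup_of_disjoint hdis, ← e.finrank_eq]
    · ring
    refine (injective_iff_map_eq_zero φ).2 fun x hx => Subtype.ext ?_
    rw [hφ] at hx
    refine (Submodule.disjoint_def.1 hdis) _ x.2 ?_
    rw [eq_neg_of_add_eq_zero_left hx]
    exact neg_mem (e (h x)).2

/-- In a space of plus type the perp of a subspace of plus type is of plus type. -/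
lemma plus_cancel (hQ : IsNondegenerateQuadraticForm Q) (hplus : IsPlusTypeOn Q ⊤)
    {W W' : Submodule F (ι → F)} (horth : AreOrthogonalFor (QuadraticMap.polar Q) W W')
    (hdis : Disjoint W W') (hd : Module.finrank F W + Module.finrank F W' = Fintype.card ι)
    (h' : IsPlusTypeOn Q W') : IsPlusTypeOn Q W := by
  haveI : Finite (ι → F) := Pi.finite
  obtain ⟨U, hUW, hU, hUd⟩ := h'
  obtain ⟨M₀, -, hM₀, hM₀d⟩ := hplus
  rw [finrank_top, Module.finrank_fintype_fun_eq_card] at hM₀d
  have hnd := qf_nondeg hQ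
  obtain ⟨M, hM, hUM⟩ := H4.exists_ge_singSub (Q := qf hQ) (m := Module.finrank F M₀) hnd
    (by rw [Module.finrank_fintype_fun_eq_card]; omega) (U := U) hU ⟨M₀, rfl, hM₀⟩
  have hperp : H5.perp (qf hQ) U = W ⊔ U := by
    refine (Submodule.eq_of_le_of_finrank_eq (sup_le ?_ ?_) ?_).symm
    · intro x hx
      refine H5.mem_perp.2 fun u hu => ?_
      rw [QuadraticMap.polar_comm]
      exact horth x hx u (hUW hu)
    · exact H5.le_perp_of_forall_eq_zero hU
    · have h1 := H5.finrank_perp_add hnd U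
      rw [Module.finrank_fintype_fun_eq_card] at h1
      rw [finrank_sup_of_disjoint (hdis.mono_right hUW)]
      omega
  have hMle : M ≤ W ⊔ U := hperp ▸ fun x hx =>
    H5.mem_perp.2 fun u hu => H4.polar_eq_zero_of_singular hM.2 (hUM hu) hx
  have heq : M = (M ⊓ W) ⊔ U := by
    refine le_antisymm (fun x hx => ?_) (sup_le inf_le_left hUM)
    obtain ⟨a, ha, b, hb, rfl⟩ := Submodule.mem_sup.1 (hMle hx)
    refine Submodule.add_mem_sup ⟨?_, ha⟩ hb
    have h1 := M.sub_mem hx (hUM hb)
    rwa [add_sub_cancel_right] at h1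
  refine ⟨M ⊓ W, inf_le_right, fun x hx => hM.2 x hx.1, ?_⟩
  have h1 := hM.1
  rw [heq, finrank_sup_of_disjoint ((hdis.mono_right hUW).mono_left inf_le_right)] at h1
  omega

/-- The type of an orthogonal sum of a family read off from an orthogonal basis, in odd characteristic. -/
lemma plus_iff_of_orth_family (hQ : IsNondegenerateQuadraticForm Q) (h2 : (2 : F) ≠ 0) {κ : Type*} [Fintype κ]
    [DecidableEq κ] (b : κ → ι → F) (c : κ → F) {m : ℕ} (hκ : Fintype.card κ = 2 * m)
    (hn : Fintype.card ι = 2 * m) (horth : ∀ i j, i ≠ j → QuadraticMap.polar Q (b i) (b j) = 0)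
    (hc : ∀ i, Q (b i) = c i) (hc0 : ∀ i, c i ≠ 0) :
    IsPlusTypeOn Q ⊤ ↔ IsSquare ((-1) ^ m * ∏ i, 2 * c i) := by
  have hp : ∀ i j, QuadraticMap.polar Q (b i) (b j) = if i = j then 2 * c i else 0 := by
    intro i j
    split_ifs with e
    · subst e; rw [polar_self hQ, hc]
    · exact horth i j e
  have hli : LinearIndependent F b := by
    rw [Fintype.linearIndependent_iff]
    intro g hg j
    have h1 := congrArg (fun x => QuadraticMap.polarBilin (qf hQ) x (b j)) hg
    simp only [map_sum, map_smul, LinearMap.sum_apply, LinearMap.smul_apply, map_zero, LinearMap.zero_apply,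
      smul_eq_mul] at h1
    rw [Finset.sum_eq_single j] at h1
    · have h3 : QuadraticMap.polarBilin (qf hQ) (b j) (b j) = 2 * c j := (hp j j).trans (if_pos rfl)
      rw [h3] at h1
      exact (mul_eq_zero.1 h1).resolve_right (mul_ne_zero h2 (hc0 j))
    · intro i _ hij
      rw [show QuadraticMap.polarBilin (qf hQ) (b i) (b j) = 0 from horth i j hij, mul_zero]
    · simp
  rcases isEmpty_or_nonempty κ with hκ0 | hκ0
  · have hm : m = 0 := by rw [Fintype.card_eq_zero] at hκ; omega
    refine iff_of_true ⟨⊥, bot_le, fun x hx => ?_, ?_⟩ (by simp [hm])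
    · rw [(Submodule.mem_bot F).1 hx]; exact map_zero' hQ
    · rw [finrank_bot, finrank_top, Module.finrank_fintype_fun_eq_card]; omega
  let B := basisOfLinearIndependentOfCardEqFinrank hli
    (by rw [Module.finrank_fintype_fun_eq_card]; omega)
  have hB : ⇑B = b := coe_basisOfLinearIndependentOfCardEqFinrank _ _
  have hgram : H4.gram (qf hQ) B = Matrix.diagonal fun i => 2 * c i := by
    ext i j
    rw [Matrix.diagonal_apply]
    show QuadraticMap.polar Q (B i) (B j) = _
    rw [hB]
    exact hp i j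
  have key := H4.singular_iff_isSquare h2 (qf_nondeg hQ) (m := m)
    (by rw [Module.finrank_fintype_fun_eq_card]; omega) B
  rw [hgram, Matrix.det_diagonal] at key
  refine Iff.trans ⟨?_, ?_⟩ key
  · rintro ⟨U, -, hU, hUd⟩
    rw [finrank_top, Module.finrank_fintype_fun_eq_card] at hUd
    exact ⟨U, hU, by omega⟩
  · rintro ⟨U, hU, hUd⟩
    exact ⟨U, le_top, hU, by rw [finrank_top, Module.finrank_fintype_fun_eq_card]; omega⟩

/-- An orthogonal basis of a non-degenerate subspace in odd characteristic. -/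
lemma exists_orth_family (hQ : IsNondegenerateQuadraticForm Q) (h2 : (2 : F) ≠ 0) {W : Submodule F (ι → F)}
    (hW : IsNondegenerateOn (QuadraticMap.polar Q) W) {k : ℕ} (hd : Module.finrank F W = k + 1) (α : F)
    (hα : ¬ IsSquare α) : ∃ (b : Fin (k + 1) → ι → F) (d : F), (d = 1 ∨ d = α) ∧ (∀ i, b i ∈ W) ∧
      (∀ i j, i ≠ j → QuadraticMap.polar Q (b i) (b j) = 0) ∧
      ∀ i, Q (b i) = if i = Fin.last k then d else 1 := by
  obtain ⟨b, d, hd', ho, hq⟩ := H4.exists_orth_basis h2 (restrict_nondeg hQ hW) hd α hα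
  refine ⟨fun i => (b i : ι → F), d, hd', fun i => (b i).2, fun i j hij => ?_, fun i => hq i⟩
  have := ho i j hij
  simpa [QuadraticMap.polar] using this

end Cfsg.Agent.H6.OEven
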