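import Cfsg.Agent.H6.OEven.Field
import Cfsg.Agent.H6.OEven.Blocks
import Cfsg.Agent.H99.Aschbacher.Symplectic

/-!
Frames: discriminant of a Gram matrix in a frame, and the invariant quadratic form of a frame in characteristic two.
-/

set_option autoImplicit false
set_option linter.unusedSectionVars false

open scoped MatrixGroups Matrix Kronecker

namespace Cfsg.Agent.H6.OEven

open Cfsg.Geo Cfsg.Agent.H99.Asch

variable {n : ℕ} {F : Type*} [Field F] [Fintype F] {Q : (Fin n → F) → F}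
  {H : Subgroup (GL (Fin n) F)}

lemma gramAt_apply (hQ : IsNondegenerateQuadraticForm Q) (P : GL (Fin n) F) (i j : Fin n) :
    (polarData hQ).gramAt P i j = QuadraticMap.polar Q ((P : Matrix (Fin n) (Fin n) F) *ᵥ Pi.single i 1)
      ((P : Matrix (Fin n) (Fin n) F) *ᵥ Pi.single j 1) := by
  rw [← polarData_form hQ, (polarData hQ).form_gramAt]
  simp [gramForm, polarData_σ]

lemma gramAt_diag (hQ : IsNondegenerateQuadraticForm Q) (P : GL (Fin n) F) (i : Fin n) :
    (polarData hQ).gramAt P i i = 2 * Q ((P : Matrix (Fin n) (Fin n) F) *ᵥ Pi.single i 1) := by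
  rw [gramAt_apply, polar_self hQ]

/-- The type read off from the Gram matrix in a frame. -/
lemma plus_iff_det_gramAt (hQ : IsNondegenerateQuadraticForm Q) (h2 : (2 : F) ≠ 0) {m : ℕ} (hn : n = 2 * m)
    (P : GL (Fin n) F) : IsPlusTypeOn Q ⊤ ↔ IsSquare ((-1 : F) ^ m * ((polarData hQ).gramAt P).det) := by
  have hdet : ((polarData hQ).gramAt P).det = ((polarData hQ).U : Matrix (Fin n) (Fin n) F).det *
      ((P : Matrix (Fin n) (Fin n) F).det * (P : Matrix (Fin n) (Fin n) F).det) := by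
    rw [FormData.gramAt, Matrix.det_mul, Matrix.det_mul, Matrix.det_transpose, polarData_σ, map_ringHom_id]
    ring
  rw [hdet, ← mul_assoc, isSquare_mul_sq_iff (Matrix.GeneralLinearGroup.det_ne_zero P)]
  have key := H4.singular_iff_isSquare h2 (qf_nondeg hQ) (m := m) (by simp [hn]) (Pi.basisFun F (Fin n))
  have hU : H4.gram (qf hQ) (Pi.basisFun F (Fin n)) = ((polarData hQ).U : Matrix (Fin n) (Fin n) F) := by
    ext i j
    simp only [Pi.basisFun_apply, H4.gram, polarData, IsUnit.unit_spec]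
    rfl
  rw [hU] at key
  refine Iff.trans ⟨?_, ?_⟩ key
  · rintro ⟨U, -, hU', hUd⟩
    rw [finrank_top, Module.finrank_fintype_fun_eq_card, Fintype.card_fin] at hUd
    exact ⟨U, hU', by omega⟩
  · rintro ⟨U, hU', hUd⟩
    exact plus_of_singular_half hU' (by omega)

/-- In characteristic two an invariant matrix of a frame gives the quadratic form. -/
theorem quad_in_frame (hQ : IsNondegenerateQuadraticForm Q) (hn : 2 ≤ n) (h2 : (2 : F) = 0) (hH : H ≤ omegaGL Q)
    (hirr : ActsIrreducibly (matrixSet H)) (P : GL (Fin n) F) (M : Matrix (Fin n) (Fin n) F)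
    (hM : M + Mᵀ = (polarData hQ).gramAt P) (hd : ∀ i, M i i = 0)
    (hcol : ∀ h ∈ H, ∀ i : Fin n,
      (((P⁻¹ * h * P : GL (Fin n) F) : Matrix (Fin n) (Fin n) F)ᵀ * M *
        ((P⁻¹ * h * P : GL (Fin n) F) : Matrix (Fin n) (Fin n) F)) i i = 0) (w : Fin n → F) :
    Q ((P : Matrix (Fin n) (Fin n) F) *ᵥ w) = w ⬝ᵥ (M *ᵥ w) := by
  let D := polarData hQ
  let q0 : (Fin n → F) → F := fun v =>
    (((P⁻¹ : GL (Fin n) F) : Matrix (Fin n) (Fin n) F) *ᵥ v) ⬝ᵥ
      (M *ᵥ (((P⁻¹ : GL (Fin n) F) : Matrix (Fin n) (Fin n) F) *ᵥ v))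
  have hPw : ∀ v, ((P⁻¹ : GL (Fin n) F) : Matrix (Fin n) (Fin n) F) *ᵥ ((P : Matrix (Fin n) (Fin n) F) *ᵥ v) = v :=
    fun v => by rw [Matrix.mulVec_mulVec, ← Units.val_mul, inv_mul_cancel, Units.val_one, Matrix.one_mulVec]
  have hPw' : ∀ v, (P : Matrix (Fin n) (Fin n) F) *ᵥ (((P⁻¹ : GL (Fin n) F) : Matrix (Fin n) (Fin n) F) *ᵥ v) = v :=
    fun v => by rw [Matrix.mulVec_mulVec, ← Units.val_mul, mul_inv_cancel, Units.val_one, Matrix.one_mulVec]
  have hadd : ∀ u v, q0 (u + v) = q0 u + q0 v + QuadraticMap.polar Q u v := by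
    intro u v
    have e : QuadraticMap.polar Q u v = (((P⁻¹ : GL (Fin n) F) : Matrix (Fin n) (Fin n) F) *ᵥ u) ⬝ᵥ
        ((M + Mᵀ) *ᵥ (((P⁻¹ : GL (Fin n) F) : Matrix (Fin n) (Fin n) F) *ᵥ v)) := by
      rw [hM, ← polarData_form hQ]
      conv_lhs => rw [← hPw' u, ← hPw' v, (polarData hQ).form_gramAt]
      rfl
    rw [e]
    simp only [q0, Matrix.mulVec_add, dotProduct_add, add_dotProduct, Matrix.add_mulVec, transpose_dot]
    ring
  have hsmul : ∀ (c : F) v, q0 (c • v) = c ^ 2 * q0 v := fun c v => by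
    simp only [q0, Matrix.mulVec_smul, dotProduct_smul, smul_dotProduct, smul_eq_mul]
    ring
  have hinv : ∀ h ∈ H, ∀ v, q0 ((h : Matrix (Fin n) (Fin n) F) *ᵥ v) = q0 v := by
    intro h hh v
    set k : GL (Fin n) F := P⁻¹ * h * P with hk
    let km : Matrix (Fin n) (Fin n) F := (k : Matrix (Fin n) (Fin n) F)
    have e : ((P⁻¹ : GL (Fin n) F) : Matrix (Fin n) (Fin n) F) *ᵥ ((h : Matrix (Fin n) (Fin n) F) *ᵥ v) =
        km *ᵥ (((P⁻¹ : GL (Fin n) F) : Matrix (Fin n) (Fin n) F) *ᵥ v) := by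
      rw [Matrix.mulVec_mulVec, Matrix.mulVec_mulVec, ← Units.val_mul, ← Units.val_mul, hk]
      simp [mul_assoc]
    have hgram : kmᵀ * D.gramAt P * km = D.gramAt P := by
      have h3 := FormData.gramAt_mul D P k
      rw [show P * k = h * P by rw [hk]; simp [mul_assoc]] at h3
      refine h3.symm.trans (eq_of_gramForm_eq D.σ fun u v => ?_)
      rw [← FormData.form_gramAt, ← FormData.form_gramAt, Units.val_mul, ← Matrix.mulVec_mulVec,
        ← Matrix.mulVec_mulVec]
      exact omega_le_isom hQ (hH hh) _ _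
    show _ ⬝ᵥ _ = _ ⬝ᵥ _
    rw [e, quad_mulVec, ← sub_eq_zero, ← dotProduct_sub, ← Matrix.sub_mulVec]
    refine quad_eq_zero h2 ?_ (fun i => ?_) _
    · have h1 : (kmᵀ * M * km - M) + (kmᵀ * M * km - M)ᵀ = 0 := by
        have e1 : (kmᵀ * M * km)ᵀ = kmᵀ * Mᵀ * km := by simp [mul_assoc]
        rw [Matrix.transpose_sub, e1, sub_add_sub_comm, ← add_mul, ← mul_add, hM, hgram, sub_self]
      refine Matrix.ext fun i j => ?_
      have h4 := congrFun (congrFun h1 i) j
      rw [Matrix.add_apply, Matrix.zero_apply] at h4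
      linear_combination h4 - (kmᵀ * M * km - M) i j * h2
    · rw [Matrix.sub_apply, hcol h hh i, hd, sub_zero]
  have hd' := semilinear_eq_zero (by rw [Fintype.card_fin]; exact hn) hirr (fun v => Q v - q0 v)
    (fun u v => by
      show Q (u + v) - q0 (u + v) = _
      rw [hadd, qf_add hQ]
      ring)
    (fun c v => by
      show Q (c • v) - q0 (c • v) = _
      rw [hQ.smul, hsmul]; ring)
    (fun h hh v => by
      show Q _ - q0 _ = _
      rw [isometry_of_mem_omega (hH hh), hinv h hh])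
  have h1 := sub_eq_zero.1 (hd' ((P : Matrix (Fin n) (Fin n) F) *ᵥ w))
  simp only [q0, hPw] at h1
  exact h1

lemma gramForm_alternating {s : ℕ} (h2 : (2 : F) = 0) {G : Matrix (Fin s) (Fin s) F} (hu : IsUnit G)
    (h : Gᵀ = G) (hd : ∀ i, G i i = 0) : IsSymplecticForm (gramForm (RingHom.id F) G) := by
  refine ⟨(gramForm_symmetric hu h).bilinear, fun v w => ?_, fun v => ?_, gramForm_nondegenerate _ hu⟩
  · rw [(gramForm_symmetric hu h).symm v w]
    linear_combination gramForm (RingHom.id F) G w v * h2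
  · exact quad_eq_zero h2 h hd v

end Cfsg.Agent.H6.OEven
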