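import Cfsg.Agent.H6.OEven.Forms

/-!
Two totally singular halves exchanged by an irreducible group.
-/

set_option autoImplicit false
set_option linter.unusedSectionVars false

open scoped MatrixGroups Matrix

namespace Cfsg.Agent.H6.OEven

open Cfsg.Geo Cfsg.Agent.H99.Asch

variable {n : ℕ} {F : Type*} [Field F] [Fintype F] {Q : (Fin n → F) → F}
  {H : Subgroup (GL (Fin n) F)}

/-- The halves are totally singular for the quadratic form. -/
theorem halves_singular (hQ : IsNondegenerateQuadraticForm Q) (hn : 4 ≤ n) (hH : H ≤ omegaGL Q)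
    (hirr : ActsIrreducibly (matrixSet H)) (h : InFormHalves (polarData hQ) H) :
    ∃ (k : ℕ) (V : Fin 2 → Submodule F (Fin n → F)), 2 * k = n ∧ IsMDecomposition k V ∧
      (∀ i, IsTotallySingularQuad Q (V i)) ∧ H ≤ decompositionStabilizer V := by
  have : Nonempty (Fin n) := ⟨⟨0, by omega⟩⟩
  obtain ⟨k, V, hk, hV, hts, hle⟩ := halves_decomposition (polarData hQ) hirr h
  rw [Fintype.card_fin] at hk
  rw [polarData_form] at hts
  refine ⟨k, V, hk, hV, ?_, hle⟩
  rcases card_parity (F := F) with hq | h2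
  · exact fun i => totallySingular_of_isotropic hQ (two_ne_zero_of_card_odd hq) (hts i)
  let S : Fin 2 → Submodule F (Fin n → F) := fun i => singPart hQ (V i) (hts i)
  have hSinv : IsInv (matrixSet H) (⨆ i, S i) := by
    rintro _ ⟨g, hg, rfl⟩ v hv
    obtain ⟨σ, hσ⟩ := hle hg
    have hmap : (⨆ i, S i).map (Matrix.toLin' (g : Matrix (Fin n) (Fin n) F)) ≤ ⨆ i, S i := by
      rw [Submodule.map_iSup]
      refine iSup_le fun i => le_iSup_of_le (σ i) ?_
      rintro _ ⟨w, hw, rfl⟩
      exact ⟨hσ i ▸ Submodule.mem_map_of_mem hw.1, (isometry_of_mem_omega (hH hg) w).trans hw.2⟩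
    exact hmap ⟨v, hv, Matrix.toLin'_apply _ _⟩
  rcases actsIrreducibly_iff.1 hirr _ hSinv with h0 | h0
  · exfalso
    have hS0 : S 0 = ⊥ := eq_bot_iff.2 (h0 ▸ le_iSup S 0)
    have h1 := finrank_le_one_of_singPart hQ (hts 0) hS0
    rw [hV.finrank_eq] at h1
    omega
  · intro i v hv
    have hle' : ∀ j, S j ≤ V j := fun j w hw => hw.1
    have hmem : v ∈ ⨆ j, S j := h0 ▸ Submodule.mem_top
    rw [iSup_fin_two_aux] at hmem
    obtain ⟨a, ha, b, hb, rfl⟩ := Submodule.mem_sup.1 hmem
    have hd : Disjoint (V 0) (V 1) := hV.indep.pairwiseDisjoint (by decide)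
    fin_cases i
    · have hb0 : b = 0 := Submodule.disjoint_def.1 hd b
        (by simpa using (V 0).sub_mem hv (hle' 0 ha)) hb.1
      rw [hb0, add_zero]; exact ha.2
    · have ha0 : a = 0 := Submodule.disjoint_def.1 hd a ha.1
        (by simpa using (V 1).sub_mem hv (hle' 1 hb))
      rw [ha0, zero_add]; exact hb.2
where
  iSup_fin_two_aux {α : Type _} [CompleteLattice α] {f : Fin 2 → α} : ⨆ i, f i = f 0 ⊔ f 1 := by
    refine le_antisymm (iSup_le fun i => ?_) (sup_le (le_iSup f 0) (le_iSup f 1))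
    fin_cases i
    · exact le_sup_left
    · exact le_sup_right

lemma plus_of_singular_half {U : Submodule F (Fin n → F)} (hU : IsTotallySingularQuad Q U)
    (hd : 2 * Module.finrank F U = n) : IsPlusTypeOn Q ⊤ :=
  ⟨U, le_top, hU, by rw [finrank_top, Module.finrank_fintype_fun_eq_card, Fintype.card_fin]; omega⟩

lemma plus_of_halves {k : ℕ} {V : Fin 2 → Submodule F (Fin n → F)} (hk : 2 * k = n)
    (hV : IsMDecomposition k V) (hs : ∀ i, IsTotallySingularQuad Q (V i)) : IsPlusTypeOn Q ⊤ :=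
  plus_of_singular_half (hs 0) (by rw [hV.finrank_eq]; exact hk)

/-- Ω has no irreducible subgroup exchanging two halves of odd dimension. -/
theorem halves_parity (hQ : IsNondegenerateQuadraticForm Q) (hH : H ≤ omegaGL Q)
    (hirr : ActsIrreducibly (matrixSet H)) {k : ℕ} {V : Fin 2 → Submodule F (Fin n → F)} (hk : 2 * k = n)
    (hko : Odd k) (hV : IsMDecomposition k V) (hs : ∀ i, IsTotallySingularQuad Q (V i))
    (hle : H ≤ decompositionStabilizer V) : False := by
  haveI : Finite (Fin n → F) := Pi.finite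
  have hf : ⇑(qf hQ) = Q := H98.coe_qOfFun hQ
  have hinv : IsInv (matrixSet H) (V 0) := by
    rintro _ ⟨g, hg, rfl⟩ v hv
    obtain ⟨σ, hσ⟩ := hle hg
    have hm : (g : Matrix (Fin n) (Fin n) F) *ᵥ v ∈ V (σ 0) :=
      hσ 0 ▸ ⟨v, hv, Matrix.toLin'_apply _ _⟩
    rcases Fin.exists_fin_two.1 ⟨σ 0, rfl⟩ with h0 | h1
    · rwa [h0] at hm
    exfalso
    have hgo := hH hg
    rw [H5.omegaGL_eq_map (qf hQ) hf] at hgo
    obtain ⟨x, hx, hxg⟩ := hgo
    have hV' : Module.finrank F (Fin n → F) = 2 * k := by simp [hk]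
    have := H5.even_codim_of_mem_commutator (qf_nondeg hQ) hV' (U := V 0) ⟨hV.finrank_eq 0, hs 0⟩ hx
    have himg : H5.imageSub x (V 0) = V 1 := by
      rw [← h1, ← hσ 0, ← hxg]
      have he : ((x : (Fin n → F) ≃ₗ[F] (Fin n → F)) : (Fin n → F) →ₗ[F] (Fin n → F)) =
          Matrix.toLin' ((H5.toGLHom (qf hQ) hf x : GL (Fin n) F) : Matrix (Fin n) (Fin n) F) :=
        LinearMap.ext fun w => by rw [Matrix.toLin'_apply]; exact (H5.toGLHom_mulVec (qf hQ) hf x w).symm
      exact congrArg (fun f => Submodule.map f (V 0)) he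
    rw [himg, (hV.indep.pairwiseDisjoint (show (0 : Fin 2) ≠ 1 by decide)).eq_bot, finrank_bot] at this
    exact Nat.not_even_iff_odd.2 hko this
  have hk0 := hV.pos
  rcases actsIrreducibly_iff.1 hirr _ hinv with h | h
  · have := hV.finrank_eq 0
    rw [h, finrank_bot] at this
    omega
  · have := hV.finrank_eq 0
    rw [h, finrank_top, Module.finrank_fintype_fun_eq_card, Fintype.card_fin] at this
    omega

end Cfsg.Agent.H6.OEven
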