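import Cfsg.Agent.H5.SmallBlocksCases

/-!
Non-maximal decomposition stabilisers with small blocks, from dimension eight on.
-/

set_option autoImplicit false

namespace Cfsg.Agent.H6.OEven

open Cfsg.Agent.H5
open QuadraticMap hiding sq
open scoped Matrix

variable {ι : Type} [Fintype ι] [DecidableEq ι] {F : Type*} [Field F] [Fintype F]
  {Q : QuadraticForm F (ι → F)} {f : (ι → F) → F} {t k : ℕ} {D : Fin t → Submodule F (ι → F)}

/-- Decompositions whose members have a rigid orthogonal set of vectors of one norm. -/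
theorem not_maximal_frame (hf : ⇑Q = f) (hQ : (polarBilin Q).Nondegenerate) (h2 : (2 : F) ≠ 0)
    (hn : 8 ≤ Fintype.card ι)
    (hD : Cfsg.Geo.IsNondegenerateMDecomposition (QuadraticMap.polar f) k D) (hk : 2 ≤ k)
    (ht : 3 ≤ t) {c : F} (hc : c ≠ 0) (hex : ∀ i, ∃ u ∈ D i, Q u = c)
    (hpair : ∀ i, ∀ u ∈ D i, ∀ v ∈ D i, Q u = c → Q v = c →
      v = u ∨ v = -u ∨ polar Q u v = 0) :
    ∃ K : Subgroup (GL ι F), Cfsg.Geo.decompositionStabilizer D ⊓ Cfsg.Geo.omegaGL f < K ∧
      K < Cfsg.Geo.omegaGL f := by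
  haveI : Finite (ι → F) := Pi.finite
  have hr : Module.finrank F (ι → F) = Fintype.card ι := Module.finrank_fintype_fun_eq_card F
  have h2c : (2 : F) * c ≠ 0 := mul_ne_zero h2 hc
  have horth : ∀ {i j : Fin t}, i ≠ j → ∀ {u v}, u ∈ D i → v ∈ D j → polar Q u v = 0 :=
    fun hij _ _ hu hv => member_polar_zero hf hD hij hu hv
  choose u hu hqu using hex
  let S : Set (ι → F) := {v | ∃ i, v ∈ D i ∧ Q v = c}
  have huS : ∀ i, u i ∈ S := fun i => ⟨i, hu i, hqu i⟩
  have hnegS : ∀ i, -u i ∈ S := fun i => ⟨i, neg_mem (hu i), by rw [QuadraticMap.map_neg, hqu]⟩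
  -- the reflection exchanging two chosen vectors preserves `S`
  have hswap : ∀ {i j : Fin t}, i ≠ j → Q (u i - u j) = 2 * c ∧
      (∀ x, (refl Q (u i - u j) : (ι → F) ≃ₗ[F] (ι → F)) x =
        x - ((2 * c)⁻¹ * (polar Q (u i) x - polar Q (u j) x)) • (u i - u j)) ∧
      (refl Q (u i - u j) : (ι → F) ≃ₗ[F] (ι → F)) (u i) = u j ∧
      ∀ v ∈ S, (refl Q (u i - u j) : (ι → F) ≃ₗ[F] (ι → F)) v ∈ S := by
    intro i j hij
    have hbij : polar Q (u i) (u j) = 0 := horth hij (hu i) (hu j)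
    have hq : Q (u i - u j) = 2 * c := by rw [H5.map_sub', hqu, hqu, hbij]; ring
    have hap : ∀ x, (refl Q (u i - u j) : (ι → F) ≃ₗ[F] (ι → F)) x =
        x - ((2 * c)⁻¹ * (polar Q (u i) x - polar Q (u j) x)) • (u i - u j) := fun x => by
      rw [refl_apply, hq, polar_sub_left]
    have hself : ∀ l, polar Q (u l) (u l) = 2 * c := fun l => by rw [polar_self', hqu]
    have hi : (refl Q (u i - u j) : (ι → F) ≃ₗ[F] (ι → F)) (u i) = u j := by
      rw [hap, hself, polar_comm (⇑Q) (u j) (u i), hbij, sub_zero, inv_mul_cancel₀ h2c, one_smul,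
        sub_sub_cancel]
    have hj : (refl Q (u i - u j) : (ι → F) ≃ₗ[F] (ι → F)) (u j) = u i := by
      rw [hap, hself, hbij, zero_sub, mul_neg, inv_mul_cancel₀ h2c, neg_one_smul, sub_neg_eq_add,
        add_sub_cancel]
    refine ⟨hq, hap, hi, fun v hv => ?_⟩
    obtain ⟨l, hl, hqv⟩ := hv
    by_cases hli : l = i
    · subst hli
      rcases hpair l _ (hu l) v hl (hqu l) hqv with rfl | rfl | h
      · rw [hi]; exact huS j
      · rw [map_neg, hi]; exact hnegS j
      · rw [hap, h, horth (Ne.symm hij) (hu j) hl, sub_zero, mul_zero, zero_smul, sub_zero]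
        exact ⟨l, hl, hqv⟩
    by_cases hlj : l = j
    · subst hlj
      rcases hpair l _ (hu l) v hl (hqu l) hqv with rfl | rfl | h
      · rw [hj]; exact huS i
      · rw [map_neg, hj]; exact hnegS i
      · rw [hap, h, horth hij (hu i) hl, sub_zero, mul_zero, zero_smul, sub_zero]
        exact ⟨l, hl, hqv⟩
    rw [hap, horth (Ne.symm hli) (hu i) hl, horth (Ne.symm hlj) (hu j) hl, sub_zero, mul_zero,
      zero_smul, sub_zero]
    exact ⟨l, hl, hqv⟩
  refine not_maximal_of_set hf S ?_ ?_ ?_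
  · rintro g hg v ⟨i, hv, hqv⟩
    obtain ⟨j, hj⟩ := hg i
    exact ⟨j, hj v hv, by rw [orth_map, hqv]⟩
  · obtain ⟨i₁, i₂, i₃, h12, h13, h23⟩ : ∃ i₁ i₂ i₃ : Fin t, i₁ ≠ i₂ ∧ i₁ ≠ i₃ ∧ i₂ ≠ i₃ :=
      ⟨⟨0, by omega⟩, ⟨1, by omega⟩, ⟨2, by omega⟩, by simp, by simp, by simp⟩
    obtain ⟨hq1, hap1, ha1, hS1⟩ := hswap h12
    obtain ⟨hq2, hap2, ha2, hS2⟩ := hswap h23
    refine ⟨refl Q (u i₂ - u i₃) * refl Q (u i₁ - u i₂), ?_, fun v hv => ?_, i₁, fun j => ?_⟩
    · have h := (list_prod_mem_commutator_iff hQ (Or.inr (by omega))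
        (vs := [u i₂ - u i₃, u i₁ - u i₂]) (by simp [hq1, hq2, h2c])).2
        ⟨by simp, by simp [hq1, hq2, IsSquare.mul_self]⟩
      simpa using h
    · rw [orth_mul_apply]; exact hS2 _ (hS1 v hv)
    · obtain ⟨w, hw, hw0, hwu⟩ : ∃ w ∈ D i₁, w ≠ 0 ∧ polar Q (u i₁) w = 0 := by
        obtain ⟨x, hx, hxs⟩ : ∃ x ∈ D i₁, x ∉ Submodule.span F {u i₁} := by
          refine SetLike.not_le_iff_exists.1 fun hle => ?_
          have h1 := Submodule.finrank_mono hle
          have h3 : Module.finrank F (Submodule.span F {u i₁}) ≤ 1 := by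
            simpa using finrank_span_le_card ({u i₁} : Set (ι → F))
          rw [hD.decomp.finrank_eq] at h1
          omega
        refine ⟨x - ((2 * c)⁻¹ * polar Q (u i₁) x) • u i₁, sub_mem hx (Submodule.smul_mem _ _ (hu i₁)),
          fun h => hxs (Submodule.mem_span_singleton.2 ⟨_, (sub_eq_zero.1 h).symm⟩), ?_⟩
        rw [polar_sub_right, polar_smul_right, polar_self', hqu, smul_eq_mul]
        field_simp
        ring
      have hwfix : (refl Q (u i₁ - u i₂) : (ι → F) ≃ₗ[F] (ι → F)) w = w := by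
        rw [hap1, hwu, horth h12.symm (hu i₂) hw, sub_zero, mul_zero, zero_smul, sub_zero]
      have hwfix2 : (refl Q (u i₂ - u i₃) : (ι → F) ≃ₗ[F] (ι → F)) w = w := by
        rw [hap2, horth h12.symm (hu i₂) hw, horth h13.symm (hu i₃) hw, sub_zero, mul_zero,
          zero_smul, sub_zero]
      by_cases hj : j = i₁
      · refine ⟨u i₁, hu _, fun hmem => ?_⟩
        rw [hj] at hmem
        rw [orth_mul_apply, ha1, ha2] at hmem
        have := horth h13.symm (hu i₃) hmem
        rw [polar_self', hqu] at this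
        exact h2c this
      · refine ⟨w, hw, fun hmem => hw0 ?_⟩
        rw [orth_mul_apply, hwfix, hwfix2] at hmem
        have hb : D i₁ ⊓ D j = ⊥ :=
          (hD.decomp.indep.pairwiseDisjoint (Ne.symm hj)).eq_bot
        have hm : w ∈ D i₁ ⊓ D j := ⟨hw, hmem⟩
        rwa [hb, Submodule.mem_bot] at hm
  · obtain ⟨v, i, hvi, hqv⟩ : ∃ v i, v ∈ D i ∧ Q v = c := ⟨_, ⟨0, by omega⟩, hu _, hqu _⟩
    have hv0 : v ≠ 0 := fun h => hc (by rw [← hqv, h, QuadraticMap.map_zero])
    obtain ⟨e, p, hp, hev, hperp, hg⟩ := exists_eich_move hQ (by omega) hv0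
    have hd := hp.finrank_pperp hQ
    obtain ⟨a, ha, -, ha0, hqa⟩ := exists_singular_not_mem (Q := Q) (S := pperp Q e p) (T := ⊥)
      (by rw [finrank_bot]; omega)
    obtain ⟨hgc, hgv⟩ := hg a ha
    refine ⟨_, hgc, v, ⟨i, hvi, hqv⟩, fun hmem => ?_⟩
    rw [hgv, hqa, zero_smul, sub_zero] at hmem
    obtain ⟨j, hj, hqj⟩ := hmem
    have hbv : polar Q v (v + a) = 2 * c := by
      rw [polar_add_right, polar_self', hqv, polar_comm (⇑Q) v a, mem_perp.1 hperp a ha, add_zero]
    by_cases hij : i = j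
    · subst hij
      rcases hpair i v hvi _ hj hqv hqj with h | h | h
      · exact ha0 (add_eq_left.1 h)
      · rw [h, polar_neg_right, polar_self', hqv, neg_eq_iff_add_eq_zero, ← two_mul] at hbv
        exact mul_ne_zero h2 h2c hbv
      · exact h2c (hbv.symm.trans h)
    · exact h2c (hbv.symm.trans (horth hij hvi hj))


theorem not_maximal_small (hf : ⇑Q = f) (hQ : (polarBilin Q).Nondegenerate)
    (hn : 8 ≤ Fintype.card ι) (hD : Cfsg.Geo.IsOrthogonalMDecomposition f k D)
    (hcase : (k = 2 ∧ (Fintype.card F = 3 ∨ ((∀ i, Cfsg.Geo.IsPlusTypeOn f (D i)) ∧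
        (Fintype.card F = 2 ∨ Fintype.card F = 4 ∨ Fintype.card F = 5)))) ∨
      (k = 3 ∧ Fintype.card F = 3) ∨
      (k = 4 ∧ Fintype.card F = 2 ∧ ∀ i, Cfsg.Geo.IsPlusTypeOn f (D i))) :
    ∃ K : Subgroup (GL ι F), Cfsg.Geo.decompositionStabilizer D ⊓ Cfsg.Geo.omegaGL f < K ∧
      K < Cfsg.Geo.omegaGL f := by
  classical
  have hcard := card_eq_mul_of_mdecomposition hD.decomp.decomp
  have hWU : ∀ i, D i ⊓ perp Q (D i) = ⊥ := fun i =>
    inf_perp_of_isNondegenerateOn Q hf (hD.decomp.nondegenerate i)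
  have hdim := hD.decomp.decomp.finrank_eq
  have hsing : k = 2 → (∀ i, Cfsg.Geo.IsPlusTypeOn f (D i)) →
      ∀ i, ∃ x ∈ D i, x ≠ 0 ∧ Q x = 0 := by
    intro hk hp i
    obtain ⟨U, hUW, hU, hUd⟩ := hp i
    rw [hdim, hk] at hUd
    obtain ⟨x, hx, hx0⟩ := Submodule.exists_mem_ne_zero_of_ne_bot
      (show U ≠ ⊥ from fun h => by rw [h, finrank_bot] at hUd; omega)
    exact ⟨x, hUW hx, hx0, by rw [hf]; exact hU x hx⟩
  rcases hcase with ⟨hk, hq⟩ | ⟨hk, hq⟩ | ⟨hk, hq, hp⟩
  · subst hk
    rcases hq with hq | ⟨hp, hq | hq | hq⟩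
    · have h2 : (2 : F) ≠ 0 := sb_two_ne_zero_of_odd_card (by rw [hq]; decide)
      exact not_maximal_frame hf hQ h2 hn hD.decomp le_rfl (by omega) one_ne_zero
        (fun i => exists_mem_norm_eq (hWU i) (hdim i).ge 1)
        (fun i => plane_pair_three hq h2 (hdim i) (hWU i))
    · have h2 : (2 : F) = 0 := two_eq_zero_of_even_card (by rw [hq]; decide)
      refine not_maximal_lattice hf hQ h2 (by omega) hD.decomp (by omega) (fun i => ?_) ⊥
        (fun a ha => Or.inl (AddSubgroup.mem_bot.1 ha)) (fun x hx => ?_)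
        (l := 1) (fun h => one_ne_zero (AddSubgroup.mem_bot.1 h))
      · obtain ⟨e, he, he0, hqe⟩ := hsing rfl hp i
        obtain ⟨p, hp', hep⟩ := exists_partner (hWU i) he he0 hqe
        exact ⟨e, he, p, hp', hep⟩
      · have h1 := FiniteField.pow_card_sub_one_eq_one x hx
        rw [hq] at h1
        rw [AddSubgroup.mem_bot, show x = 1 by simpa using h1, inv_one]
        linear_combination h2
    · have h2 : (2 : F) = 0 := two_eq_zero_of_even_card (by rw [hq]; decide)
      let A : AddSubgroup F :=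
        { carrier := {a | a = 0 ∨ a = 1}
          zero_mem' := Or.inl rfl
          add_mem' := by
            rintro a b (rfl | rfl) (rfl | rfl)
            · exact Or.inl (add_zero _)
            · exact Or.inr (zero_add _)
            · exact Or.inr (add_zero _)
            · exact Or.inl (by linear_combination h2)
          neg_mem' := by
            rintro a (rfl | rfl)
            · exact Or.inl neg_zero
            · exact Or.inr (by linear_combination -h2) }
      obtain ⟨l, -, hl⟩ := Finset.exists_mem_notMem_of_card_lt_card (t := (Finset.univ : Finset F))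
        (s := ({0, 1} : Finset F))
        (lt_of_le_of_lt Finset.card_le_two (by rw [Finset.card_univ, hq]; norm_num))
      simp only [Finset.mem_insert, Finset.mem_singleton] at hl
      refine not_maximal_lattice hf hQ h2 (by omega) hD.decomp (by omega) (fun i => ?_) A
        (fun a ha => ha) (fun x hx => ?_) (l := l) hl
      · obtain ⟨e, he, he0, hqe⟩ := hsing rfl hp i
        obtain ⟨p, hp', hep⟩ := exists_partner (hWU i) he he0 hqe
        exact ⟨e, he, p, hp', hep⟩
      · have h1 := FiniteField.pow_card_sub_one_eq_one x hx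
        rw [hq] at h1
        have h3 : (x - 1) * (x * x + x + 1) = 0 := by linear_combination h1
        rcases mul_eq_zero.1 h3 with h | h
        · rw [sub_eq_zero.1 h, inv_one]; exact Or.inl (by linear_combination h2)
        · refine Or.inr ?_
          field_simp
          linear_combination h - x * h2
    · have h2 : (2 : F) ≠ 0 := sb_two_ne_zero_of_odd_card (by rw [hq]; decide)
      exact not_maximal_frame hf hQ h2 hn hD.decomp le_rfl (by omega) one_ne_zero
        (fun i => exists_mem_norm_eq (hWU i) (hdim i).ge 1)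
        (fun i => plane_pair_five hq h2 (hdim i) (hWU i) (hsing rfl hp i))
  · subst hk
    have h2 : (2 : F) ≠ 0 := sb_two_ne_zero_of_odd_card (by rw [hq]; decide)
    obtain ⟨c, hc, ⟨u, hu, hqu⟩, hpair⟩ := space_three_frame hq (hdim ⟨0, by
      have := hD.decomp.decomp.two_le; omega⟩) (hWU _)
    refine not_maximal_frame hf hQ h2 hn hD.decomp (by omega) (by omega) hc (fun i => ?_)
      (fun i x hx y hy hqx hqy => ?_)
    · obtain ⟨φ, hφ⟩ := hD.isometric _ i
      have hqφ : ∀ w, Q (φ w : ι → F) = Q (w : ι → F) := fun w => by rw [hf]; exact hφ w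
      exact ⟨φ ⟨u, hu⟩, (φ ⟨u, hu⟩).2, (hqφ _).trans hqu⟩
    · obtain ⟨φ, hφ⟩ := hD.isometric i ⟨0, by have := hD.decomp.decomp.two_le; omega⟩
      have hqφ : ∀ w : D i, Q (φ w : ι → F) = Q (w : ι → F) := fun w => by rw [hf]; exact hφ w
      have hbφ : ∀ a b : D i, polar Q (φ a : ι → F) (φ b : ι → F) =
          polar Q (a : ι → F) (b : ι → F) := fun a b => by
        simp only [QuadraticMap.polar]
        rw [← Submodule.coe_add, ← map_add, hqφ, hqφ, hqφ, Submodule.coe_add]
      rcases hpair _ (φ ⟨x, hx⟩).2 _ (φ ⟨y, hy⟩).2 (by rw [hqφ]; exact hqx) (by rw [hqφ]; exact hqy)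
        with h | h | h
      · exact Or.inl (congrArg Subtype.val (φ.injective (Subtype.ext h)))
      · refine Or.inr (Or.inl (congrArg Subtype.val
          (φ.injective (a₁ := ⟨y, hy⟩) (a₂ := -⟨x, hx⟩) (Subtype.ext ?_))))
        rw [map_neg]; exact h
      · exact Or.inr (Or.inr ((hbφ ⟨x, hx⟩ ⟨y, hy⟩).symm.trans h))
  · subst hk
    exact not_maximal_four_two hf hQ hq (by omega) hD.decomp hD.decomp.decomp.two_le hp

end Cfsg.Agent.H6.OEven
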