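import Cfsg.Agent.H6.OEven.Frame

/-!
Tensor decompositions of the polar form.
-/

set_option autoImplicit false
set_option linter.unusedSectionVars false

open scoped MatrixGroups Matrix Kronecker

namespace Cfsg.Agent.H6.OEven

open Cfsg.Geo Cfsg.Agent.H99.Asch

variable {n : ℕ} {F : Type*} [Field F] [Fintype F] {Q : (Fin n → F) → F}
  {H : Subgroup (GL (Fin n) F)}

/-- Every element in a tensor frame gives the equations for the factors. -/
lemma factor_of_tensor (hQ : IsNondegenerateQuadraticForm Q) {s t : ℕ} [Nonempty (Fin s)] [Nonempty (Fin t)]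
    (hH : H ≤ omegaGL Q) {e : Fin n ≃ Fin s × Fin t} {P : GL (Fin n) F} (G₁ : GL (Fin s) F) (G₂ : GL (Fin t) F)
    (hgram : (polarData hQ).gramAt P = tens e (G₁ : Matrix (Fin s) (Fin s) F) (G₂ : Matrix (Fin t) (Fin t) F))
    (hle : H ≤ tensorProductSubgroup s t e P) {h : GL (Fin n) F} (hh : h ∈ H) :
    ∃ (a : GL (Fin s) F) (b : GL (Fin t) F) (x : F), x ≠ 0 ∧
      ((P⁻¹ * h * P : GL (Fin n) F) : Matrix (Fin n) (Fin n) F) =
        tens e (a : Matrix (Fin s) (Fin s) F) (b : Matrix (Fin t) (Fin t) F) ∧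
      (a : Matrix (Fin s) (Fin s) F)ᵀ * (G₁ : Matrix (Fin s) (Fin s) F) * (a : Matrix (Fin s) (Fin s) F) =
        x • (G₁ : Matrix (Fin s) (Fin s) F) ∧
      (b : Matrix (Fin t) (Fin t) F)ᵀ * (G₂ : Matrix (Fin t) (Fin t) F) * (b : Matrix (Fin t) (Fin t) F) =
        x⁻¹ • (G₂ : Matrix (Fin t) (Fin t) F) := by
  let D := polarData hQ
  obtain ⟨a, b, hab⟩ := mem_tensorProductSubgroup_iff.1 (hle hh)
  have e3 : ((P⁻¹ * h * P : GL (Fin n) F) : Matrix (Fin n) (Fin n) F) =
      tens e (a : Matrix (Fin s) (Fin s) F) (b : Matrix (Fin t) (Fin t) F) := by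
    rw [Units.val_mul, Units.val_mul, hab]
    simp only [← mul_assoc]
    rw [← Units.val_mul, inv_mul_cancel, Units.val_one, one_mul, mul_assoc, ← Units.val_mul, inv_mul_cancel,
      Units.val_one, mul_one]
  have h1 : (tens e (a : Matrix (Fin s) (Fin s) F) (b : Matrix (Fin t) (Fin t) F))ᵀ * D.gramAt P *
      (tens e (a : Matrix (Fin s) (Fin s) F) (b : Matrix (Fin t) (Fin t) F)).map D.σ = D.gramAt P := by
    rw [← e3, ← FormData.gramAt_mul]
    rw [show P * (P⁻¹ * h * P) = h * P by simp [mul_assoc]]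
    refine eq_of_gramForm_eq D.σ fun u v => ?_
    rw [← FormData.form_gramAt, ← FormData.form_gramAt, Units.val_mul, ← Matrix.mulVec_mulVec,
      ← Matrix.mulVec_mulVec]
    exact omega_le_isom hQ (hH hh) _ _
  rw [hgram, tens_transpose, tens_map, tens_mul, tens_mul] at h1
  obtain ⟨x, hx, hax, hbx⟩ := tens_eq_tens e (Units.ne_zero G₁) (Units.ne_zero G₂) h1
  exact ⟨a, b, x, hx, e3, hax, hbx⟩

/-- An element X with X² = d, adj X = -X, sent to ± itself by H, in odd characteristic. -/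
theorem structure_of_quadratic (hQ : IsNondegenerateQuadraticForm Q) (hn : 0 < n) (hq : Odd (Fintype.card F))
    {X : Matrix (Fin n) (Fin n) F} {d : F} (hd : d ≠ 0)
    (hX : X * X = d • 1) (hadj : (polarData hQ).adj X = -X)
    (hconj : ∀ h ∈ H, conjHom h X = X ∨ conjHom h X = -X) :
    InFormHalves (polarData hQ) H ∨ ∃ L : Subalgebra F (Matrix (Fin n) (Fin n) F), IsFieldSubalgebra 2 L ∧
      (∀ k ∈ L, (polarData hQ).adj k ∈ L) ∧ Normalises H L ∧ ¬ IsSelfAdjointFor (QuadraticMap.polar Q) L := by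
  classical
  let D := polarData hQ
  have h2 := two_ne_zero_of_card_odd hq
  have : Nonempty (Fin n) := ⟨⟨0, hn⟩⟩
  by_cases hsq : ∃ s : F, s * s = d
  · obtain ⟨s, hs⟩ := hsq
    have hs0 : s ≠ 0 := fun e => hd (by rw [← hs, e, zero_mul])
    let p := (2 : F)⁻¹ • (1 + s⁻¹ • X)
    refine Or.inl ⟨p, ?_, ?_, fun x hx => ?_⟩
    · simp only [p, smul_mul_assoc, mul_smul_comm, add_mul, mul_add, one_mul, mul_one, hX, smul_smul,
        smul_add]
      rw [← hs]
      match_scalars <;> field_simp <;> ring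
    · show D.adj ((2 : F)⁻¹ • (1 + s⁻¹ • X)) = 1 - (2 : F)⁻¹ • (1 + s⁻¹ • X)
      rw [D.adj_smul, D.adj_add, D.adj_smul, D.adj_one, hadj]
      show (2 : F)⁻¹ • (1 + s⁻¹ • -X) = _
      match_scalars <;> field_simp <;> ring
    · rcases hconj x hx with e | e
      · exact Or.inl (by simp only [p, map_smul, map_add, map_one, e])
      · refine Or.inr ?_
        simp only [p, map_smul, map_add, map_one, e]
        match_scalars <;> field_simp <;> ring
  push Not at hsq
  have hind : LinearIndependent F ![(1 : Matrix (Fin n) (Fin n) F), X] := by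
    rw [linearIndependent_fin2]
    refine ⟨fun e => ?_, fun c e => ?_⟩
    · have e' : X = 0 := e
      rw [e', zero_mul] at hX
      exact one_ne_zero ((smul_eq_zero.1 hX.symm).resolve_left hd)
    · have e' : c • X = 1 := e
      have h1 := congrArg (fun M => M * M) e'
      simp only [smul_mul_assoc, mul_smul_comm, hX, smul_smul, mul_one] at h1
      have h2' : c * c * d = 1 := smul_left_injective F one_ne_zero
        (show (c * c * d) • (1 : Matrix (Fin n) (Fin n) F) = (1 : F) • 1 by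
          rw [one_smul, mul_assoc]; exact h1)
      have hc0 : c ≠ 0 := fun e0 => by rw [e0] at h2'; simp at h2'
      exact hsq c⁻¹ (by field_simp; linear_combination -h2')
  let S := Submodule.span F ({1, X} : Set (Matrix (Fin n) (Fin n) F))
  have hmem : ∀ {M}, M ∈ S ↔ ∃ a b : F, a • (1 : Matrix (Fin n) (Fin n) F) + b • X = M :=
    Submodule.mem_span_pair
  let K : Subalgebra F (Matrix (Fin n) (Fin n) F) := S.toSubalgebra
    (hmem.2 ⟨1, 0, by simp⟩) fun x y hx hy => by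
      obtain ⟨a, b, rfl⟩ := hmem.1 hx
      obtain ⟨a', b', rfl⟩ := hmem.1 hy
      refine hmem.2 ⟨a * a' + b * b' * d, a * b' + b * a', ?_⟩
      simp only [add_mul, mul_add, smul_mul_assoc, mul_smul_comm, one_mul, mul_one, hX, smul_smul]
      match_scalars <;> ring
  have hKm : ∀ {M}, M ∈ K ↔ ∃ a b : F, a • (1 : Matrix (Fin n) (Fin n) F) + b • X = M := hmem
  have hK : IsFieldSubalgebra 2 K := by
    refine ⟨fun x hx y hy => ?_, fun x hx hx0 => ?_, ?_⟩
    · obtain ⟨a, b, rfl⟩ := hKm.1 hx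
      obtain ⟨a', b', rfl⟩ := hKm.1 hy
      simp only [add_mul, mul_add, smul_mul_assoc, mul_smul_comm, one_mul, mul_one, hX, smul_smul]
      match_scalars <;> ring
    · obtain ⟨a, b, rfl⟩ := hKm.1 hx
      have hn : a * a - d * b * b ≠ 0 := by
        intro e
        by_cases hb : b = 0
        · rw [hb, mul_zero, sub_zero, mul_self_eq_zero] at e
          rw [hb, e, zero_smul, zero_smul, add_zero] at hx0
          exact hx0 rfl
        · exact hsq (a / b) (by field_simp; linear_combination e)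
      refine ⟨(a * a - d * b * b)⁻¹ • (a • 1 + (-b) • X),
        K.smul_mem (hKm.2 ⟨_, _, rfl⟩) _, ?_⟩
      rw [mul_smul_comm, show (a • 1 + b • X) * (a • 1 + (-b) • X) = (a * a - d * b * b) • 1 by
        simp only [add_mul, mul_add, smul_mul_assoc, mul_smul_comm, one_mul, mul_one, hX, smul_smul]
        match_scalars <;> ring, smul_smul, inv_mul_cancel₀ hn, one_smul]
    · show Module.finrank F S = 2
      have : S = Submodule.span F (Set.range ![(1 : Matrix (Fin n) (Fin n) F), X]) := by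
        rw [Matrix.range_cons_cons_empty]
      rw [this, finrank_span_eq_card hind, Fintype.card_fin]
  have hKa : ∀ k ∈ K, D.adj k ∈ K := fun k hk => by
    obtain ⟨a, b, rfl⟩ := hKm.1 hk
    refine hKm.2 ⟨a, -b, ?_⟩
    rw [D.adj_add, D.adj_smul, D.adj_smul, D.adj_one, hadj, smul_neg, ← neg_smul]
    rfl
  refine Or.inr ⟨K, hK, hKa, fun x hx k hk => ?_, fun hs => ?_⟩
  rotate_left
  · have hXK : X ∈ K := hKm.2 ⟨0, 1, by simp⟩
    have hX0 : X ≠ 0 := hind.ne_zero 1
    apply hX0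
    refine Matrix.toLin'.injective (LinearMap.ext fun v => ?_)
    rw [Matrix.toLin'_apply, map_zero, LinearMap.zero_apply]
    by_contra hne
    obtain ⟨⟨u, hu⟩, -⟩ := D.nondegenerate _ hne
    apply hu
    have h1 : D.form (X *ᵥ u) v = D.form u (X *ᵥ v) := by
      have := hs X hXK u v
      rwa [← polarData_form hQ] at this
    rw [D.form_adj, hadj, Matrix.neg_mulVec, ← neg_one_smul F (X *ᵥ v), D.form_smul_right] at h1
    have h3 : (2 : F) * D.form u (X *ᵥ v) = 0 := by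
      have h4 : (-1 : F) * D.form u (X *ᵥ v) = D.form u (X *ᵥ v) := h1
      linear_combination -h4
    exact (mul_eq_zero.1 h3).resolve_left h2
  · obtain ⟨a, b, rfl⟩ := hKm.1 hk
    rcases hconj x hx with e | e
    · exact hKm.2 ⟨a, b, by rw [← conjHom_apply, map_add, map_smul, map_smul, map_one, e]⟩
    · exact hKm.2 ⟨a, -b, by rw [← conjHom_apply, map_add, map_smul, map_smul, map_one, e, smul_neg, neg_smul]⟩

/-- A symmetric factor of size two gives a quadratic structure. -/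
theorem tensor_quadratic (hQ : IsNondegenerateQuadraticForm Q) (hn : 0 < n) (hH : H ≤ omegaGL Q)
    (hq : Odd (Fintype.card F)) {s : ℕ} (hs : 2 ≤ s) (e : Fin n ≃ Fin s × Fin 2) (P : GL (Fin n) F)
    (G₁ : GL (Fin s) F) (G₂ : GL (Fin 2) F)
    (hgram : (polarData hQ).gramAt P = tens e (G₁ : Matrix (Fin s) (Fin s) F) (G₂ : Matrix (Fin 2) (Fin 2) F))
    (hG₂ : (G₂ : Matrix (Fin 2) (Fin 2) F)ᵀ = (G₂ : Matrix (Fin 2) (Fin 2) F))
    (hle : H ≤ tensorProductSubgroup s 2 e P) :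
    InFormHalves (polarData hQ) H ∨ ∃ L : Subalgebra F (Matrix (Fin n) (Fin n) F), IsFieldSubalgebra 2 L ∧
      (∀ k ∈ L, (polarData hQ).adj k ∈ L) ∧ Normalises H L ∧ ¬ IsSelfAdjointFor (QuadraticMap.polar Q) L := by
  classical
  have : Nonempty (Fin n) := ⟨⟨0, hn⟩⟩
  have : Nonempty (Fin s) := ⟨⟨0, by omega⟩⟩
  have h2 := two_ne_zero_of_card_odd hq
  let D := polarData hQ
  suffices hmain : ∃ (X : Matrix (Fin n) (Fin n) F) (d : F), d ≠ 0 ∧ X * X = d • 1 ∧ D.adj X = -X ∧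
      ∀ h ∈ H, conjHom h X = X ∨ conjHom h X = -X by
    obtain ⟨X, d, hd, hX, hadj, hconj⟩ := hmain
    exact structure_of_quadratic hQ hn hq hd hX hadj hconj
  let J : Matrix (Fin 2) (Fin 2) F := !![0, 1; -1, 0]
  let G : Matrix (Fin 2) (Fin 2) F := (G₂ : Matrix (Fin 2) (Fin 2) F)
  let Gi : Matrix (Fin 2) (Fin 2) F := ((G₂⁻¹ : GL (Fin 2) F) : Matrix (Fin 2) (Fin 2) F)
  have hGi : Gi * G = 1 := G₂.inv_mul
  have hGi' : G * Gi = 1 := G₂.mul_inv
  have hGiT : Giᵀ = Gi := by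
    have h1 : G * Giᵀ = 1 := by
      rw [show G = Gᵀ from hG₂.symm, ← Matrix.transpose_mul, hGi, Matrix.transpose_one]
    calc Giᵀ = Gi * G * Giᵀ := by rw [hGi, one_mul]
      _ = Gi := by rw [mul_assoc, h1, mul_one]
  have hJT : Jᵀ = -J := by ext i j; fin_cases i <;> fin_cases j <;> simp [J]
  have hJJ : J * J = -1 := by ext i j; fin_cases i <;> fin_cases j <;> simp [J, Matrix.mul_apply, Fin.sum_univ_two]
  have hdet : Gi.det ≠ 0 := Matrix.GeneralLinearGroup.det_ne_zero G₂⁻¹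
  let T := Gi * J
  have hTT : T * T = (-Gi.det) • 1 := by
    have h1 : Gi * J * Gi = Gi.det • J := by
      have := alt_two Gi
      rwa [hGiT] at this
    show Gi * J * (Gi * J) = _
    rw [← mul_assoc, h1, smul_mul_assoc, hJJ, smul_neg, neg_smul]
  let X := conjHom P (tens e (1 : Matrix (Fin s) (Fin s) F) T)
  refine ⟨X, -Gi.det, neg_ne_zero.2 hdet, ?_, ?_, fun h hh => ?_⟩
  · rw [← map_mul, tens_mul, one_mul, hTT, tens_smul_right, tens_one, map_smul, map_one]
  · rw [← map_neg]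
    refine adj_frame D P ?_
    rw [hgram, tens_transpose, Matrix.transpose_one, tens_mul, one_mul]
    show _ = tens e _ _ * -(tens e 1 T)
    rw [mul_neg, tens_mul, mul_one, show Tᵀ * G = -(G * T) by
      simp only [T, Matrix.transpose_mul, hGiT, hJT, ← mul_assoc, hGi', one_mul]
      rw [mul_assoc, hGi, mul_one]]
    rw [show -(G * T) = (-1 : F) • (G * T) from (neg_one_smul F _).symm, tens_smul_right, neg_one_smul]
  obtain ⟨a, b, x, hx, hab, -, hb⟩ := factor_of_tensor hQ hH G₁ G₂ hgram hle hh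
  let bi : Matrix (Fin 2) (Fin 2) F := ((b⁻¹ : GL (Fin 2) F) : Matrix (Fin 2) (Fin 2) F)
  let bm : Matrix (Fin 2) (Fin 2) F := (b : Matrix (Fin 2) (Fin 2) F)
  have hdb : bm.det ≠ 0 := Matrix.GeneralLinearGroup.det_ne_zero b
  have hbb : bm * bi = 1 := b.mul_inv
  have h3 : bm * Gi * bmᵀ = x⁻¹ • Gi := by
    have e1 : bmᵀ * G * (bm * Gi * bmᵀ) = bmᵀ * G * (x⁻¹ • Gi) := by
      rw [mul_smul_comm, mul_assoc bmᵀ G Gi, hGi', mul_one, ← mul_assoc, ← mul_assoc,
        show bmᵀ * G * bm = x⁻¹ • G from hb, smul_mul_assoc, hGi', smul_mul_assoc, one_mul]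
    exact (((Matrix.isUnit_transpose _).2 (Units.isUnit b)).mul (Units.isUnit G₂)).mul_left_cancel e1
  have h4 : J * bi = bm.det⁻¹ • (bmᵀ * J) := by
    have := congrArg (fun M => bm.det⁻¹ • (M * bi)) (alt_two bm)
    simp only [mul_assoc] at this
    rw [hbb, mul_one, smul_mul_assoc, smul_smul, inv_mul_cancel₀ hdb, one_smul] at this
    exact this.symm
  have h5 : bm * T * bi = (x⁻¹ * bm.det⁻¹) • T := by
    show bm * (Gi * J) * bi = _ • (Gi * J)
    rw [mul_assoc, mul_assoc, h4, mul_smul_comm, mul_smul_comm, ← mul_assoc, ← mul_assoc, h3, smul_mul_assoc,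
      smul_smul, mul_comm bm.det⁻¹]
  set μ := x⁻¹ * bm.det⁻¹ with hμ
  have hX : conjHom h X = μ • X := by
    have e4 : h * P = P * tensUnit e a b := by
      refine Units.ext ?_
      show _ = (P : Matrix (Fin n) (Fin n) F) * tens e (a : Matrix (Fin s) (Fin s) F) bm
      rw [← hab, ← Units.val_mul]
      simp [mul_assoc]
    show conjHom h (conjHom P (tens e 1 T)) = μ • conjHom P (tens e 1 T)
    rw [conjHom_apply, conjHom_apply]
    have e5 : ∀ M : Matrix (Fin n) (Fin n) F,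
        (h : Matrix (Fin n) (Fin n) F) * ((P : Matrix (Fin n) (Fin n) F) * M *
          ((P⁻¹ : GL (Fin n) F) : Matrix (Fin n) (Fin n) F)) *
          ((h⁻¹ : GL (Fin n) F) : Matrix (Fin n) (Fin n) F) =
        ((h * P : GL (Fin n) F) : Matrix (Fin n) (Fin n) F) * M *
          (((h * P)⁻¹ : GL (Fin n) F) : Matrix (Fin n) (Fin n) F) := fun M => by
      rw [mul_inv_rev, Units.val_mul, Units.val_mul]; simp only [mul_assoc]
    rw [e5, e4, mul_inv_rev, Units.val_mul, Units.val_mul]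
    show _ * (tens e (a : Matrix (Fin s) (Fin s) F) bm) * _ *
      (tens e ((a⁻¹ : GL (Fin s) F) : Matrix (Fin s) (Fin s) F) bi * _) = _
    rw [show ∀ A B C E E' : Matrix (Fin n) (Fin n) F, A * B * C * (E * E') = A * (B * C * E) * E'
      from fun A B C E E' => by simp only [mul_assoc], tens_mul, tens_mul, mul_one,
      show (a : Matrix (Fin s) (Fin s) F) * ((a⁻¹ : GL (Fin s) F) : Matrix (Fin s) (Fin s) F) = 1 from a.mul_inv,
      h5, tens_smul_right, mul_smul_comm, smul_mul_assoc]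
  have hXX : X * X = (-Gi.det) • 1 := by
    rw [← map_mul, tens_mul, one_mul, hTT, tens_smul_right, tens_one, map_smul, map_one]
  have h6 : conjHom h (X * X) = conjHom h ((-Gi.det) • 1) := congrArg _ hXX
  rw [map_mul, hX, map_smul, map_one, smul_mul_assoc, mul_smul_comm, hXX, smul_smul, smul_smul] at h6
  have h7 := smul_left_injective F one_ne_zero h6
  rcases mul_self_eq_one_iff.1 (mul_right_cancel₀ (neg_ne_zero.2 hdet) (h7.trans (one_mul _).symm)) with h8 | h8
  · exact Or.inl (by rw [hX, h8, one_smul])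
  · exact Or.inr (by rw [hX, h8, neg_one_smul])

/-- In characteristic two a non-alternating factor makes the group reducible. -/
theorem tensor_reducible (hQ : IsNondegenerateQuadraticForm Q) (hH : H ≤ omegaGL Q)
    (hirr : ActsIrreducibly (matrixSet H))
    (h2 : (2 : F) = 0) {s t : ℕ} (hs : 2 ≤ s) (ht : 2 ≤ t) (e : Fin n ≃ Fin s × Fin t)
    (P : GL (Fin n) F) (G₁ : GL (Fin s) F) (G₂ : GL (Fin t) F)
    (hgram : (polarData hQ).gramAt P = tens e (G₁ : Matrix (Fin s) (Fin s) F) (G₂ : Matrix (Fin t) (Fin t) F))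
    (hG₂ : (G₂ : Matrix (Fin t) (Fin t) F)ᵀ = (G₂ : Matrix (Fin t) (Fin t) F))
    (hd₂ : ¬ ∀ i, (G₂ : Matrix (Fin t) (Fin t) F) i i = 0)
    (hle : H ≤ tensorProductSubgroup s t e P) : False := by
  classical
  have : Nonempty (Fin s) := ⟨⟨0, by omega⟩⟩
  have : Nonempty (Fin t) := ⟨⟨0, by omega⟩⟩
  set g₂ : Matrix (Fin t) (Fin t) F := (G₂ : Matrix (Fin t) (Fin t) F)
  have hQadd : ∀ x y : Fin t → F, (x + y) ⬝ᵥ (g₂ *ᵥ (x + y)) = x ⬝ᵥ (g₂ *ᵥ x) + y ⬝ᵥ (g₂ *ᵥ y) := by
    intro x y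
    have e1 : y ⬝ᵥ (g₂ *ᵥ x) = x ⬝ᵥ (g₂ *ᵥ y) := by rw [← transpose_dot g₂ x y, hG₂]
    simp only [Matrix.mulVec_add, dotProduct_add, add_dotProduct, e1]
    linear_combination (x ⬝ᵥ (g₂ *ᵥ y)) * h2
  have hQsmul : ∀ (c : F) (x : Fin t → F), (c • x) ⬝ᵥ (g₂ *ᵥ (c • x)) = c ^ 2 * (x ⬝ᵥ (g₂ *ᵥ x)) := by
    intro c x
    simp only [Matrix.mulVec_smul, dotProduct_smul, smul_dotProduct, smul_eq_mul]
    ring
  let S : Submodule F (Fin t → F) :=
    { carrier := {x | x ⬝ᵥ (g₂ *ᵥ x) = 0}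
      add_mem' := fun {x y} hx hy => by
        show (x + y) ⬝ᵥ _ = 0
        rw [hQadd, hx, hy, add_zero]
      zero_mem' := by show (0 : Fin t → F) ⬝ᵥ _ = 0; simp
      smul_mem' := fun c x hx => by
        show (c • x) ⬝ᵥ _ = 0
        rw [hQsmul, hx, mul_zero] }
  have hQs : ∀ (k : Fin t) (c : F), (Pi.single k c : Fin t → F) ⬝ᵥ (g₂ *ᵥ Pi.single k c) = c ^ 2 * g₂ k k := by
    intro k c
    simp [Matrix.mulVec_single]
    ring
  obtain ⟨x, hxS, hx0⟩ : ∃ x ∈ S, x ≠ 0 := by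
    obtain ⟨k, l, hkl⟩ : ∃ k l : Fin t, k ≠ l := ⟨⟨0, by omega⟩, ⟨1, by omega⟩, by simp [Fin.ext_iff]⟩
    by_cases hk : g₂ k k = 0
    · exact ⟨Pi.single k 1, by show _ = (0 : F); rw [hQs, hk, mul_zero], by simp⟩
    have hr : ringChar F = 2 :=
      ((Nat.dvd_prime Nat.prime_two).1 (ringChar.dvd (by exact_mod_cast h2))).resolve_left CharP.ringChar_ne_one
    obtain ⟨c, hc⟩ := FiniteField.isSquare_of_char_two hr (g₂ l l / g₂ k k)
    refine ⟨Pi.single k c + Pi.single l 1, ?_, fun e0 => ?_⟩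
    · show _ = (0 : F)
      rw [hQadd, hQs, hQs, sq, ← hc, div_mul_cancel₀ _ hk, one_pow, one_mul, ← two_mul, h2, zero_mul]
    · have := congrFun e0 l
      simp [hkl.symm] at this
  let W : Submodule F (Fin n → F) :=
    { carrier := {v | ∀ i, (fun k => (((P⁻¹ : GL (Fin n) F) : Matrix (Fin n) (Fin n) F) *ᵥ v)
        (e.symm (i, k))) ∈ S}
      add_mem' := fun {a b} ha hb i => by
        rw [Matrix.mulVec_add]; exact S.add_mem (ha i) (hb i)
      zero_mem' := fun i => by rw [Matrix.mulVec_zero]; exact S.zero_mem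
      smul_mem' := fun c a ha i => by rw [Matrix.mulVec_smul]; exact S.smul_mem c (ha i) }
  have hinv : IsInv (matrixSet H) W := by
    rintro _ ⟨h, hh, rfl⟩ v hv i
    obtain ⟨a, b, y, -, hab, -, hb⟩ := factor_of_tensor hQ hH G₁ G₂ hgram hle hh
    set w := ((P⁻¹ : GL (Fin n) F) : Matrix (Fin n) (Fin n) F) *ᵥ v with hw
    have e1 : ((P⁻¹ : GL (Fin n) F) : Matrix (Fin n) (Fin n) F) *ᵥ
        ((h : Matrix (Fin n) (Fin n) F) *ᵥ v) = tens e (a : Matrix (Fin s) (Fin s) F)
          (b : Matrix (Fin t) (Fin t) F) *ᵥ w := by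
      rw [hw, ← hab, Matrix.mulVec_mulVec, Matrix.mulVec_mulVec, ← Units.val_mul, ← Units.val_mul]
      simp [mul_assoc]
    have e2 : (fun k => (tens e (a : Matrix (Fin s) (Fin s) F) (b : Matrix (Fin t) (Fin t) F) *ᵥ w) (e.symm (i, k))) =
        ∑ j, (a : Matrix (Fin s) (Fin s) F) i j • ((b : Matrix (Fin t) (Fin t) F) *ᵥ fun l => w (e.symm (j, l))) := by
      funext k
      simp only [Matrix.mulVec, dotProduct, Finset.sum_apply, Pi.smul_apply, smul_eq_mul, Finset.mul_sum]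
      rw [← e.symm.sum_comp, Fintype.sum_prod_type]
      refine Finset.sum_congr rfl fun j _ => Finset.sum_congr rfl fun l _ => ?_
      rw [tens_apply, e.apply_symm_apply, e.apply_symm_apply]
      ring
    rw [e1, e2]
    refine Submodule.sum_mem _ fun j _ => S.smul_mem _ ?_
    show _ = (0 : F)
    rw [quad_mulVec, show (b : Matrix (Fin t) (Fin t) F)ᵀ * g₂ * (b : Matrix (Fin t) (Fin t) F) = y⁻¹ • g₂ from hb,
      Matrix.smul_mulVec, dotProduct_smul, show _ ⬝ᵥ (g₂ *ᵥ _) = (0 : F) from hv j, smul_zero]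
  have hmemW : ∀ (i : Fin s) (z : Fin t → F),
      ((P : Matrix (Fin n) (Fin n) F) *ᵥ fun u => if (e u).1 = i then z (e u).2 else 0) ∈ W ↔
        z ∈ S := by
    intro i z
    have e1 : ∀ j, (fun k => (((P⁻¹ : GL (Fin n) F) : Matrix (Fin n) (Fin n) F) *ᵥ
        ((P : Matrix (Fin n) (Fin n) F) *ᵥ fun u => if (e u).1 = i then z (e u).2 else 0))
          (e.symm (j, k))) = if j = i then z else 0 := by
      intro j
      rw [Matrix.mulVec_mulVec, ← Units.val_mul, inv_mul_cancel, Units.val_one, Matrix.one_mulVec]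
      funext k
      by_cases hj : j = i <;> simp [hj]
    constructor
    · intro hz
      have := hz i
      rwa [e1, if_pos rfl] at this
    · intro hz j
      rw [e1]
      split_ifs
      · exact hz
      · exact S.zero_mem
  let i₀ : Fin s := ⟨0, by omega⟩
  rcases actsIrreducibly_iff.1 hirr W hinv with h0 | h0
  · have := (hmemW i₀ x).2 hxS
    rw [h0, Submodule.mem_bot] at this
    have h3 := congrArg (fun v => ((P⁻¹ : GL (Fin n) F) : Matrix (Fin n) (Fin n) F) *ᵥ v) this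
    simp only [Matrix.mulVec_mulVec, ← Units.val_mul, inv_mul_cancel, Units.val_one, Matrix.one_mulVec,
      Matrix.mulVec_zero] at h3
    apply hx0
    funext k
    simpa using congrFun h3 (e.symm (i₀, k))
  · push Not at hd₂
    obtain ⟨k, hk⟩ := hd₂
    have h3 : (Pi.single k 1 : Fin t → F) ∈ S := (hmemW i₀ _).1 (h0 ▸ Submodule.mem_top)
    have h4 : _ = (0 : F) := h3
    rw [hQs, one_pow, one_mul] at h4
    exact hk h4

lemma tens_mulVec_pure {κ μ : Type} [Fintype κ] [DecidableEq κ] [Fintype μ] [DecidableEq μ] (e : Fin n ≃ κ × μ)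
    (A : Matrix κ κ F) (B : Matrix μ μ F) (x : κ → F) (y : μ → F) :
    tens e A B *ᵥ ((fun p : κ × μ => x p.1 * y p.2) ∘ e) = (fun p : κ × μ => (A *ᵥ x) p.1 * (B *ᵥ y) p.2) ∘ e := by
  funext u
  simp only [Matrix.mulVec, dotProduct, Function.comp_apply, Finset.sum_mul_sum]
  rw [← e.symm.sum_comp, Fintype.sum_prod_type]
  refine Finset.sum_congr rfl fun i _ => Finset.sum_congr rfl fun j _ => ?_
  rw [tens_apply, e.apply_symm_apply]
  ring

lemma pure_dot {κ μ : Type} [Fintype κ] [Fintype μ] (e : Fin n ≃ κ × μ) (x x' : κ → F) (y y' : μ → F) :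
    ((fun p : κ × μ => x p.1 * y p.2) ∘ e) ⬝ᵥ ((fun p : κ × μ => x' p.1 * y' p.2) ∘ e) =
      (x ⬝ᵥ x') * (y ⬝ᵥ y') := by
  simp only [dotProduct, Function.comp_apply, Finset.sum_mul_sum]
  rw [← e.symm.sum_comp, Fintype.sum_prod_type]
  refine Finset.sum_congr rfl fun i _ => Finset.sum_congr rfl fun j _ => ?_
  rw [e.apply_symm_apply]
  ring

/-- Two alternating factors: the quadratic form vanishes on pure tensors. -/
theorem tensor_pure_singular (hQ : IsNondegenerateQuadraticForm Q) (hn : 2 ≤ n) (hH : H ≤ omegaGL Q)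
    (hirr : ActsIrreducibly (matrixSet H)) {s t : ℕ} (hs : 2 ≤ s) (ht : 2 ≤ t) (e : Fin n ≃ Fin s × Fin t)
    (P : GL (Fin n) F) (G₁ : GL (Fin s) F) (G₂ : GL (Fin t) F)
    (hgram : (polarData hQ).gramAt P = tens e (G₁ : Matrix (Fin s) (Fin s) F) (G₂ : Matrix (Fin t) (Fin t) F))
    (h₁ : IsSymplecticForm (gramForm (RingHom.id F) (G₁ : Matrix (Fin s) (Fin s) F)))
    (h₂ : IsSymplecticForm (gramForm (RingHom.id F) (G₂ : Matrix (Fin t) (Fin t) F)))
    (hle : H ≤ tensorProductSubgroup s t e P) (x : Fin s → F) (y : Fin t → F) :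
    Q ((P : Matrix (Fin n) (Fin n) F) *ᵥ ((fun p : Fin s × Fin t => x p.1 * y p.2) ∘ e)) = 0 := by
  classical
  have : Nonempty (Fin s) := ⟨⟨0, by omega⟩⟩
  have : Nonempty (Fin t) := ⟨⟨0, by omega⟩⟩
  set g₁ : Matrix (Fin s) (Fin s) F := (G₁ : Matrix (Fin s) (Fin s) F)
  set g₂ : Matrix (Fin t) (Fin t) F := (G₂ : Matrix (Fin t) (Fin t) F)
  have hy : y ⬝ᵥ (g₂ *ᵥ y) = 0 := h₂.alternating y
  rcases card_parity (F := F) with hq | h2
  · have h2 := two_ne_zero_of_card_odd hq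
    refine (mul_eq_zero.1 ?_).resolve_left h2
    rw [← polar_self hQ, ← polarData_form hQ, FormData.form_gramAt, hgram]
    show ((fun p : Fin s × Fin t => x p.1 * y p.2) ∘ e) ⬝ᵥ
      (tens e g₁ g₂ *ᵥ ((fun p : Fin s × Fin t => x p.1 * y p.2) ∘ e)) = 0
    rw [tens_mulVec_pure, pure_dot, hy, mul_zero]
  have hd₁ : ∀ i, g₁ i i = 0 := fun i => by
    have := h₁.alternating (Pi.single i 1)
    simpa [gramForm] using this
  have hd₂ : ∀ i, g₂ i i = 0 := fun i => by
    have := h₂.alternating (Pi.single i 1)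
    simpa [gramForm] using this
  have hsym : ∀ {k : ℕ} {G : Matrix (Fin k) (Fin k) F}, IsSymplecticForm (gramForm (RingHom.id F) G) →
      Gᵀ = G := by
    intro k G hG
    refine Matrix.ext fun i j => ?_
    have := hG.skew (Pi.single j 1) (Pi.single i 1)
    simp [gramForm] at this
    rw [Matrix.transpose_apply, this]
    linear_combination -(G i j) * h2
  let A : Matrix (Fin s) (Fin s) F := Matrix.of fun i j => if i < j then g₁ i j else 0
  have hA : A + Aᵀ = g₁ := by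
    ext i j
    have e1 : g₁ j i = g₁ i j := congrFun (congrFun (hsym h₁) i) j
    rcases lt_trichotomy i j with hij | rfl | hij
    · simp [A, hij, hij.not_gt]
    · simp [A, hd₁]
    · simp [A, hij, hij.not_gt, e1]
  rw [quad_in_frame hQ hn h2 hH hirr P (tens e A g₂) ?_ (fun i => ?_) (fun h hh i => ?_)]
  · rw [tens_mulVec_pure, pure_dot, hy, mul_zero]
  · rw [tens_transpose, hsym h₂, ← tens_add_left, hA, hgram]
  · rw [tens_apply, hd₂, mul_zero]
  · obtain ⟨a, b, z, -, hab, -, hb⟩ := factor_of_tensor hQ hH G₁ G₂ hgram hle hh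
    rw [hab, tens_transpose, tens_mul, tens_mul, tens_apply, hb, Matrix.smul_apply,
      show (G₂ : Matrix (Fin t) (Fin t) F) (e i).2 (e i).2 = 0 from hd₂ _, smul_zero, mul_zero]

/-- Pure tensors with a fixed factor of size two give a singular half. -/
lemma plus_of_pure (hQ : IsNondegenerateQuadraticForm Q) {t : ℕ} (e : Fin n ≃ Fin 2 × Fin t)
    (P : GL (Fin n) F)
    (hpure : ∀ (x : Fin 2 → F) (y : Fin t → F),
      Q ((P : Matrix (Fin n) (Fin n) F) *ᵥ ((fun p : Fin 2 × Fin t => x p.1 * y p.2) ∘ e)) = 0) :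
    IsPlusTypeOn Q ⊤ := by
  let φ : (Fin t → F) →ₗ[F] (Fin n → F) :=
    { toFun := fun y => (P : Matrix (Fin n) (Fin n) F) *ᵥ
        ((fun p : Fin 2 × Fin t => (Pi.single (0 : Fin 2) (1 : F) : Fin 2 → F) p.1 * y p.2) ∘ e)
      map_add' := fun y y' => by
        rw [← Matrix.mulVec_add]; congr 1; funext u; simp [mul_add]
      map_smul' := fun c y => by
        rw [RingHom.id_apply, ← Matrix.mulVec_smul]; congr 1; funext u; simp; ring }
  refine plus_of_singular_half (U := LinearMap.range φ) ?_ ?_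
  · rintro _ ⟨y, rfl⟩
    exact hpure _ y
  · have hcard : n = 2 * t := by simpa using Fintype.card_congr e
    rw [LinearMap.finrank_range_of_inj, Module.finrank_fintype_fun_eq_card, Fintype.card_fin, hcard]
    intro y y' h
    funext j
    have h1 := congrFun (Matrix.mulVec_injective_of_isUnit (Units.isUnit P) h) (e.symm (0, j))
    simpa using h1

lemma det_tens {s t : ℕ} (e : Fin n ≃ Fin s × Fin t) (A : Matrix (Fin s) (Fin s) F) (B : Matrix (Fin t) (Fin t) F) :
    (tens e A B).det = A.det ^ t * B.det ^ s := by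
  rw [tens, Matrix.det_reindexAlgEquiv, Matrix.det_kronecker, Fintype.card_fin, Fintype.card_fin]

/-- The normal forms of a tensor decomposition, smaller factor first. -/
theorem tensor_cases (hQ : IsNondegenerateQuadraticForm Q) (hn : 2 ≤ n) (hH : H ≤ omegaGL Q)
    (hirr : ActsIrreducibly (matrixSet H)) (h : InFormTensor (polarData hQ) H) :
    ∃ (s t : ℕ) (e : Fin n ≃ Fin s × Fin t) (P : GL (Fin n) F) (G₁ : GL (Fin s) F) (G₂ : GL (Fin t) F),
      2 ≤ s ∧ s ≤ t ∧ s * t = n ∧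
      (polarData hQ).gramAt P = tens e (G₁ : Matrix (Fin s) (Fin s) F) (G₂ : Matrix (Fin t) (Fin t) F) ∧
      H ≤ tensorProductSubgroup s t e P ∧
      ((Even s ∧ Even t ∧ IsSymplecticForm (gramForm (RingHom.id F) (G₁ : Matrix (Fin s) (Fin s) F)) ∧
          IsSymplecticForm (gramForm (RingHom.id F) (G₂ : Matrix (Fin t) (Fin t) F))) ∨
        (Odd (Fintype.card F) ∧ (G₁ : Matrix (Fin s) (Fin s) F)ᵀ = (G₁ : Matrix (Fin s) (Fin s) F) ∧
          (G₂ : Matrix (Fin t) (Fin t) F)ᵀ = (G₂ : Matrix (Fin t) (Fin t) F))) := by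
  classical
  obtain ⟨s, t, e, P, G₁, G₂, hgram, hle, hs, ht, htype⟩ : ∃ (s t : ℕ) (e : Fin n ≃ Fin s × Fin t)
      (P : GL (Fin n) F) (G₁ : GL (Fin s) F) (G₂ : GL (Fin t) F),
      (polarData hQ).gramAt P = tens e (G₁ : Matrix (Fin s) (Fin s) F) (G₂ : Matrix (Fin t) (Fin t) F) ∧
      H ≤ tensorProductSubgroup s t e P ∧ 2 ≤ s ∧ 2 ≤ t ∧
      ((Even s ∧ Even t ∧ IsSymplecticForm (gramForm (RingHom.id F) (G₁ : Matrix (Fin s) (Fin s) F)) ∧
          IsSymplecticForm (gramForm (RingHom.id F) (G₂ : Matrix (Fin t) (Fin t) F))) ∨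
        (Odd (Fintype.card F) ∧ (G₁ : Matrix (Fin s) (Fin s) F)ᵀ = (G₁ : Matrix (Fin s) (Fin s) F) ∧
          (G₂ : Matrix (Fin t) (Fin t) F)ᵀ = (G₂ : Matrix (Fin t) (Fin t) F))) := by
    obtain ⟨s, t, e, P, G₁, G₂, a₁, a₂, hs, ht, hgram, hG₁, hG₂, haa, hle⟩ := h
    refine ⟨s, t, e, P, G₁, G₂, hgram, hle, hs, ht, ?_⟩
    have : Nonempty (Fin s) := ⟨⟨0, by omega⟩⟩
    have : Nonempty (Fin t) := ⟨⟨0, by omega⟩⟩
    change a₁ * a₂ = 1 at haa
    replace hG₁ : (G₁ : Matrix (Fin s) (Fin s) F)ᵀ = a₁ • (G₁ : Matrix (Fin s) (Fin s) F) := hG₁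
    replace hG₂ : (G₂ : Matrix (Fin t) (Fin t) F)ᵀ = a₂ • (G₂ : Matrix (Fin t) (Fin t) F) := hG₂
    have ha := mul_self_eq_one_iff.1 (sign_sq (Units.ne_zero G₁) hG₁)
    have hev : ∀ {k : ℕ} {G : Matrix (Fin k) (Fin k) F}, IsSymplecticForm (gramForm (RingHom.id F) G) →
        Even k := fun {k G} hG => by simpa using symplectic_even hG
    rcases card_parity (F := F) with hq | h2
    · rcases ha with rfl | rfl
      · rw [one_mul] at haa
        subst haa
        rw [one_smul] at hG₁ hG₂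
        exact Or.inr ⟨hq, hG₁, hG₂⟩
      · rw [neg_one_mul, neg_eq_iff_eq_neg] at haa
        subst haa
        rw [neg_one_smul] at hG₁ hG₂
        have e1 := gramForm_symplectic (two_ne_zero_of_card_odd hq) (Units.isUnit G₁) hG₁
        have e2 := gramForm_symplectic (two_ne_zero_of_card_odd hq) (Units.isUnit G₂) hG₂
        exact Or.inl ⟨hev e1, hev e2, e1, e2⟩
    · have hneg : (-1 : F) = 1 := by linear_combination (-1 : F) * h2
      rw [hneg] at ha
      obtain rfl : a₁ = 1 := ha.elim id id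
      rw [one_mul] at haa
      subst haa
      rw [one_smul] at hG₁ hG₂
      have d2 : ∀ i, (G₂ : Matrix (Fin t) (Fin t) F) i i = 0 := by
        by_contra hd
        exact tensor_reducible hQ hH hirr h2 hs ht e P G₁ G₂ hgram hG₂ hd hle
      have d1 : ∀ i, (G₁ : Matrix (Fin s) (Fin s) F) i i = 0 := by
        by_contra hd
        refine tensor_reducible hQ hH hirr h2 ht hs (e.trans (Equiv.prodComm (Fin s) (Fin t))) P G₂ G₁ ?_ hG₁ hd
          (hle.trans (tensorProductSubgroup_swap e P))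
        rw [hgram]; ext u v; rw [tens_apply, tens_apply, mul_comm]; rfl
      have e1 := gramForm_alternating h2 (Units.isUnit G₁) hG₁ d1
      have e2 := gramForm_alternating h2 (Units.isUnit G₂) hG₂ d2
      exact Or.inl ⟨hev e1, hev e2, e1, e2⟩
  have hst : s * t = n := by simpa using (Fintype.card_congr e).symm
  rcases le_or_gt s t with hle' | hgt
  · exact ⟨s, t, e, P, G₁, G₂, hs, hle', hst, hgram, hle, htype⟩
  refine ⟨t, s, e.trans (Equiv.prodComm (Fin s) (Fin t)), P, G₂, G₁, ht, hgt.le, by rw [mul_comm]; exact hst,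
    ?_, hle.trans (tensorProductSubgroup_swap e P), ?_⟩
  · rw [hgram]; ext u v; rw [tens_apply, tens_apply, mul_comm]; rfl
  · rcases htype with ⟨a, b, c, d⟩ | ⟨a, b, c⟩
    · exact Or.inl ⟨b, a, d, c⟩
    · exact Or.inr ⟨a, c, b⟩

end Cfsg.Agent.H6.OEven
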