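import Cfsg.Agent.H6.OEven.Special
import Cfsg.Agent.H6.OEven.Tensor
import Cfsg.Agent.H6.OEven.SmallBlocks
import Cfsg.Agent.H6.OEven.Decomp
import Cfsg.Agent.H99.Aschbacher.FormMain

/-!
The maximal subgroups of the minus-type Ω in dimension 8.
-/

set_option autoImplicit false

open scoped MatrixGroups Matrix

namespace Cfsg.Agent.H6.OEven

open Cfsg Cfsg.Geo Cfsg.Agent.H99.Asch

/-- The reducible outcomes in dimension 8. -/
theorem red_eight {F : Type*} [Field F] [Fintype F] {Q : (Fin 8 → F) → F}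
    (hQ : Cfsg.Geo.IsNondegenerateQuadraticForm Q) {H : Subgroup (Matrix.GeneralLinearGroup (Fin 8) F)}
    (h : RedCase Q H) :
    (∃ W : Submodule F (Fin 8 → F), W ≠ ⊥ ∧ Cfsg.Geo.IsTotallySingularQuad Q W ∧ H = Cfsg.Geo.subspaceStabilizer W ⊓ Cfsg.Geo.omegaGL Q) ∨
    (Odd (Fintype.card F) ∧ ∃ W : Submodule F (Fin 8 → F), W ≠ ⊥ ∧ W ≠ ⊤ ∧ Odd (Module.finrank F W) ∧ Cfsg.Geo.IsNondegenerateOn (QuadraticMap.polar Q) W ∧ H = Cfsg.Geo.subspaceStabilizer W ⊓ Cfsg.Geo.omegaGL Q) ∨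
    (∃ W : Submodule F (Fin 8 → F), Module.finrank F W = 2 ∧ Cfsg.Geo.IsNondegenerateOn (QuadraticMap.polar Q) W ∧ ¬ Cfsg.Geo.IsPlusTypeOn Q W ∧ H = Cfsg.Geo.subspaceStabilizer W ⊓ Cfsg.Geo.omegaGL Q) ∨
    (4 ≤ Fintype.card F ∧ ∃ W : Submodule F (Fin 8 → F), Module.finrank F W = 2 ∧ Cfsg.Geo.IsNondegenerateOn (QuadraticMap.polar Q) W ∧ Cfsg.Geo.IsPlusTypeOn Q W ∧ H = Cfsg.Geo.subspaceStabilizer W ⊓ Cfsg.Geo.omegaGL Q) ∨
    (∃ W : Submodule F (Fin 8 → F), Module.finrank F W = 4 ∧ Cfsg.Geo.IsNondegenerateOn (QuadraticMap.polar Q) W ∧ H = Cfsg.Geo.subspaceStabilizer W ⊓ Cfsg.Geo.omegaGL Q) ∨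
    (¬ Odd (Fintype.card F) ∧ ∃ v : (Fin 8 → F), Q v ≠ 0 ∧ H = Cfsg.Geo.subspaceStabilizer (Submodule.span F {v}) ⊓ Cfsg.Geo.omegaGL Q) := by
  rcases h with ⟨W, hW, hs, -, heq⟩ | ⟨hq, W, hW, hWt, ho, -, hnd, heq⟩ | ⟨W, he, h2, hlt, hnd, hplane, heq⟩ |
    ⟨hq, v, hv, heq⟩ | ⟨W, hd, hnd, heq⟩
  · exact Or.inl ⟨W, hW, hs, heq⟩
  · exact Or.inr (Or.inl ⟨hq, W, hW, hWt, ho, hnd, heq⟩)
  · have hd2 : Module.finrank F W = 2 := by
      obtain ⟨j, hj⟩ := he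
      omega
    by_cases hp : IsPlusTypeOn Q W
    · exact Or.inr (Or.inr (Or.inr (Or.inl ⟨hplane hd2 hp, W, hd2, hnd, hp, heq⟩)))
    · exact Or.inr (Or.inr (Or.inl ⟨W, hd2, hnd, hp, heq⟩))
  · exact Or.inr (Or.inr (Or.inr (Or.inr (Or.inr ⟨hq, v, hv, heq⟩))))
  · exact Or.inr (Or.inr (Or.inr (Or.inr (Or.inl ⟨W, by omega, hnd, heq⟩))))

/-- The maximal subgroup list. -/
theorem omega8minus_cases {F : Type*} [Field F] [Fintype F] (Q : (Fin 8 → F) → F) (hQ : Cfsg.Geo.IsNondegenerateQuadraticForm Q) (hminus : ¬ Cfsg.Geo.IsPlusTypeOn Q ⊤) (H : Subgroup (Matrix.GeneralLinearGroup (Fin 8) F)) (hH : Cfsg.Geo.IsMaximalIn (Cfsg.Geo.omegaGL Q) H) :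
    (∃ W : Submodule F (Fin 8 → F), W ≠ ⊥ ∧ Cfsg.Geo.IsTotallySingularQuad Q W ∧ H = Cfsg.Geo.subspaceStabilizer W ⊓ Cfsg.Geo.omegaGL Q) ∨
    (Odd (Fintype.card F) ∧ ∃ W : Submodule F (Fin 8 → F), W ≠ ⊥ ∧ W ≠ ⊤ ∧ Odd (Module.finrank F W) ∧ Cfsg.Geo.IsNondegenerateOn (QuadraticMap.polar Q) W ∧ H = Cfsg.Geo.subspaceStabilizer W ⊓ Cfsg.Geo.omegaGL Q) ∨
    (∃ W : Submodule F (Fin 8 → F), Module.finrank F W = 2 ∧ Cfsg.Geo.IsNondegenerateOn (QuadraticMap.polar Q) W ∧ ¬ Cfsg.Geo.IsPlusTypeOn Q W ∧ H = Cfsg.Geo.subspaceStabilizer W ⊓ Cfsg.Geo.omegaGL Q) ∨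
    (4 ≤ Fintype.card F ∧ ∃ W : Submodule F (Fin 8 → F), Module.finrank F W = 2 ∧ Cfsg.Geo.IsNondegenerateOn (QuadraticMap.polar Q) W ∧ Cfsg.Geo.IsPlusTypeOn Q W ∧ H = Cfsg.Geo.subspaceStabilizer W ⊓ Cfsg.Geo.omegaGL Q) ∨
    (∃ W : Submodule F (Fin 8 → F), Module.finrank F W = 4 ∧ Cfsg.Geo.IsNondegenerateOn (QuadraticMap.polar Q) W ∧ H = Cfsg.Geo.subspaceStabilizer W ⊓ Cfsg.Geo.omegaGL Q) ∨
    (¬ Odd (Fintype.card F) ∧ ∃ v : (Fin 8 → F), Q v ≠ 0 ∧ H = Cfsg.Geo.subspaceStabilizer (Submodule.span F {v}) ⊓ Cfsg.Geo.omegaGL Q) ∨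
    (∃ K : Subalgebra F (Matrix (Fin 8) (Fin 8) F), Cfsg.Geo.IsFieldSubalgebra 2 K ∧ H = Cfsg.Geo.subalgebraNormalizer K ⊓ Cfsg.Geo.omegaGL Q) ∨
    (∃ (F₀ : Subfield F) (r : ℕ) (P : Matrix.GeneralLinearGroup (Fin 8) F) (ζ : F), r.Prime ∧ Odd r ∧ Fintype.card F = Nat.card F₀ ^ r ∧ ζ ≠ 0 ∧ Cfsg.Geo.IsQuadFormRationalStructure (fun v : Fin 8 → F => ζ * Q v) F₀ P ∧ H = Cfsg.Geo.subfieldSubgroup F₀ P ⊓ Cfsg.Geo.omegaGL Q) ∨
    Cfsg.Geo.InOrthogonalResidualClass H := by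
  classical
  rcases form_aschbacher (polarData hQ) (by simp) (hH.1.le.trans (omega_le_isom hQ)) with h | h | ⟨hirr, h⟩
  · exact (red_eight hQ (red_of_subspace hQ le_rfl hH h)).imp id (Or.imp id (Or.imp id (Or.imp id (Or.imp id Or.inl))))
  · rcases dec_cases hQ le_rfl ⟨4, rfl⟩ hH h with h | ⟨t, k, D, hD, htk, heq⟩
    · exact (red_eight hQ h).imp id (Or.imp id (Or.imp id (Or.imp id (Or.imp id Or.inl))))
    · exfalso
      apply hminus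
      have ht := hD.decomp.decomp.two_le
      have hk4 : k ≤ 4 := by nlinarith
      have hk0 := hD.decomp.decomp.pos
      interval_cases k
      · obtain rfl : t = 8 := by omega
        have h2 : (2 : F) ≠ 0 := two_ne_zero_of_odd_finrank hQ (hD.decomp.nondegenerate 0)
          (by rw [hD.decomp.decomp.finrank_eq]; exact odd_one)
        exact (plus_iff_of_blocks hQ h2 hD ⟨4, rfl⟩ (m := 4) rfl).2 ⟨1, by ring⟩
      · exact plus_of_even_blocks hQ hD ⟨1, rfl⟩ ⟨2, by omega⟩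
      · omega
      · exact plus_of_even_blocks hQ hD ⟨2, rfl⟩ ⟨1, by omega⟩
  · rcases h with h | ⟨N, -, -, h⟩ | h | h | h | h | h
    · obtain ⟨k, V, hk, hV, hs, -⟩ := halves_singular hQ (by norm_num) hH.1.le hirr h
      exact absurd (plus_of_halves hk hV hs) hminus
    · obtain ⟨r, L, hr, hr8, hL, -, hLn⟩ := field_prime hQ (by norm_num) h
      obtain rfl : r = 2 := (Nat.prime_dvd_prime_iff_eq hr Nat.prime_two).1
        (hr.dvd_of_dvd_pow (show r ∣ 2 ^ 3 from hr8))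
      exact Or.inr (Or.inr (Or.inr (Or.inr (Or.inr (Or.inr (Or.inl
        ⟨L, hL, field_eq hQ le_rfl hH hr (by norm_num) hL hLn⟩))))))
    · obtain ⟨s, t, e, P, G₁, G₂, hs, hst, hn, hgram, hle, hcase⟩ := tensor_cases hQ (by norm_num) hH.1.le hirr h
      obtain ⟨rfl, rfl⟩ : s = 2 ∧ t = 4 := by
        have : s < 3 := by
          by_contra hc
          have := Nat.mul_le_mul (not_lt.1 hc) ((not_lt.1 hc).trans hst)
          omega
        obtain rfl : s = 2 := by omega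
        omega
      exfalso
      apply hminus
      rcases hcase with ⟨-, -, h₁, h₂⟩ | ⟨hq, -, -⟩
      · exact plus_of_pure hQ e P
          (tensor_pure_singular hQ (by norm_num) hH.1.le hirr le_rfl (by norm_num) e P G₁ G₂ hgram h₁ h₂ hle)
      · rw [plus_iff_det_gramAt hQ (two_ne_zero_of_card_odd hq) (m := 4) rfl P, hgram, det_tens]
        exact ⟨(G₁ : Matrix (Fin 2) (Fin 2) F).det ^ 2 * (G₂ : Matrix (Fin 4) (Fin 4) F).det, by ring⟩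
    · obtain ⟨F₀, r, P, ζ, hr, hc, hζ, hP, hle⟩ := subfield_cases hQ (by norm_num) hH.1.le hirr h
      have hodd : Odd r := hr.eq_two_or_odd'.resolve_left fun e =>
        hminus (plus_of_index_two hQ (m := 4) rfl (e ▸ hc) hζ hP)
      exact Or.inr (Or.inr (Or.inr (Or.inr (Or.inr (Or.inr (Or.inr (Or.inl
        ⟨F₀, r, P, ζ, hr, hodd, hc, hζ, hP,
          eq_inf_of_maximal hH hle (not_le_subfield hQ (by simp) hr.two_le hc P)⟩)))))))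
    · exact absurd (typeTwo_cases hQ (Or.inl rfl) h).2 hminus
    · exact absurd (tensorPower_cases hQ (Or.inl rfl) hH.1.le hirr h).2 hminus
    · exact Or.inr (Or.inr (Or.inr (Or.inr (Or.inr (Or.inr (Or.inr (Or.inr (residual_class hQ (by norm_num) h))))))))

end Cfsg.Agent.H6.OEven
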