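import Cfsg.Agent.H6.OEven.Field

/-!
A self-adjoint field of degree five in dimension ten lies in a normalised field of degree ten, hence gives a
normalised field of degree two.
-/

set_option autoImplicit false
set_option linter.unusedSectionVars false

open scoped MatrixGroups Matrix

namespace Cfsg.Agent.H6.OEven

open Cfsg.Geo Cfsg.Agent.H99.Asch

variable {n : ℕ} {F : Type*} [Field F] [Fintype F] {Q : (Fin n → F) → F}
  {H : Subgroup (GL (Fin n) F)}

/-- The quadratic subfield of an adjoint-closed field of even degree. -/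
theorem exists_quad_subfield (hn : 0 < n) (D : FormData (Fin n) F) {d : ℕ}
    {K : Subalgebra F (Matrix (Fin n) (Fin n) F)} (hK : IsFieldSubalgebra d K) (hd : 2 ∣ d)
    (hKa : ∀ k ∈ K, D.adj k ∈ K) (hKn : Normalises H K) :
    ∃ L : Subalgebra F (Matrix (Fin n) (Fin n) F), IsFieldSubalgebra 2 L ∧ (∀ k ∈ L, D.adj k ∈ L) ∧
      Normalises H L := by
  classical
  have : Nonempty (Fin n) := ⟨⟨0, hn⟩⟩
  have : Nontrivial K := ⟨⟨0, 1, fun e => zero_ne_one (congrArg Subtype.val e)⟩⟩
  have hF : IsField K :=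
    { exists_pair_ne := exists_pair_ne _
      mul_comm := fun a b => Subtype.ext (hK.comm a a.2 b b.2)
      mul_inv_cancel := fun {a} ha => by
        obtain ⟨y, hy, hxy⟩ := hK.inv a a.2 (fun e => ha (Subtype.ext e))
        exact ⟨⟨y, hy⟩, Subtype.ext hxy⟩ }
  let _ : Field K := hF.toField
  let _ : Fintype K := Fintype.ofFinite K
  obtain ⟨p, hp⟩ := CharP.exists F
  obtain ⟨e, hpp, he⟩ := FiniteField.card F p
  have : Fact p.Prime := ⟨hpp⟩
  have : CharP K p := charP_of_injective_ringHom (f := (algebraMap F K)) (algebraMap F K).injective p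
  have hcardK : Fintype.card K = p ^ ((e : ℕ) * d) := by
    rw [← Nat.card_eq_fintype_card, Module.natCard_eq_pow_finrank (K := F), hK.finrank_eq,
      Nat.card_eq_fintype_card, he, ← pow_mul]
  obtain ⟨K', hK'⟩ := exists_subfield (F := K) (d := (e : ℕ) * 2) hcardK (Nat.mul_dvd_mul_left _ hd)
  have hq : Nat.card K' = Fintype.card F ^ 2 := by rw [hK', he, ← pow_mul]
  have halg : ∀ c : F, algebraMap F K c ∈ K' := by
    intro c
    rw [mem_subfield_iff, hq, ← map_pow, pow_mem_fieldSubalgebra_fixed]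
  let L' : Subalgebra F K := { K'.toSubring.toSubsemiring with algebraMap_mem' := halg }
  let L : Subalgebra F (Matrix (Fin n) (Fin n) F) := L'.map K.val
  have hmemL : ∀ x, x ∈ L ↔ x ∈ K ∧ x ^ (Fintype.card F ^ 2) = x := by
    intro x
    constructor
    · rintro ⟨y, hy, rfl⟩
      refine ⟨y.2, ?_⟩
      have : y ^ Nat.card K' = y := (mem_subfield_iff K' y).1 hy
      rw [hq] at this
      exact congrArg Subtype.val this
    · rintro ⟨hx, hxp⟩
      refine ⟨⟨x, hx⟩, ?_, rfl⟩
      show (⟨x, hx⟩ : K) ∈ K'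
      rw [mem_subfield_iff, hq]
      exact Subtype.ext hxp
  have hfin : Module.finrank F L = 2 := by
    have e1 : Nat.card L = Fintype.card F ^ 2 := by
      rw [← hq]
      exact (Nat.card_congr (L'.equivMapOfInjective _ Subtype.val_injective).toEquiv).symm
    rw [Module.natCard_eq_pow_finrank (K := F), Nat.card_eq_fintype_card] at e1
    exact Nat.pow_right_injective Fintype.one_lt_card e1
  refine ⟨L, ⟨fun x hx y hy => hK.comm x ((hmemL x).1 hx).1 y ((hmemL y).1 hy).1, ?_, hfin⟩,
    fun k hk => ?_, fun h hh x hx => ?_⟩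
  · intro x hx hx0
    obtain ⟨z, hz, rfl⟩ := hx
    refine ⟨((z⁻¹ : K) : Matrix (Fin n) (Fin n) F), ⟨z⁻¹, K'.inv_mem hz, rfl⟩, ?_⟩
    exact congrArg Subtype.val (mul_inv_cancel₀ (fun e => hx0 (by rw [e]; rfl) : z ≠ 0))
  · rw [hmemL] at hk ⊢
    exact ⟨hKa _ hk.1, by rw [← D.adj_pow, hk.2]⟩
  · rw [hmemL] at hx ⊢
    refine ⟨hKn h hh x hx.1, ?_⟩
    rw [← conjHom_apply, ← map_pow, hx.2]

/-- Every element of a finite field is a sum of two squares. -/
lemma exists_two_squares {K : Type*} [Field K] [Fintype K] (t : K) : ∃ a b : K, t = a * a + b * b := by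
  obtain ⟨p, hp⟩ := CharP.exists K
  rcases eq_or_ne (ringChar K) 2 with hc | hc
  · obtain ⟨a, ha⟩ := FiniteField.isSquare_of_char_two hc t
    exact ⟨a, 0, by rw [ha, mul_zero, add_zero]⟩
  · obtain ⟨a, b, hab⟩ := FiniteField.exists_root_sum_quadratic (R := K)
      (f := Polynomial.X ^ 2) (g := Polynomial.X ^ 2 - Polynomial.C t)
      (Polynomial.degree_X_pow 2) (Polynomial.degree_X_pow_sub_C (by decide) _)
      (FiniteField.odd_card_of_char_ne_two hc)
    refine ⟨a, b, ?_⟩
    simp at hab
    linear_combination -hab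

set_option maxHeartbeats 2000000 in
set_option synthInstance.maxHeartbeats 400000 in
/-- A self-adjoint quintic field in dimension ten gives a normalised adjoint-closed quadratic field. -/
theorem quintic_quad (hQ : IsNondegenerateQuadraticForm Q) (hn : n = 10) (hH : H ≤ omegaGL Q)
    (hirr : ActsIrreducibly (matrixSet H)) {L : Subalgebra F (Matrix (Fin n) (Fin n) F)}
    (hL : IsFieldSubalgebra 5 L) (hself : ∀ k ∈ L, (polarData hQ).adj k = k) (hLn : Normalises H L) :
    ∃ K : Subalgebra F (Matrix (Fin n) (Fin n) F), IsFieldSubalgebra 2 K ∧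
      (∀ k ∈ K, (polarData hQ).adj k ∈ K) ∧ Normalises H K := by
  classical
  haveI : Finite (Fin n → F) := Pi.finite
  let D := polarData hQ
  have : Nonempty (Fin n) := ⟨⟨0, by omega⟩⟩
  have : Nontrivial L := ⟨⟨0, 1, fun e => zero_ne_one (congrArg Subtype.val e)⟩⟩
  have hF : IsField L :=
    { exists_pair_ne := exists_pair_ne _
      mul_comm := fun a b => Subtype.ext (hL.comm a a.2 b b.2)
      mul_inv_cancel := fun {a} ha => by
        obtain ⟨y, hy, hxy⟩ := hL.inv a a.2 (fun e => ha (Subtype.ext e))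
        exact ⟨⟨y, hy⟩, Subtype.ext hxy⟩ }
  let _ : Field L := hF.toField
  let _ : Fintype L := Fintype.ofFinite L
  -- the action
  let act : L → (Fin n → F) → (Fin n → F) := fun k v => (k : Matrix (Fin n) (Fin n) F) *ᵥ v
  have act_mul : ∀ (a b : L) v, act (a * b) v = act a (act b v) := fun a b v => by
    simp only [act, Subalgebra.coe_mul, Matrix.mulVec_mulVec]
  have act_add : ∀ (a b : L) v, act (a + b) v = act a v + act b v := fun a b v => by
    simp only [act, Subalgebra.coe_add, Matrix.add_mulVec]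
  have act_inj : ∀ (a : L) v, act a v = 0 → a = 0 ∨ v = 0 := fun a v h => by
    rcases eq_or_ne a 0 with h0 | h0
    · exact Or.inl h0
    · right
      have h1 := congrArg (fun x => act a⁻¹ x) h
      rw [show act a⁻¹ (act a v) = v by rw [← act_mul, inv_mul_cancel₀ h0]; simp [act]] at h1
      simpa [act] using h1
  have hpol : ∀ (a b : L) u v, QuadraticMap.polar Q (act a u) (act b v) = QuadraticMap.polar Q (act (b * a) u) v := by
    intro a b u v
    rw [act_mul, ← polarData_form hQ]
    conv_rhs => rw [show act b (act a u) = (b : Matrix (Fin n) (Fin n) F) *ᵥ act a u from rfl,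
      (polarData hQ).form_adj, hself b b.2]
  -- a basis over the field
  obtain ⟨u, hu0⟩ := exists_ne (0 : Fin n → F)
  let E : L →ₗ[F] (Fin n → F) :=
    { toFun := fun k => act k u
      map_add' := fun a b => act_add a b u
      map_smul' := fun c k => by simp [act, Matrix.smul_mulVec] }
  have hL5 : Module.finrank F L = 5 := hL.finrank_eq
  obtain ⟨w, hw⟩ : ∃ w, w ∉ LinearMap.range E := by
    by_contra hcon
    push Not at hcon
    have h1 := LinearMap.finrank_range_le E
    rw [Submodule.eq_top_iff'.2 hcon, finrank_top, Module.finrank_fintype_fun_eq_card, Fintype.card_fin, hL5,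
      hn] at h1
    omega
  let X0 : (L × L) →ₗ[F] (Fin n → F) :=
    { toFun := fun p => act p.1 u + act p.2 w
      map_add' := fun p p' => by simp only [Prod.fst_add, Prod.snd_add, act_add]; abel
      map_smul' := fun c p => by simp [act, Matrix.smul_mulVec] }
  have hX0 : Function.Injective X0 := by
    rw [injective_iff_map_eq_zero]
    rintro ⟨a, b⟩ h
    have h : act a u + act b w = 0 := h
    rcases eq_or_ne b 0 with rfl | hb
    · have h' : act a u = 0 := by simpa [act] using h
      rcases act_inj a u h' with h1 | h1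
      · rw [h1]; rfl
      · exact absurd h1 hu0
    · exfalso
      apply hw
      refine ⟨-(b⁻¹ * a), ?_⟩
      show act (-(b⁻¹ * a)) u = w
      have h1 := congrArg (fun x => act b⁻¹ x) h
      simp only [act, Matrix.mulVec_add, Matrix.mulVec_zero] at h1
      have h2 : act (b⁻¹ * b) w = -(act (b⁻¹ * a) u) := by
        rw [act_mul, act_mul]
        exact eq_neg_of_add_eq_zero_right h1
      rw [inv_mul_cancel₀ hb] at h2
      simp only [act, Subalgebra.coe_one, Matrix.one_mulVec] at h2
      conv_rhs => rw [h2]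
      simp [act, Matrix.neg_mulVec]
  let Xe : (L × L) ≃ₗ[F] (Fin n → F) := LinearEquiv.ofBijective X0
    ⟨hX0, (LinearMap.injective_iff_surjective_of_finrank_eq_finrank
      (by rw [Module.finrank_prod, hL5, Module.finrank_fintype_fun_eq_card, Fintype.card_fin, hn])).1 hX0⟩
  let X : L → L → (Fin n → F) := fun a b => act a u + act b w
  have hXe : ∀ a b, Xe (a, b) = X a b := fun a b => rfl
  have hX : ∀ v, ∃ a b, X a b = v := fun v => ⟨(Xe.symm v).1, (Xe.symm v).2, Xe.apply_symm_apply v⟩
  have hXi : ∀ {a b a' b'}, X a b = X a' b' → a = a' ∧ b = b' := fun {a b a' b'} h => by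
    have := Xe.injective ((hXe a b).trans (h.trans (hXe a' b').symm))
    exact Prod.ext_iff.1 this
  have hXadd : ∀ a b a' b', X a b + X a' b' = X (a + a') (b + b') := fun a b a' b' => by
    simp only [X, act_add]; abel
  have hXact : ∀ (k a b : L), act k (X a b) = X (k * a) (k * b) := fun k a b => by
    simp only [X, act_mul]
    simp [act, Matrix.mulVec_add]
  -- functionals
  obtain ⟨ψ, hψ⟩ := exists_ne (0 : L →ₗ[F] F)
  let T : L →ₗ[F] (L →ₗ[F] F) := (LinearMap.mul F L).compr₂ ψ
  have hT : ∀ c x, T c x = ψ (c * x) := fun c x => rfl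
  have hTinj : Function.Injective T := by
    rw [injective_iff_map_eq_zero]
    intro c hc
    by_contra hc0
    refine hψ (LinearMap.ext fun x => ?_)
    have h1 := LinearMap.congr_fun hc (c⁻¹ * x)
    rw [hT, mul_inv_cancel_left₀ hc0] at h1
    exact h1
  have hTsurj : Function.Surjective T :=
    (LinearMap.injective_iff_surjective_of_finrank_eq_finrank Subspace.dual_finrank_eq.symm).1 hTinj
  have hquad : ∀ v, ∃ c : L, ∀ a : L, Q (act a v) = ψ (c * (a * a)) := by
    intro v
    rcases card_parity (F := F) with hq | h2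
    · have h2 := two_ne_zero_of_card_odd hq
      let f : L →ₗ[F] F :=
        { toFun := fun k => (2 : F)⁻¹ * QuadraticMap.polar Q (act k v) v
          map_add' := fun a b => by rw [act_add, hQ.polar_bilinear.add_left, mul_add]
          map_smul' := fun c k => by
            simp only [act, Subalgebra.coe_smul, Matrix.smul_mulVec, hQ.polar_bilinear.smul_left,
              RingHom.id_apply, smul_eq_mul]
            ring }
      obtain ⟨c, hc⟩ := hTsurj f
      refine ⟨c, fun a => ?_⟩
      rw [← hT, hc]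
      show Q _ = (2 : F)⁻¹ * _
      rw [← hpol, polar_self hQ, inv_mul_cancel_left₀ h2]
    · haveI : CharP L 2 := CharTwo.of_one_ne_zero_of_two_eq_zero one_ne_zero (Subtype.ext (by
        show (2 : Matrix (Fin n) (Fin n) F) = 0
        rw [← map_ofNat (algebraMap F _) 2, h2, map_zero]))
      choose r hr using fun k : L => FiniteField.isSquare_of_char_two (ringChar.eq L 2) k
      have hsq : ∀ {a b : L}, a * a = b * b → a = b := fun {a b} h => by
        rcases mul_self_eq_mul_self_iff.1 h with h' | h'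
        · exact h'
        · rwa [CharTwo.neg_eq] at h'
      let f : L →ₗ[F] F :=
        { toFun := fun k => Q (act (r k) v)
          map_add' := fun a b => by
            have e : r (a + b) = r a + r b := hsq (by rw [← hr, CharTwo.add_mul_self, ← hr, ← hr])
            rw [e, act_add, qf_add hQ, hpol, hr (r b * r a), ← hpol, polar_self hQ, h2, zero_mul, add_zero]
          map_smul' := fun c k => by
            obtain ⟨s, hs⟩ := FiniteField.isSquare_of_char_two
              (by haveI := CharTwo.of_one_ne_zero_of_two_eq_zero (R := F) one_ne_zero h2; exact ringChar.eq F 2) c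
            have e : r (c • k) = s • r k := hsq (by rw [← hr, smul_mul_smul_comm, ← hr, hs])
            simp only [RingHom.id_apply, smul_eq_mul]
            rw [e, show act (s • r k) v = s • act (r k) v by simp [act, Matrix.smul_mulVec], hQ.smul, hs]
            ring }
      obtain ⟨c, hc⟩ := hTsurj f
      refine ⟨c, fun a => ?_⟩
      rw [← hT, hc]
      show Q _ = Q (act (r (a * a)) v)
      rw [hsq (hr (a * a)).symm]
  obtain ⟨α, hα⟩ := hquad u
  obtain ⟨β, hβ⟩ := hquad w
  obtain ⟨γ, hγ⟩ : ∃ γ : L, ∀ k : L, QuadraticMap.polar Q (act k u) w = ψ (γ * k) := by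
    let g : L →ₗ[F] F :=
      { toFun := fun k => QuadraticMap.polar Q (act k u) w
        map_add' := fun a b => by rw [act_add, hQ.polar_bilinear.add_left]
        map_smul' := fun c k => by
          simp only [act, Subalgebra.coe_smul, Matrix.smul_mulVec, hQ.polar_bilinear.smul_left, RingHom.id_apply,
            smul_eq_mul] }
    obtain ⟨c, hc⟩ := hTsurj g
    exact ⟨c, fun k => (LinearMap.congr_fun hc k).symm.trans (hT c k)⟩
  let q : L → L → L := fun a b => α * (a * a) + γ * (a * b) + β * (b * b)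
  let B : L → L → L → L → L := fun a b a' b' =>
    α * (a * a' + a * a') + γ * (a * b' + b * a') + β * (b * b' + b * b')
  have hQX : ∀ a b, Q (X a b) = ψ (q a b) := by
    intro a b
    show Q (act a u + act b w) = _
    rw [qf_add hQ, hα, hβ, hpol, hγ, mul_comm b a]
    simp only [q, map_add]
    ring
  have hpolX : ∀ a b a' b', QuadraticMap.polar Q (X a b) (X a' b') = ψ (B a b a' b') := by
    intro a b a' b'
    rw [QuadraticMap.polar, hXadd, hQX, hQX, hQX, ← map_sub, ← map_sub]
    congr 1
    simp only [q, B]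
    ring
  have hscale : ∀ c : L, (∀ k : L, ψ (k * k * c) = 0) → c = 0 := by
    intro c hc
    apply hTinj
    rw [map_zero]
    refine LinearMap.ext fun x => ?_
    rw [hT, LinearMap.zero_apply]
    rcases card_parity (F := F) with hq | h2
    · have h1 : ψ (c * x) + ψ (c * x) = 0 := by
        rw [← map_add, show c * x + c * x = (x + 1) * (x + 1) * c - x * x * c - 1 * 1 * c by ring, map_sub,
          map_sub, hc, hc, hc, sub_zero, sub_zero]
      rw [← two_mul] at h1
      exact (mul_eq_zero.1 h1).resolve_left (two_ne_zero_of_card_odd hq)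
    · haveI : CharP L 2 := CharTwo.of_one_ne_zero_of_two_eq_zero one_ne_zero (Subtype.ext (by
        show (2 : Matrix (Fin n) (Fin n) F) = 0
        rw [← map_ofNat (algebraMap F _) 2, h2, map_zero]))
      obtain ⟨r, rfl⟩ := FiniteField.isSquare_of_char_two (ringChar.eq L 2) x
      rw [mul_comm]
      exact hc r
  by_cases hiso : ∃ a b, ¬ (a = 0 ∧ b = 0) ∧ q a b = 0
  · -- a singular line over the field would be invariant
    exfalso
    obtain ⟨a, b, hab, hq0⟩ := hiso
    set v := X a b
    have hv0 : v ≠ 0 := fun h => hab (hXi (h.trans (by simp [X, act])))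
    let U : Submodule F (Fin n → F) := LinearMap.range
      ({ toFun := fun k => act k v
         map_add' := fun a b => act_add a b v
         map_smul' := fun c k => by simp [act, Matrix.smul_mulVec] } : L →ₗ[F] (Fin n → F))
    have hUd : Module.finrank F U = 5 := by
      rw [LinearMap.finrank_range_of_inj, hL5]
      rw [injective_iff_map_eq_zero]
      exact fun k hk => (act_inj k v hk).resolve_right hv0
    have hUs : IsTotallySingularQuad Q U := by
      rintro _ ⟨k, rfl⟩
      show Q (act k (X a b)) = 0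
      rw [hXact, hQX, show q (k * a) (k * b) = k * k * q a b by simp only [q]; ring, hq0, mul_zero, map_zero]
    have hinv : ∀ h ∈ H, (h : Matrix (Fin n) (Fin n) F) *ᵥ v ∈ U := by
      intro h hh
      by_contra hnot
      have hf : ⇑(qf hQ) = Q := H98.coe_qOfFun hQ
      have hgo := hH hh
      rw [H5.omegaGL_eq_map (qf hQ) hf] at hgo
      obtain ⟨x, hx, hxg⟩ := hgo
      have hV' : Module.finrank F (Fin n → F) = 2 * 5 := by simp [hn]
      have hev := H5.even_codim_of_mem_commutator (qf_nondeg hQ) hV' (U := U) ⟨hUd, hUs⟩ hx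
      have hbot : U ⊓ H5.imageSub x U = ⊥ := by
        rw [eq_bot_iff]
        rintro y ⟨⟨l, hl⟩, z, hz, hzy⟩
        obtain ⟨k, rfl⟩ := hz
        rw [Submodule.mem_bot]
        by_contra hy0
        apply hnot
        have hxz : (h : Matrix (Fin n) (Fin n) F) *ᵥ act k v = y := by
          rw [← hzy, ← hxg]
          exact H5.toGLHom_mulVec (qf hQ) hf x _
        let k' : L := ⟨_, hLn h hh k k.2⟩
        have e : act k' ((h : Matrix (Fin n) (Fin n) F) *ᵥ v) = act l v := by
          rw [show act l v = y from hl, ← hxz]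
          show ((h : Matrix (Fin n) (Fin n) F) * (k : Matrix (Fin n) (Fin n) F) *
            ((h⁻¹ : GL (Fin n) F) : Matrix (Fin n) (Fin n) F)) *ᵥ _ = _
          simp only [act, Matrix.mulVec_mulVec, mul_assoc, ← Units.val_mul, inv_mul_cancel, Units.val_one,
            mul_one]
        have hk0 : k' ≠ 0 := fun h0 => hy0 (by rw [← hl]; show act l v = 0; rw [← e, h0]; simp [act])
        refine ⟨k'⁻¹ * l, ?_⟩
        show act (k'⁻¹ * l) v = _
        rw [act_mul, ← e, ← act_mul, inv_mul_cancel₀ hk0]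
        simp [act]
      rw [hbot, finrank_bot] at hev
      exact absurd hev (by decide)
    have hUi : IsInv (matrixSet H) U := by
      rintro _ ⟨h, hh, rfl⟩ _ ⟨k, rfl⟩
      obtain ⟨l, hl⟩ := hinv h hh
      refine ⟨(⟨_, hLn h hh k k.2⟩ : L) * l, ?_⟩
      show act ((⟨_, hLn h hh k k.2⟩ : L) * l) v = (h : Matrix (Fin n) (Fin n) F) *ᵥ act k v
      rw [act_mul, show act l v = (h : Matrix (Fin n) (Fin n) F) *ᵥ v from hl]
      show ((h : Matrix (Fin n) (Fin n) F) * (k : Matrix (Fin n) (Fin n) F) *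
        ((h⁻¹ : GL (Fin n) F) : Matrix (Fin n) (Fin n) F)) *ᵥ _ = _
      simp only [act, Matrix.mulVec_mulVec, mul_assoc, ← Units.val_mul, inv_mul_cancel, Units.val_one, mul_one]
    rcases actsIrreducibly_iff.1 hirr U hUi with h | h
    · rw [h, finrank_bot] at hUd; omega
    · rw [h, finrank_top, Module.finrank_fintype_fun_eq_card, Fintype.card_fin] at hUd; omega
  push Not at hiso
  have hα0 : α ≠ 0 := fun h0 => by
    have := hiso 1 0 (fun h => absurd h one_ne_zero)
    simp [q, h0] at this
  obtain ⟨s₀, hγ0⟩ : ∃ s, γ = α * s := ⟨γ / α, by field_simp⟩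
  obtain ⟨p₀, hβ0⟩ : ∃ p, β = α * p := ⟨β / α, by field_simp⟩
  let Jl : (L × L) →ₗ[F] (L × L) :=
    { toFun := fun p => (-(p₀ * p.2), p.1 + s₀ * p.2)
      map_add' := fun p p' => Prod.ext (by simp [mul_add, add_comm]) (by simp [mul_add]; abel)
      map_smul' := fun c p => Prod.ext (by simp) (by simp) }
  let Jm : Matrix (Fin n) (Fin n) F :=
    LinearMap.toMatrix' (Xe.toLinearMap ∘ₗ Jl ∘ₗ Xe.symm.toLinearMap)
  have hJ : ∀ a b, Jm *ᵥ X a b = X (-(p₀ * b)) (a + s₀ * b) := by
    intro a b
    rw [← Matrix.toLin'_apply, Matrix.toLin'_toMatrix', ← hXe a b]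
    simp only [LinearMap.comp_apply, LinearEquiv.coe_coe, Xe.symm_apply_apply]
    rfl
  let Zl : (L × L) →ₗ[F] Matrix (Fin n) (Fin n) F :=
    { toFun := fun p => (p.1 : Matrix (Fin n) (Fin n) F) + (p.2 : Matrix (Fin n) (Fin n) F) * Jm
      map_add' := fun p p' => by simp [add_mul]; abel
      map_smul' := fun c p => by simp }
  have hZ : ∀ m o a b, Zl (m, o) *ᵥ X a b = X (m * a - o * (p₀ * b)) (m * b + o * (a + s₀ * b)) := by
    intro m o a b
    show ((m : Matrix (Fin n) (Fin n) F) + (o : Matrix (Fin n) (Fin n) F) * Jm) *ᵥ X a b = _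
    rw [Matrix.add_mulVec, ← Matrix.mulVec_mulVec, hJ]
    show act m _ + act o _ = _
    rw [hXact, hXact, hXadd, mul_neg, ← sub_eq_add_neg]
  have hext : ∀ M N : Matrix (Fin n) (Fin n) F, (∀ a b, M *ᵥ X a b = N *ᵥ X a b) → M = N := fun M N h =>
    Matrix.toLin'.injective (LinearMap.ext fun v => by
      obtain ⟨a, b, rfl⟩ := hX v
      simpa using h a b)
  have hmul : ∀ m o m' o', Zl (m, o) * Zl (m', o') =
      Zl (m * m' - p₀ * (o * o'), m * o' + o * m' + s₀ * (o * o')) := fun m o m' o' => hext _ _ fun a b => by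
    rw [← Matrix.mulVec_mulVec, hZ, hZ, hZ]
    congr 1 <;> ring
  have hone : Zl (1, 0) = 1 := by
    show ((1 : L) : Matrix (Fin n) (Fin n) F) + ((0 : L) : Matrix (Fin n) (Fin n) F) * Jm = 1
    simp
  let Z : Subalgebra F (Matrix (Fin n) (Fin n) F) :=
    (LinearMap.range Zl).toSubalgebra ⟨(1, 0), hone⟩ (by
      rintro _ _ ⟨⟨m, o⟩, rfl⟩ ⟨⟨m', o'⟩, rfl⟩
      exact ⟨_, (hmul m o m' o').symm⟩)
  have hmemZ : ∀ M, M ∈ Z ↔ ∃ m o, Zl (m, o) = M := fun M =>
    ⟨fun ⟨p, hp⟩ => ⟨p.1, p.2, hp⟩, fun ⟨m, o, hp⟩ => ⟨(m, o), hp⟩⟩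
  -- the intrinsic description
  let Good : Matrix (Fin n) (Fin n) F → Prop := fun M =>
    (∀ k ∈ L, M * k = k * M) ∧ ∃ s₁ ∈ L, ∃ s₂ ∈ L, ∀ x, QuadraticMap.polar Q (M *ᵥ x) x =
      Q (s₁ *ᵥ x) + Q (s₂ *ᵥ x)
  have hgood : ∀ M, M ∈ Z ↔ Good M := by
    intro M
    rw [hmemZ]
    constructor
    · rintro ⟨m, o, rfl⟩
      refine ⟨fun k hk => hext _ _ fun a b => ?_, ?_⟩
      · rw [← Matrix.mulVec_mulVec, ← Matrix.mulVec_mulVec, hZ]
        show Zl (m, o) *ᵥ act ⟨k, hk⟩ (X a b) = act ⟨k, hk⟩ _
        rw [hXact, hZ, hXact]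
        congr 1 <;> ring
      obtain ⟨s₁, s₂, hs⟩ := exists_two_squares (m + m + o * s₀)
      refine ⟨s₁, s₁.2, s₂, s₂.2, fun x => ?_⟩
      obtain ⟨a, b, rfl⟩ := hX x
      show _ = Q (act s₁ _) + Q (act s₂ _)
      rw [hZ, hpolX, hXact, hXact, hQX, hQX, ← map_add]
      congr 1
      simp only [B, q]
      linear_combination (α * (a * a) + γ * (a * b) + β * (b * b)) * hs +
        (o * a * a - o * p₀ * (b * b)) * hγ0 + (o * a * b + o * a * b + o * s₀ * (b * b)) * hβ0
    · rintro ⟨hMc, s₁, hs₁, s₂, hs₂, hM⟩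
      obtain ⟨m, o, hMu⟩ := hX (M *ᵥ u)
      obtain ⟨n', p, hMw⟩ := hX (M *ᵥ w)
      have hcomm : ∀ (k : L) x, M *ᵥ act k x = act k (M *ᵥ x) := fun k x => by
        simp only [act, Matrix.mulVec_mulVec, hMc k k.2]
      have hMX : ∀ a b, M *ᵥ X a b = X (a * m + b * n') (a * o + b * p) := by
        intro a b
        show M *ᵥ (act a u + act b w) = _
        rw [Matrix.mulVec_add, hcomm, hcomm, ← hMu, ← hMw, hXact, hXact, hXadd]
      set t : L := ⟨s₁, hs₁⟩ * ⟨s₁, hs₁⟩ + ⟨s₂, hs₂⟩ * ⟨s₂, hs₂⟩ with ht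
      have key : ∀ a b, B (a * m + b * n') (a * o + b * p) a b = t * q a b := by
        intro a b
        refine sub_eq_zero.1 (hscale _ fun k => ?_)
        have h1 : QuadraticMap.polar Q (M *ᵥ X (k * a) (k * b)) (X (k * a) (k * b)) =
            Q (act ⟨s₁, hs₁⟩ (X (k * a) (k * b))) + Q (act ⟨s₂, hs₂⟩ (X (k * a) (k * b))) := hM _
        rw [hMX, hpolX, hXact, hXact, hQX, hQX, ← map_add, ← sub_eq_zero, ← map_sub] at h1
        rw [← h1]
        congr 1
        simp only [B, q, ht]
        ring
      have k1 := key 1 0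
      have k2 := key 0 1
      have k3 := key 1 1
      simp only [B, q, mul_one, one_mul, mul_zero, zero_mul, add_zero, zero_add] at k1 k2 k3
      have ht' : t = m + m + o * s₀ := by
        apply mul_left_cancel₀ hα0
        linear_combination -k1 + o * hγ0
      set dn := n' + p₀ * o
      set dp := p - m - s₀ * o
      have e1 : (α + α) * dn + γ * dp = 0 := by
        simp only [dn, dp]
        linear_combination k3 - k1 - k2 + γ * ht' - 2 * o * hβ0
      have e2 : γ * dn + (β + β) * dp = 0 := by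
        simp only [dn, dp]
        linear_combination k2 + β * ht' + o * p₀ * hγ0 - o * s₀ * hβ0
      have hnd : (α + α) * (β + β) - γ * γ ≠ 0 := by
        intro hd
        have hrad : ∀ a b, (∀ a' b', B a b a' b' = 0) → a = 0 ∧ b = 0 := by
          intro a b h
          by_contra hne
          obtain ⟨-, y, hy⟩ := hQ.nondegenerate (X a b) fun h0 => hne (hXi (h0.trans (by simp [X, act])))
          obtain ⟨a', b', rfl⟩ := hX y
          exact hy (by rw [hpolX, h, map_zero])
        obtain ⟨h1, h2⟩ := hrad (-γ) (α + α) fun a' b' => by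
          simp only [B]
          linear_combination b' * hd
        obtain ⟨h3, -⟩ := hrad 1 0 fun a' b' => by
          simp only [B]
          linear_combination a' * h2 - b' * h1
        exact one_ne_zero h3
      have hdn : dn = 0 := (mul_eq_zero.1 (show ((α + α) * (β + β) - γ * γ) * dn = 0 by
        linear_combination (β + β) * e1 - γ * e2)).resolve_left hnd
      have hdp : dp = 0 := (mul_eq_zero.1 (show ((α + α) * (β + β) - γ * γ) * dp = 0 by
        linear_combination (α + α) * e2 - γ * e1)).resolve_left hnd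
      refine ⟨m, o, hext _ _ fun a b => ?_⟩
      rw [hZ, hMX]
      congr 1
      · linear_combination -b * hdn
      · linear_combination -b * hdp
  have hZfield : IsFieldSubalgebra 10 Z := by
    refine ⟨fun x hx y hy => ?_, fun x hx hx0 => ?_, ?_⟩
    · obtain ⟨m, o, rfl⟩ := (hmemZ x).1 hx
      obtain ⟨m', o', rfl⟩ := (hmemZ y).1 hy
      rw [hmul, hmul]
      congr 1
      exact Prod.ext (by ring) (by ring)
    · obtain ⟨m, o, rfl⟩ := (hmemZ x).1 hx
      have hne : ¬ (m = 0 ∧ o = 0) := fun h => hx0 (by rw [h.1, h.2, ← Prod.zero_eq_mk, map_zero])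
      have hN : m * m + s₀ * (m * o) + p₀ * (o * o) ≠ 0 := fun h0 =>
        hiso m o (fun h1 h2 => hne ⟨h1, h2⟩) (by simp only [q]; linear_combination α * h0 + m * o * hγ0 + o * o * hβ0)
      set N := m * m + s₀ * (m * o) + p₀ * (o * o)
      refine ⟨Zl ((m + s₀ * o) / N, -o / N), (hmemZ _).2 ⟨_, _, rfl⟩, ?_⟩
      rw [hmul, ← hone]
      congr 1
      refine Prod.ext ?_ ?_
      · field_simp
        simp only [N]
        ring
      · field_simp
        ring
    · have hinj : Function.Injective Zl := by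
        rw [injective_iff_map_eq_zero]
        rintro ⟨m, o⟩ h
        have h1 : Zl (m, o) *ᵥ X 1 0 = 0 := by rw [h, Matrix.zero_mulVec]
        rw [hZ] at h1
        have h2 := hXi (h1.trans (show (0 : Fin n → F) = X 0 0 by simp [X, act]))
        simp only [mul_zero, sub_zero, mul_one, zero_add, add_zero] at h2
        exact Prod.ext h2.1 h2.2
      show Module.finrank F (LinearMap.range Zl) = 10
      rw [LinearMap.finrank_range_of_inj hinj, Module.finrank_prod, hL5]
  refine exists_quad_subfield (by omega) D hZfield (by norm_num) (fun M hM => ?_) fun h hh M hM => ?_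
  · obtain ⟨hc, s₁, hs₁, s₂, hs₂, hM'⟩ := (hgood M).1 hM
    refine (hgood _).2 ⟨fun k hk => ?_, s₁, hs₁, s₂, hs₂, fun x => ?_⟩
    · have h1 : D.adj M * D.adj k = D.adj (k * M) := (D.adj_mul k M).symm
      have h2 : D.adj k * D.adj M = D.adj (M * k) := (D.adj_mul M k).symm
      rw [show D.adj k = k from hself k hk, ← hc k hk] at h1
      rw [show D.adj k = k from hself k hk] at h2
      exact h1.trans h2.symm
    · rw [← hM', ← polarData_form hQ, (polarData hQ).form_adj, polarData_form, QuadraticMap.polar_comm, (polarData hQ).adj_adj]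
  · obtain ⟨hc, s₁, hs₁, s₂, hs₂, hM'⟩ := (hgood M).1 hM
    have hi : ((h⁻¹ : GL (Fin n) F) : Matrix (Fin n) (Fin n) F) * (h : Matrix (Fin n) (Fin n) F) = 1 := h.inv_mul
    have hi' : (h : Matrix (Fin n) (Fin n) F) * ((h⁻¹ : GL (Fin n) F) : Matrix (Fin n) (Fin n) F) = 1 := h.mul_inv
    have hQs : ∀ (s : Matrix (Fin n) (Fin n) F) x, Q (conjHom h s *ᵥ x) =
        Q (s *ᵥ (((h⁻¹ : GL (Fin n) F) : Matrix (Fin n) (Fin n) F) *ᵥ x)) := fun s x => by
      rw [conjHom_apply, ← Matrix.mulVec_mulVec, ← Matrix.mulVec_mulVec, isometry_of_mem_omega (hH hh)]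
    refine (hgood _).2 ⟨fun k hk => ?_, conjHom h s₁, hLn h hh s₁ hs₁, conjHom h s₂, hLn h hh s₂ hs₂,
      fun x => ?_⟩
    · have hk' : conjHom h⁻¹ k ∈ L := hLn h⁻¹ (inv_mem hh) k hk
      have e : k = conjHom h (conjHom h⁻¹ k) := by
        rw [conjHom_apply, conjHom_apply, inv_inv]
        simp only [← mul_assoc, hi', one_mul]
        rw [mul_assoc, hi', mul_one]
      show conjHom h M * k = k * conjHom h M
      rw [e, ← map_mul, ← map_mul, hc _ hk']
    · show QuadraticMap.polar Q (conjHom h M *ᵥ x) x = _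
      rw [hQs, hQs, ← hM']
      have hx : x = (h : Matrix (Fin n) (Fin n) F) *ᵥ (((h⁻¹ : GL (Fin n) F) : Matrix (Fin n) (Fin n) F) *ᵥ x) := by
        rw [Matrix.mulVec_mulVec, hi', Matrix.one_mulVec]
      conv_lhs => arg 3; rw [hx]
      rw [conjHom_apply, ← Matrix.mulVec_mulVec, ← Matrix.mulVec_mulVec, polar_of_mem_omega (hH hh)]

end Cfsg.Agent.H6.OEven
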