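import Cfsg.Agent.H6.OEven.Subfield

/-!
Groups of symplectic type, tensor powers and the residual class in dimensions 8, 10 and 12.
-/

set_option autoImplicit false
set_option linter.unusedSectionVars false

open scoped MatrixGroups Matrix commutatorElement

namespace Cfsg.Agent.H6.OEven

open Cfsg.Geo Cfsg.Agent.H99.Asch

variable {n : ℕ} {F : Type*} [Field F] [Fintype F] {Q : (Fin n → F) → F}
  {H : Subgroup (GL (Fin n) F)}

/-- An element of a non-abelian two-group of isometries inverted up to sign. -/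
theorem plus_of_signed (hQ : IsNondegenerateQuadraticForm Q) (h2 : (2 : F) ≠ 0) (hn : n = 8)
    (a x : GL (Fin n) F) (ha : ∀ v, Q ((a : Matrix (Fin n) (Fin n) F) *ᵥ v) = Q v)
    (hx : ∀ v, Q ((x : Matrix (Fin n) (Fin n) F) *ᵥ v) = Q v) (hxa : x * a = scl (-1 : Fˣ) * (a * x))
    (hsq : a * a = 1 ∨ a * a = scl (-1 : Fˣ)) : IsPlusTypeOn Q ⊤ := by
  classical
  set A := (a : Matrix (Fin n) (Fin n) F)
  set X := (x : Matrix (Fin n) (Fin n) F)
  have hpa : ∀ u v, QuadraticMap.polar Q (A *ᵥ u) (A *ᵥ v) = QuadraticMap.polar Q u v := fun u v => by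
    simp only [QuadraticMap.polar, ← Matrix.mulVec_add, ha]
  have hanti : ∀ v, X *ᵥ (A *ᵥ v) = -(A *ᵥ (X *ᵥ v)) := fun v => by
    have h1 := congrArg (fun g : GL (Fin n) F => (g : Matrix (Fin n) (Fin n) F) *ᵥ v) hxa
    simp only [Units.val_mul, ← Matrix.mulVec_mulVec] at h1
    rw [show X *ᵥ (A *ᵥ v) = _ from h1]
    rw [coe_scl, Units.val_neg, Units.val_one, Matrix.smul_mulVec, Matrix.one_mulVec, neg_one_smul]
  rcases hsq with h1 | h1
  · have hA2 : ∀ v, A *ᵥ (A *ᵥ v) = v := fun v => by
      rw [Matrix.mulVec_mulVec, ← Units.val_mul, h1, Units.val_one, Matrix.one_mulVec]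
    let Wp : Submodule F (Fin n → F) := LinearMap.ker (Matrix.toLin' A - LinearMap.id)
    let Wm : Submodule F (Fin n → F) := LinearMap.ker (Matrix.toLin' A + LinearMap.id)
    have hmp : ∀ v, v ∈ Wp ↔ A *ᵥ v = v := fun v => by simp [Wp, sub_eq_zero]
    have hmm : ∀ v, v ∈ Wm ↔ A *ᵥ v = -v := fun v => by simp [Wm, add_eq_zero_iff_eq_neg]
    have horth : ∀ u ∈ Wp, ∀ v ∈ Wm, QuadraticMap.polar Q u v = 0 := by
      intro u hu v hv
      have h3 := hpa u v
      rw [(hmp u).1 hu, (hmm v).1 hv, ← neg_one_smul F v, hQ.polar_bilinear.smul_right] at h3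
      exact (mul_eq_zero.1 (show (2 : F) * QuadraticMap.polar Q u v = 0 by linear_combination -h3)).resolve_left h2
    have hdec : ∀ v, (2 : F)⁻¹ • (v + A *ᵥ v) ∈ Wp ∧ (2 : F)⁻¹ • (v - A *ᵥ v) ∈ Wm ∧
        v = (2 : F)⁻¹ • (v + A *ᵥ v) + (2 : F)⁻¹ • (v - A *ᵥ v) := by
      intro v
      refine ⟨(hmp _).2 ?_, (hmm _).2 ?_, ?_⟩
      · rw [Matrix.mulVec_smul, Matrix.mulVec_add, hA2, add_comm]
      · rw [Matrix.mulVec_smul, Matrix.mulVec_sub, hA2, ← smul_neg, neg_sub]
      · rw [← smul_add, show v + A *ᵥ v + (v - A *ᵥ v) = (2 : F) • v by rw [two_smul]; abel, smul_smul,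
          inv_mul_cancel₀ h2, one_smul]
    have hnd : ∀ W W' : Submodule F (Fin n → F), (∀ v, ∃ u ∈ W, ∃ w ∈ W', v = u + w) →
        (∀ u ∈ W, ∀ w ∈ W', QuadraticMap.polar Q u w = 0) → IsNondegenerateOn (QuadraticMap.polar Q) W := by
      intro W W' hd ho u hu hu0
      obtain ⟨-, z, hz⟩ := hQ.nondegenerate u hu0
      obtain ⟨w, hw, w', hw', rfl⟩ := hd z
      rw [hQ.polar_bilinear.add_right, ho u hu w' hw', add_zero] at hz
      refine ⟨⟨w, hw, ?_⟩, w, hw, hz⟩
      rwa [QuadraticMap.polar_comm]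
    let D : Fin 2 → Submodule F (Fin n → F) := ![Wp, Wm]
    have hXp : ∀ v ∈ Wp, X *ᵥ v ∈ Wm := fun v hv => (hmm _).2 (by
      have h3 := hanti v
      rw [(hmp v).1 hv] at h3
      exact neg_eq_iff_eq_neg.1 h3.symm)
    have hXm : ∀ v ∈ Wm, X *ᵥ v ∈ Wp := fun v hv => (hmp _).2 (by
      have h3 := hanti v
      rw [(hmm v).1 hv, Matrix.mulVec_neg, neg_inj] at h3
      exact h3.symm)
    let L : Wp →ₗ[F] Wm := (Matrix.toLin' X).restrict fun v hv => by rw [Matrix.toLin'_apply]; exact hXp v hv
    have hLb : Function.Bijective L := by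
      refine ⟨fun u v h => Subtype.ext (Matrix.mulVec_injective_of_isUnit (Units.isUnit x) ?_), fun w => ?_⟩
      · simpa [L] using congrArg Subtype.val h
      · obtain ⟨u, hu⟩ : ∃ u, X *ᵥ u = (w : Fin n → F) := ⟨((x⁻¹ : GL (Fin n) F) : Matrix (Fin n) (Fin n) F) *ᵥ (w : Fin n → F), by
          rw [Matrix.mulVec_mulVec, ← Units.val_mul, mul_inv_cancel, Units.val_one, Matrix.one_mulVec]⟩
        have hum : u ∈ Wp := by
          rw [hmp]
          apply Matrix.mulVec_injective_of_isUnit (Units.isUnit x)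
          show X *ᵥ (A *ᵥ u) = X *ᵥ u
          rw [hanti, hu, (hmm _).1 w.2, neg_neg]
        exact ⟨⟨u, hum⟩, Subtype.ext (by simpa [L] using hu)⟩
    let E := LinearEquiv.ofBijective L hLb
    have hiso : AreIsometricFor Q Wp Wm := ⟨E, fun w => by
      show Q ((L w : Wm) : Fin n → F) = _
      simp [L, hx, X]⟩
    have hdisj : Disjoint Wp Wm := Submodule.disjoint_def.2 fun v hv hv' => by
      have h3 : (2 : F) • v = 0 := by
        rw [two_smul]
        exact eq_neg_iff_add_eq_zero.1 (((hmp v).1 hv).symm.trans ((hmm v).1 hv'))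
      exact (smul_eq_zero.1 h3).resolve_left h2
    have htop : Wp ⊔ Wm = ⊤ := eq_top_iff.2 fun v _ => by
      rw [(hdec v).2.2]
      exact Submodule.add_mem_sup (hdec v).1 (hdec v).2.1
    have hfin : Module.finrank F Wp = 4 ∧ Module.finrank F Wm = 4 := by
      have h3 := E.finrank_eq
      have h4 := Submodule.finrank_sup_add_finrank_inf_eq Wp Wm
      rw [htop, disjoint_iff.1 hdisj, finrank_top, finrank_bot, Module.finrank_fintype_fun_eq_card,
        Fintype.card_fin] at h4
      omega
    have hD : IsOrthogonalMDecomposition Q 4 D := by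
      refine ⟨⟨⟨le_rfl, by norm_num, fun i => ?_, ?_, ?_⟩, fun i => ?_, fun i j hij => ?_⟩, fun i j => ?_⟩
      · fin_cases i
        exacts [hfin.1, hfin.2]
      · rw [iSupIndep_def]
        intro i
        fin_cases i
        · exact hdisj.mono_right (iSup₂_le fun j hj => by fin_cases j <;> first | exact absurd rfl hj | exact le_rfl)
        · exact hdisj.symm.mono_right (iSup₂_le fun j hj => by fin_cases j <;> first | exact absurd rfl hj | exact le_rfl)
      · rw [← htop]
        refine le_antisymm (iSup_le fun i => by fin_cases i <;> simp [D]) (sup_le (le_iSup D 0) (le_iSup D 1))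
      · fin_cases i
        · exact hnd Wp Wm (fun v => ⟨_, (hdec v).1, _, (hdec v).2.1, (hdec v).2.2⟩) horth
        · exact hnd Wm Wp (fun v => ⟨_, (hdec v).2.1, _, (hdec v).1, (hdec v).2.2.trans (add_comm _ _)⟩)
            fun u hu w hw => by rw [QuadraticMap.polar_comm]; exact horth w hw u hu
      · fin_cases i <;> fin_cases j
        · exact absurd rfl hij
        · exact horth
        · exact fun u hu w hw => by rw [QuadraticMap.polar_comm]; exact horth w hw u hu
        · exact absurd rfl hij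
      · fin_cases i <;> fin_cases j
        · exact ⟨LinearEquiv.refl F _, fun w => rfl⟩
        · exact hiso
        · exact isometric_symm hiso
        · exact ⟨LinearEquiv.refl F _, fun w => rfl⟩
    exact plus_of_even_blocks hQ hD ⟨2, rfl⟩ ⟨1, rfl⟩
  · have hA2 : ∀ v, A *ᵥ (A *ᵥ v) = -v := fun v => by
      rw [Matrix.mulVec_mulVec, ← Units.val_mul, h1]
      rw [coe_scl, Units.val_neg, Units.val_one, Matrix.smul_mulVec, Matrix.one_mulVec, neg_one_smul]
    have hskew : ∀ u, QuadraticMap.polar Q u (A *ᵥ u) = 0 := by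
      intro u
      have h3 := hpa u (A *ᵥ u)
      rw [hA2, ← neg_one_smul F u, hQ.polar_bilinear.smul_right, QuadraticMap.polar_comm Q (A *ᵥ u)] at h3
      exact (mul_eq_zero.1 (show (2 : F) * QuadraticMap.polar Q u (A *ᵥ u) = 0 by linear_combination -h3)).resolve_left h2
    by_cases hi : ∃ i : F, i * i = -1
    · obtain ⟨i, hi⟩ := hi
      have hi0 : i ≠ 0 := fun e => by rw [e, mul_zero] at hi; exact one_ne_zero (neg_eq_zero.1 hi.symm)
      let Wp : Submodule F (Fin n → F) := LinearMap.ker (Matrix.toLin' A - i • LinearMap.id)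
      let Wm : Submodule F (Fin n → F) := LinearMap.ker (Matrix.toLin' A + i • LinearMap.id)
      have hmp : ∀ v, v ∈ Wp ↔ A *ᵥ v = i • v := fun v => by simp [Wp, sub_eq_zero]
      have hmm : ∀ v, v ∈ Wm ↔ A *ᵥ v = (-i) • v := fun v => by simp [Wm, add_eq_zero_iff_eq_neg, neg_smul]
      have hts : ∀ (j : F), j * j = -1 → ∀ v, A *ᵥ v = j • v → Q v = 0 := by
        intro j hj v hv
        have h3 := ha v
        rw [hv, hQ.smul, sq, hj] at h3
        exact (mul_eq_zero.1 (show (2 : F) * Q v = 0 by linear_combination -h3)).resolve_left h2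
      have hX : Submodule.map (Matrix.toLin' X) Wp ≤ Wm ∧ Submodule.map (Matrix.toLin' X) Wm ≤ Wp := by
        constructor <;> rintro _ ⟨v, hv, rfl⟩ <;> rw [Matrix.toLin'_apply]
        · rw [SetLike.mem_coe, hmp] at hv
          rw [hmm]
          have h3 := hanti v
          rw [hv, Matrix.mulVec_smul] at h3
          rw [neg_smul, h3, neg_neg]
        · rw [SetLike.mem_coe, hmm] at hv
          rw [hmp]
          have h3 := hanti v
          rw [hv, Matrix.mulVec_smul, neg_smul, neg_inj] at h3
          exact h3.symm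
      have hinjX : Function.Injective (Matrix.toLin' X) := Matrix.mulVec_injective_of_isUnit (Units.isUnit x)
      have h4 : Module.finrank F Wp = Module.finrank F Wm :=
        le_antisymm ((Submodule.equivMapOfInjective _ hinjX Wp).finrank_eq ▸ Submodule.finrank_mono hX.1)
          ((Submodule.equivMapOfInjective _ hinjX Wm).finrank_eq ▸ Submodule.finrank_mono hX.2)
      have htop : Wp ⊔ Wm = ⊤ := eq_top_iff.2 fun v _ => by
        have e : v = (2 * i)⁻¹ • (i • v + A *ᵥ v) + (2 * i)⁻¹ • (i • v - A *ᵥ v) := by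
          rw [← smul_add, show i • v + A *ᵥ v + (i • v - A *ᵥ v) = (2 * i) • v by rw [mul_smul, two_smul]; abel,
            smul_smul, inv_mul_cancel₀ (mul_ne_zero h2 hi0), one_smul]
        rw [e]
        refine Submodule.add_mem_sup (Submodule.smul_mem _ _ ((hmp _).2 ?_))
          (Submodule.smul_mem _ _ ((hmm _).2 ?_))
        · rw [Matrix.mulVec_add, Matrix.mulVec_smul, hA2, smul_add, smul_smul, hi, neg_one_smul]; abel
        · rw [Matrix.mulVec_sub, Matrix.mulVec_smul, hA2, smul_sub, smul_smul, neg_mul, hi, neg_neg, one_smul,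
            neg_smul]
          abel
      have h5 := Submodule.finrank_add_le_finrank_add_finrank Wp Wm
      rw [htop, finrank_top, Module.finrank_fintype_fun_eq_card, Fintype.card_fin] at h5
      have h6 := H4.two_mul_finrank_le (qf_nondeg hQ) (W := Wp)
        (fun v hv => hts i hi v ((hmp v).1 hv))
      rw [Module.finrank_fintype_fun_eq_card, Fintype.card_fin] at h6
      refine plus_of_singular_half (U := Wp) (fun v hv => hts i hi v ((hmp v).1 hv)) ?_
      omega
    · push Not at hi
      have step : ∀ W : Submodule F (Fin n → F), IsTotallySingularQuad Q W → (∀ v ∈ W, A *ᵥ v ∈ W) →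
          Module.finrank F W ≤ 2 → ∃ W' : Submodule F (Fin n → F), IsTotallySingularQuad Q W' ∧
            (∀ v ∈ W', A *ᵥ v ∈ W') ∧ Module.finrank F W' = Module.finrank F W + 2 := by
        intro W hW hinv hd
        obtain ⟨C, hC⟩ := Submodule.exists_isCompl W
        have hperp := H5.finrank_perp_add (qf_nondeg hQ) W
        have hC' := Submodule.finrank_add_eq_of_isCompl hC
        have hCd := Submodule.finrank_sup_add_finrank_inf_eq C (H5.perp (qf hQ) W)
        have hle := Submodule.finrank_le (C ⊔ H5.perp (qf hQ) W)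
        rw [Module.finrank_fintype_fun_eq_card, Fintype.card_fin] at hperp hC' hle
        obtain ⟨⟨u, huC, huW⟩, hu0, huQ⟩ := H4.exists_singular_of_three_le
          ((qf hQ).comp (C ⊓ H5.perp (qf hQ) W).subtype) (by omega)
        have huQ : Q u = 0 := huQ
        have hu0' : u ≠ 0 := fun e => hu0 (Subtype.ext e)
        have hpW : ∀ w ∈ W, QuadraticMap.polar Q w u = 0 := by
          intro w hw
          have h3 := (H5.mem_perp.1 huW) w hw
          rwa [H98.coe_qOfFun hQ] at h3
        have hnot : u ∉ W := fun hw => hu0' (Submodule.disjoint_def.1 hC.disjoint u hw huC)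
        have hnot2 : A *ᵥ u ∉ W ⊔ Submodule.span F {u} := by
          intro hm
          obtain ⟨w, hw, y, hy, hsum⟩ := Submodule.mem_sup.1 hm
          obtain ⟨c, rfl⟩ := Submodule.mem_span_singleton.1 hy
          have h3 := congrArg (fun v => A *ᵥ v) hsum
          rw [hA2, Matrix.mulVec_add, Matrix.mulVec_smul, ← hsum, smul_add, smul_smul] at h3
          have h4 : (c * c + 1) • u ∈ W := by
            have e : (c * c + 1) • u = -(A *ᵥ w + c • w) := by
              rw [add_smul, one_smul]
              linear_combination (norm := module) h3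
            rw [e]
            exact W.neg_mem (W.add_mem (hinv w hw) (W.smul_mem c hw))
          exact hnot ((W.smul_mem_iff (fun e => hi c (eq_neg_of_add_eq_zero_left e))).1 h4)
        have hpA : ∀ w ∈ W, QuadraticMap.polar Q w (A *ᵥ u) = 0 := by
          intro w hw
          have h3 := hpa w (A *ᵥ u)
          rw [hA2, ← neg_one_smul F u, hQ.polar_bilinear.smul_right, hpW _ (hinv w hw), mul_zero] at h3
          exact h3.symm
        refine ⟨W ⊔ Submodule.span F {u} ⊔ Submodule.span F {A *ᵥ u}, ?_, ?_, ?_⟩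
        · intro v hv
          obtain ⟨y, hy, z, hz, rfl⟩ := Submodule.mem_sup.1 hv
          obtain ⟨w, hw, z', hz', rfl⟩ := Submodule.mem_sup.1 hy
          obtain ⟨c, rfl⟩ := Submodule.mem_span_singleton.1 hz'
          obtain ⟨d, rfl⟩ := Submodule.mem_span_singleton.1 hz
          rw [qf_add hQ, qf_add hQ, hQ.smul, hQ.smul, ha, huQ, hW w hw, hQ.polar_bilinear.smul_right, hpW w hw,
            hQ.polar_bilinear.smul_right, hQ.polar_bilinear.add_left, hQ.polar_bilinear.smul_left, hskew,
            hpA w hw]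
          ring
        · intro v hv
          obtain ⟨y, hy, z, hz, rfl⟩ := Submodule.mem_sup.1 hv
          obtain ⟨w, hw, z', hz', rfl⟩ := Submodule.mem_sup.1 hy
          obtain ⟨c, rfl⟩ := Submodule.mem_span_singleton.1 hz'
          obtain ⟨d, rfl⟩ := Submodule.mem_span_singleton.1 hz
          rw [Matrix.mulVec_add, Matrix.mulVec_add, Matrix.mulVec_smul, Matrix.mulVec_smul, hA2]
          refine add_mem (add_mem (Submodule.mem_sup_left (Submodule.mem_sup_left (hinv w hw))) ?_) ?_
          · exact Submodule.mem_sup_right (Submodule.smul_mem _ _ (Submodule.mem_span_singleton_self _))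
          · exact Submodule.mem_sup_left (Submodule.mem_sup_right
              (Submodule.smul_mem _ _ (neg_mem (Submodule.mem_span_singleton_self _))))
        · rw [H4.finrank_sup_span_singleton hnot2, H4.finrank_sup_span_singleton hnot]
      obtain ⟨W₁, hW₁, hi₁, hd₁⟩ := step ⊥ (fun v hv => by rw [(Submodule.mem_bot F).1 hv]; exact map_zero' hQ)
        (fun v hv => by rw [(Submodule.mem_bot F).1 hv, Matrix.mulVec_zero]; exact zero_mem _) (by simp)
      rw [finrank_bot] at hd₁
      obtain ⟨W₂, hW₂, -, hd₂⟩ := step W₁ hW₁ hi₁ (by omega)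
      exact plus_of_singular_half hW₂ (by omega)

/-- A group of symplectic type in dimension 8 forces plus type; there is none in dimensions 10 and 12. -/
theorem typeTwo_cases (hQ : IsNondegenerateQuadraticForm Q) (hn : n = 8 ∨ n = 10 ∨ n = 12)
    (h : InFormTypeTwo (polarData hQ) H) : n = 8 ∧ IsPlusTypeOn Q ⊤ := by
  classical
  obtain ⟨r, R, p, e, k, hR, habs, -, hrp, hmin, hcard, hk, hcardR, -, hcase⟩ := h
  rw [Fintype.card_fin] at hcard
  have hn8 : n = 8 := by
    have hrn : r ∣ n := hcard ▸ dvd_pow_self _ (by omega)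
    have hr := hR.prime
    rcases hn with rfl | rfl | rfl
    · rfl
    · exfalso
      have h2r := (Nat.prime_dvd_prime_iff_eq Nat.prime_two hr).1
        (Nat.prime_two.dvd_of_dvd_pow (show 2 ∣ r ^ k by omega))
      have h5r := (Nat.prime_dvd_prime_iff_eq (by norm_num : Nat.Prime 5) hr).1
        ((by norm_num : Nat.Prime 5).dvd_of_dvd_pow (show 5 ∣ r ^ k by omega))
      omega
    · exfalso
      have h2r := (Nat.prime_dvd_prime_iff_eq Nat.prime_two hr).1
        (Nat.prime_two.dvd_of_dvd_pow (show 2 ∣ r ^ k by omega))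
      have h3r := (Nat.prime_dvd_prime_iff_eq Nat.prime_three hr).1
        (Nat.prime_three.dvd_of_dvd_pow (show 3 ∣ r ^ k by omega))
      omega
  refine ⟨hn8, ?_⟩
  rcases hcase with ⟨hσ, -⟩ | ⟨hσ, -⟩ | ⟨-, hr2, hz, hc, hRI⟩
  · exact absurd (polarData_σ hQ) hσ
  · exact absurd (polarData_σ hQ) hσ
  subst hr2
  have hp := hmin.1
  have hodd : Odd (Fintype.card F) := hc ▸ hp.eq_two_or_odd'.resolve_left (Ne.symm hrp)
  have h2 := two_ne_zero_of_card_odd hodd
  have : Nonempty (Fin n) := ⟨⟨0, by omega⟩⟩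
  have hiso : ∀ g ∈ R, ∀ v, Q ((g : Matrix (Fin n) (Fin n) F) *ᵥ v) = Q v := by
    intro g hg v
    have h1 : (polarData hQ).form ((g : Matrix (Fin n) (Fin n) F) *ᵥ v) ((g : Matrix (Fin n) (Fin n) F) *ᵥ v) =
        (polarData hQ).form v v := hRI hg v v
    rw [polarData_form, polar_self hQ, polar_self hQ] at h1
    exact mul_left_cancel₀ h2 h1
  have hscal : ∀ g : R, g ∈ Subgroup.center R ↔ (g : GL (Fin n) F) ∈ scalars (Fin n) F := by
    intro g
    rw [Subgroup.mem_center_iff]
    refine ⟨fun h => mem_scalars_of_commute habs fun y hy => (congrArg Subtype.val (h ⟨y, hy⟩)).symm,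
      fun h y => Subtype.ext (scalars_commute h y).symm⟩
  have hsclR : ∀ c : Fˣ, scl c ∈ R → c = 1 ∨ c = -1 := by
    intro c hc
    obtain ⟨v, hv⟩ : ∃ v, Q v ≠ 0 := by
      by_contra hcon
      push Not at hcon
      obtain ⟨-, z, hz⟩ := hQ.nondegenerate (Pi.single ⟨0, by omega⟩ 1) (by simp)
      simp [QuadraticMap.polar, hcon] at hz
    have h1 := hiso _ hc v
    rw [coe_scl, Matrix.smul_mulVec, Matrix.one_mulVec, hQ.smul] at h1
    have h2' : (c : F) * c = 1 := by
      have := mul_right_cancel₀ hv (h1.trans (one_mul _).symm)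
      rwa [sq] at this
    rcases mul_self_eq_one_iff.1 h2' with h3 | h3
    · exact Or.inl (Units.ext h3)
    · exact Or.inr (Units.ext (by simpa using h3))
  have : Fact (Nat.Prime 2) := ⟨Nat.prime_two⟩
  have : Finite R := inferInstance
  have hlt : 1 < Nat.card (R ⧸ Subgroup.center R) := by
    have h1 := Subgroup.card_eq_card_quotient_mul_card_subgroup (Subgroup.center R)
    rw [hcardR, hz, mul_comm] at h1
    rw [← Nat.eq_of_mul_eq_mul_right (by norm_num : 0 < 2) h1]
    exact Nat.one_lt_pow (by omega) (by norm_num)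
  have : Nontrivial (R ⧸ Subgroup.center R) := Finite.one_lt_card_iff_nontrivial.1 hlt
  have hnt := (hR.pGroup.to_quotient (Subgroup.center R)).center_nontrivial
  obtain ⟨⟨a', ha'⟩, hne⟩ := exists_ne (1 : Subgroup.center (R ⧸ Subgroup.center R))
  obtain ⟨a, rfl⟩ := QuotientGroup.mk_surjective a'
  have hanc : a ∉ Subgroup.center R := fun h => hne (Subtype.ext ((QuotientGroup.eq_one_iff a).2 h))
  obtain ⟨x, hx⟩ : ∃ x : R, x * a ≠ a * x := by
    by_contra hcon
    push Not at hcon
    exact hanc (Subgroup.mem_center_iff.2 hcon)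
  have hcomm : ∀ y : R, ∃ c : Fˣ, (c = 1 ∨ c = -1) ∧ (y : GL (Fin n) F) * (a : GL (Fin n) F) = scl c * ((a : GL (Fin n) F) * (y : GL (Fin n) F)) := by
    intro y
    have h1 : y * a * (a * y)⁻¹ ∈ Subgroup.center R := by
      rw [← QuotientGroup.eq_one_iff, QuotientGroup.mk_mul, QuotientGroup.mk_mul, QuotientGroup.mk_inv,
        QuotientGroup.mk_mul, Subgroup.mem_center_iff.1 ha' (QuotientGroup.mk y), mul_inv_cancel]
    obtain ⟨c, hc⟩ := exists_scl ((hscal _).1 h1)
    refine ⟨c, hsclR c (hc ▸ (y * a * (a * y)⁻¹).2), ?_⟩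
    rw [← hc]
    simp [mul_assoc]
  obtain ⟨c, hc', hxa⟩ := hcomm x
  rcases hc' with rfl | rfl
  · exfalso
    apply hx
    apply Subtype.ext
    rw [show (scl (1 : Fˣ) : GL (Fin n) F) = 1 from map_one _, one_mul] at hxa
    exact hxa
  have hsq : (a : GL (Fin n) F) * (a : GL (Fin n) F) = 1 ∨
      (a : GL (Fin n) F) * (a : GL (Fin n) F) = scl (-1 : Fˣ) := by
    have h1 : ((a * a : R) : GL (Fin n) F) ∈ scalars (Fin n) F := by
      refine mem_scalars_of_commute habs fun y hy => ?_
      obtain ⟨c, hc', hya⟩ := hcomm ⟨y, hy⟩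
      have hcc : c * c = 1 := by rcases hc' with rfl | rfl <;> simp
      show (a : GL (Fin n) F) * (a : GL (Fin n) F) * y = y * ((a : GL (Fin n) F) * (a : GL (Fin n) F))
      symm
      generalize hA : (a : GL (Fin n) F) = A at hya ⊢
      calc y * (A * A) = scl c * (A * y) * A := by rw [← mul_assoc]; exact congrArg (· * _) hya
        _ = scl c * A * (y * A) := by simp [mul_assoc]
        _ = scl c * A * (scl c * (A * y)) := by rw [show y * A = _ from hya]
        _ = scl c * (scl c * A) * (A * y) := by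
            simp only [mul_assoc]
            rw [← mul_assoc A (scl c), ← scalars_commute (scl_mem c) A, mul_assoc]
        _ = scl (c * c) * (A * A * y) := by rw [show (scl (c * c) : GL (Fin n) F) = scl c * scl c from map_mul _ _ _]; simp [mul_assoc]
        _ = A * A * y := by rw [hcc, show (scl (1 : Fˣ) : GL (Fin n) F) = 1 from map_one _, one_mul]
    obtain ⟨d, hd⟩ := exists_scl h1
    rcases hsclR d (hd ▸ (a * a).2) with rfl | rfl
    · exact Or.inl (hd.trans (map_one _))
    · exact Or.inr hd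
  exact plus_of_signed hQ h2 hn8 a x (hiso _ a.2) (hiso _ x.2) hxa hsq

/-- A tensor power occurs only in dimension 8 and forces plus type. -/
theorem tensorPower_cases (hQ : IsNondegenerateQuadraticForm Q) (hn : n = 8 ∨ n = 10 ∨ n = 12) (hH : H ≤ omegaGL Q)
    (hirr : ActsIrreducibly (matrixSet H)) (h : InFormTensorPower (polarData hQ) H) :
    n = 8 ∧ IsPlusTypeOn Q ⊤ := by
  classical
  obtain ⟨s, k, e, P, G, c, a, hs, hk, hc, hgram, hG, hcak, hle, -, N, hNperf, hN, hNfix⟩ := h
  have hsk : n = s ^ k := by simpa using Fintype.card_congr e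
  obtain ⟨rfl, rfl⟩ : s = 2 ∧ k = 3 := by
    have hdvd : s * s ∣ n := hsk ▸ (sq s ▸ pow_dvd_pow s hk)
    have hle' : 2 ^ k ≤ n := hsk ▸ Nat.pow_le_pow_left hs k
    have hk4 : k < 4 := by
      by_contra hc4
      have := (Nat.pow_le_pow_right (show 0 < 2 by norm_num) (not_lt.1 hc4)).trans hle'
      omega
    have hss : s * s ≤ n := Nat.le_of_dvd (by omega) hdvd
    have hn12 : n ≤ 12 := by omega
    have hs4 : s < 4 := by nlinarith
    interval_cases s <;> interval_cases k <;> omega
  have hn8 : n = 8 := by omega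
  refine ⟨hn8, ?_⟩
  have : Nonempty (Fin n) := ⟨⟨0, by omega⟩⟩
  replace hG : (G : Matrix (Fin 2) (Fin 2) F)ᵀ = a • (G : Matrix (Fin 2) (Fin 2) F) := by
    simpa [polarData_σ] using hG
  replace hcak : c * a ^ 3 = 1 * c := by simpa [polarData_σ, polarData_ε] using hcak
  have hak : a ^ 3 = 1 := mul_left_cancel₀ hc (by rw [hcak, mul_comm])
  set g : Matrix (Fin 2) (Fin 2) F := (G : Matrix (Fin 2) (Fin 2) F) with hg
  have ha := mul_self_eq_one_iff.1 (sign_sq (Units.ne_zero G) hG)
  obtain rfl : a = 1 := by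
    rcases ha with h1 | h1
    · exact h1
    · rw [h1] at hak ⊢
      linear_combination hak
  rw [one_smul] at hG
  rcases card_parity (F := F) with hq | h2
  · exfalso
    have h2 := two_ne_zero_of_card_odd hq
    let J : Matrix (Fin 2) (Fin 2) F := !![0, 1; -1, 0]
    let T : Matrix (Fin 2) (Fin 2) F := ((G⁻¹ : GL (Fin 2) F) : Matrix (Fin 2) (Fin 2) F) * J
    have hJ : ∀ x : Matrix (Fin 2) (Fin 2) F, xᵀ * J * x = x.det • J := by
      intro x
      ext i j
      fin_cases i <;> fin_cases j <;>
        simp [J, Matrix.mul_apply, Fin.sum_univ_two, Matrix.det_fin_two] <;> ring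
    have hdet : ∀ x ∈ N, (x : Matrix (Fin 2) (Fin 2) F).det = 1 := by
      intro x hx
      have hle' : N ≤ (Matrix.GeneralLinearGroup.det : GL (Fin 2) F →* Fˣ).ker := by
        rw [← hNperf, Subgroup.commutator_le]
        intro p _ q _
        simp [MonoidHom.mem_ker, commutatorElement_def]
      have := congrArg (Units.val : Fˣ → F) (MonoidHom.mem_ker.1 (hle' hx))
      simpa using this
    have hT : ∀ x ∈ N, (x : Matrix (Fin 2) (Fin 2) F) * T = T * (x : Matrix (Fin 2) (Fin 2) F) := by
      intro x hx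
      have h1 : (x : Matrix (Fin 2) (Fin 2) F)ᵀ * g * (x : Matrix (Fin 2) (Fin 2) F) = g := by
        simpa [polarData_σ] using hNfix x hx
      have h3 : g * ((x : Matrix (Fin 2) (Fin 2) F) * T) = g * (T * (x : Matrix (Fin 2) (Fin 2) F)) := by
        have hgT : g * T = J := by
          rw [← mul_assoc, hg, ← Units.val_mul, mul_inv_cancel, Units.val_one, one_mul]
        have hgT' : g * (T * (x : Matrix (Fin 2) (Fin 2) F)) = J * (x : Matrix (Fin 2) (Fin 2) F) := by
          rw [← mul_assoc, hgT]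
        rw [hgT']
        have hu : IsUnit (x : Matrix (Fin 2) (Fin 2) F)ᵀ :=
          (Matrix.isUnit_iff_isUnit_det _).2 (by rw [Matrix.det_transpose, hdet x hx]; exact isUnit_one)
        apply hu.mul_left_cancel
        rw [← mul_assoc, ← mul_assoc, h1, hgT, ← mul_assoc, hJ, hdet x hx, one_smul]
      exact (Units.isUnit G).mul_left_cancel h3
    have hns : T 0 1 ≠ 0 ∨ T 1 0 ≠ 0 ∨ T 0 0 ≠ T 1 1 := by
      by_contra hcon
      push Not at hcon
      obtain ⟨h01, h10, hd⟩ := hcon
      have hgT : g * T = J := by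
        rw [← mul_assoc, hg, ← Units.val_mul, mul_inv_cancel, Units.val_one, one_mul]
      have hsym : g 1 0 = g 0 1 := congrFun (congrFun hG 0) 1
      have e01 := congrFun (congrFun hgT 0) 1
      have e10 := congrFun (congrFun hgT 1) 0
      simp [Matrix.mul_apply, Fin.sum_univ_two, h01, h10, J, hsym, hd] at e01 e10
      exact h2 (by linear_combination e10 - e01)
    have habel : ∀ x ∈ N, ∀ y ∈ N, x * y = y * x := by
      intro x hx y hy
      apply Units.ext
      rw [Units.val_mul, Units.val_mul]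
      have ex := hT x hx
      have ey := hT y hy
      have x1 := congrFun (congrFun ex 0) 0
      have x2 := congrFun (congrFun ex 0) 1
      have x3 := congrFun (congrFun ex 1) 0
      have y1 := congrFun (congrFun ey 0) 0
      have y2 := congrFun (congrFun ey 0) 1
      have y3 := congrFun (congrFun ey 1) 0
      simp only [Matrix.mul_apply, Fin.sum_univ_two] at x1 x2 x3 y1 y2 y3
      set X := (x : Matrix (Fin 2) (Fin 2) F)
      set Y := (y : Matrix (Fin 2) (Fin 2) F)
      have key : ∀ {t₁ t₂ t₃ u₁ u₂ u₃ v₁ v₂ v₃ : F}, (t₁ ≠ 0 ∨ t₂ ≠ 0 ∨ t₃ ≠ 0) →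
          u₁ * t₂ = u₂ * t₁ → u₁ * t₃ = u₃ * t₁ → u₂ * t₃ = u₃ * t₂ →
          v₁ * t₂ = v₂ * t₁ → v₁ * t₃ = v₃ * t₁ → v₂ * t₃ = v₃ * t₂ →
          u₁ * v₂ = u₂ * v₁ ∧ u₁ * v₃ = u₃ * v₁ ∧ u₂ * v₃ = u₃ * v₂ := by
        intro t₁ t₂ t₃ u₁ u₂ u₃ v₁ v₂ v₃ ht a1 a2 a3 b1 b2 b3
        rcases ht with h | h | h
        all_goals
          refine ⟨mul_left_cancel₀ h ?_, mul_left_cancel₀ h ?_, mul_left_cancel₀ h ?_⟩
        · linear_combination v₁ * a1 - u₁ * b1
        · linear_combination v₁ * a2 - u₁ * b2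
        · linear_combination v₂ * a2 - v₃ * a1 - u₁ * b3
        · linear_combination v₂ * a1 - u₂ * b1
        · linear_combination v₃ * a1 + v₁ * a3 - u₂ * b2
        · linear_combination v₂ * a3 - u₂ * b3
        · linear_combination v₂ * a2 - v₁ * a3 - u₃ * b1
        · linear_combination v₃ * a2 - u₃ * b2
        · linear_combination v₃ * a3 - u₃ * b3
      obtain ⟨k1, k2, k3⟩ := key (t₁ := T 0 1) (t₂ := T 1 0) (t₃ := T 0 0 - T 1 1)
        (u₁ := X 0 1) (u₂ := X 1 0) (u₃ := X 0 0 - X 1 1) (v₁ := Y 0 1) (v₂ := Y 1 0) (v₃ := Y 0 0 - Y 1 1)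
        (by rcases hns with h | h | h
            · exact Or.inl h
            · exact Or.inr (Or.inl h)
            · exact Or.inr (Or.inr (sub_ne_zero.2 h)))
        (by linear_combination x1) (by linear_combination -x2) (by linear_combination x3)
        (by linear_combination y1) (by linear_combination -y2) (by linear_combination y3)
      ext i j
      fin_cases i <;> fin_cases j <;> simp [Matrix.mul_apply, Fin.sum_univ_two]
      · linear_combination k1
      · linear_combination -k2
      · linear_combination k3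
      · linear_combination -k1
    apply hN
    rw [← hNperf, Subgroup.commutator_eq_bot_iff_le_centralizer]
    exact fun x hx => Subgroup.mem_centralizer_iff.2 fun y hy => habel y hy x hx
  · have hd : ∀ j, g j j = 0 := fun j => by
      have := gramAt_diag hQ P (e.symm fun _ => j)
      rw [hgram, h2, zero_mul] at this
      simp only [Matrix.smul_apply, smul_eq_mul, Matrix.coe_reindexAlgEquiv, Matrix.reindex_apply, Equiv.symm_symm,
        Matrix.submatrix_apply, Equiv.apply_symm_apply, tpow_apply, Finset.prod_const, Finset.card_univ,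
        Fintype.card_fin] at this
      exact (pow_eq_zero_iff (by omega)).1 ((mul_eq_zero.1 this).resolve_left hc)
    let A : Matrix (Fin 2) (Fin 2) F := Matrix.of fun i j => if i < j then g i j else 0
    have hA : ∀ i j, A i j + A j i = g i j := by
      intro i j
      have e1 : g j i = g i j := congrFun (congrFun hG i) j
      rcases lt_trichotomy i j with hij | rfl | hij
      · simp [A, hij, hij.not_gt]
      · simp [A, hd]
      · simp [A, hij, hij.not_gt, e1]
    let i₀ : Fin 3 := 0
    let i₁ : Fin 3 := 1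
    let C : Fin 3 → Matrix (Fin 2) (Fin 2) F := Function.update (fun _ => g) i₀ A
    let M₀ := tpow C
    let M := c • Matrix.reindexAlgEquiv F F e.symm M₀
    have hC1 : C i₁ = g := Function.update_of_ne (by decide) _ _
    have hquad : ∀ w, Q ((P : Matrix (Fin n) (Fin n) F) *ᵥ w) = w ⬝ᵥ (M *ᵥ w) := by
      refine fun w => quad_in_frame hQ (by omega) h2 hH hirr P M ?_ (fun i => ?_) (fun h hh i => ?_) w
      · rw [hgram, Matrix.transpose_smul, ← smul_add]
        congr 1
        ext x y
        simp only [Matrix.add_apply, Matrix.transpose_apply, Matrix.coe_reindexAlgEquiv, Matrix.reindex_apply,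
          Equiv.symm_symm, Matrix.submatrix_apply, M₀, tpow_apply]
        have key : ∀ u v : Fin 3 → Fin 2, ∏ i, C i (u i) (v i) =
            A (u i₀) (v i₀) * ∏ i ∈ Finset.univ.erase i₀, g (u i) (v i) := by
          intro u v
          rw [← Finset.mul_prod_erase _ _ (Finset.mem_univ i₀), show C i₀ = A from Function.update_self ..]
          congr 1
        rw [key, key, ← Finset.mul_prod_erase _ _ (Finset.mem_univ i₀), ← hA (e x i₀) (e y i₀), add_mul]
        congr 2
        exact Finset.prod_congr rfl fun i _ => (congrFun (congrFun hG (e x i)) (e y i))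
      · simp only [M, Matrix.smul_apply, Matrix.coe_reindexAlgEquiv, Matrix.reindex_apply, Equiv.symm_symm,
          Matrix.submatrix_apply, M₀, tpow_apply]
        rw [Finset.prod_eq_zero (Finset.mem_univ i₀) (by simp [C, A]), smul_zero]
      · obtain ⟨_, ⟨g', hg', rfl⟩, hhg⟩ := hle hh
        have e1 : ((P⁻¹ * h * P : GL (Fin n) F) : Matrix (Fin n) (Fin n) F) =
            Matrix.reindexAlgEquiv F F e.symm (g' : Matrix (Fin 3 → Fin 2) (Fin 3 → Fin 2) F) := by
          rw [← hhg]
          simp [mul_assoc]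
          rfl
        rw [e1, ← show Matrix.reindexAlgEquiv F F e.symm ((g' : Matrix (Fin 3 → Fin 2) (Fin 3 → Fin 2) F)ᵀ) =
          (Matrix.reindexAlgEquiv F F e.symm (g' : Matrix (Fin 3 → Fin 2) (Fin 3 → Fin 2) F))ᵀ from rfl,
          mul_smul_comm, smul_mul_assoc, ← map_mul, ← map_mul, Matrix.smul_apply]
        simp only [Matrix.coe_reindexAlgEquiv, Matrix.reindex_apply, Equiv.symm_symm, Matrix.submatrix_apply]
        have e2 : ((g' : Matrix (Fin 3 → Fin 2) (Fin 3 → Fin 2) F)ᵀ * M₀ *
            (g' : Matrix (Fin 3 → Fin 2) (Fin 3 → Fin 2) F)) (e i) (e i) =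
            ((g' : Matrix (Fin 3 → Fin 2) (Fin 3 → Fin 2) F) *ᵥ Pi.single (e i) 1) ⬝ᵥ
              (M₀ *ᵥ ((g' : Matrix (Fin 3 → Fin 2) (Fin 3 → Fin 2) F) *ᵥ Pi.single (e i) 1)) := by
          rw [quad_mulVec]; simp
        obtain ⟨w, hw⟩ := wreath_pure hg' (fun j => Pi.single (e i j) 1)
        rw [e2, single_eq_pureVec, hw, tpow_mulVec_pure, pureVec_dot,
          Finset.prod_eq_zero (Finset.mem_univ i₁) (show _ = (0 : F) from ?_), smul_zero]
        rw [hC1]
        exact quad_eq_zero h2 hG hd _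
    let κ := {x : Fin n // e x i₁ = 0}
    let v : κ → Fin n → F := fun x => (P : Matrix (Fin n) (Fin n) F) *ᵥ Pi.single x.1 1
    refine plus_of_family hQ v ?_ (fun x => ?_) (fun x y => ?_) ?_
    · have hb : LinearIndependent F fun i : Fin n => (P : Matrix (Fin n) (Fin n) F) *ᵥ Pi.single i 1 := by
        have e : (fun i : Fin n => (P : Matrix (Fin n) (Fin n) F) *ᵥ Pi.single i 1) =
            Matrix.toLin' (P : Matrix (Fin n) (Fin n) F) ∘ Pi.basisFun F (Fin n) := funext fun i => by simp
        rw [e]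
        exact (Pi.basisFun F (Fin n)).linearIndependent.map' _
          (LinearMap.ker_eq_bot.2 (Matrix.mulVec_injective_of_isUnit (Units.isUnit P)))
      exact hb.comp _ Subtype.val_injective
    · rw [show v x = (P : Matrix (Fin n) (Fin n) F) *ᵥ Pi.single x.1 1 from rfl, hquad]
      simp only [M, Matrix.mulVec_single_one, Matrix.smul_apply, Matrix.coe_reindexAlgEquiv,
        Matrix.reindex_apply, Equiv.symm_symm, Matrix.submatrix_apply, dotProduct, Pi.single_apply,
        Matrix.col_apply, ite_mul, one_mul, zero_mul, Finset.sum_ite_eq', Finset.mem_univ, if_true, M₀, tpow_apply]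
      rw [Finset.prod_eq_zero (Finset.mem_univ i₁) (by rw [hC1, x.2]; exact hd 0), smul_zero]
    · simp only [v, ← gramAt_apply hQ P, hgram, Matrix.smul_apply, Matrix.coe_reindexAlgEquiv,
        Matrix.reindex_apply, Equiv.symm_symm, Matrix.submatrix_apply, tpow_apply]
      rw [Finset.prod_eq_zero (Finset.mem_univ i₁) (by rw [x.2, y.2]; exact hd 0), smul_zero]
    · have h4 : Fintype.card κ = 4 := by
        rw [Fintype.card_congr (e.subtypeEquiv (q := fun f : Fin 3 → Fin 2 => f i₁ = 0) fun x => Iff.rfl)]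
        decide
      omega

/-- The residual alternative. -/
theorem residual_class (hQ : IsNondegenerateQuadraticForm Q) (hn : 0 < n)
    (h : InFormResidual (polarData hQ) H) : InOrthogonalResidualClass H := by
  have : Nonempty (Fin n) := ⟨⟨0, hn⟩⟩
  obtain ⟨N, hcore, -, huniq⟩ := h
  refine ⟨N, hcore, ?_⟩
  rintro ⟨σ, f, hf, hfix⟩
  have hs : σ.toRingHom = RingHom.id F := by
    refine huniq σ.toRingHom (gramMatrix f)
      (fixesGram_of_fixesForm σ.toRingHom hf.add_left hf.smul_left ?_ ?_ hfix)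
      (gram_ne_zero σ.toRingHom (eq_gramForm σ.toRingHom hf.add_left hf.smul_left ?_ ?_) hf.nondegenerate)
    all_goals first
      | exact fun v x y => by rw [hf.herm v (x + y), hf.add_left, map_add, ← hf.herm, ← hf.herm]
      | exact fun c v x => by rw [hf.herm v (c • x), hf.smul_left, map_mul, ← hf.herm]; rfl
  exact hf.ne_refl (RingEquiv.ext fun x => RingHom.congr_fun hs x)

end Cfsg.Agent.H6.OEven
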