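import Cfsg.Agent.H6.OEven.Frame
import Cfsg.Agent.H6.OEven.Tensor

/-!
The special orthogonal group of a four-dimensional form of plus type is a tensor product, and the regrouping of a
tensor frame of shape 3 × 4 as one of shape 2 × 6.
-/

set_option autoImplicit false
set_option linter.unusedSectionVars false

open scoped MatrixGroups Matrix Kronecker

namespace Cfsg.Agent.H6.OEven

open Cfsg.Geo Cfsg.Agent.H99.Asch

variable {F : Type*} [Field F] [Fintype F]

/-- The quadratic form of a symmetric matrix in odd characteristic. -/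
lemma nondeg_of_sym (h2 : (2 : F) ≠ 0) {t : ℕ} {G : Matrix (Fin t) (Fin t) F} (hu : IsUnit G) (hG : Gᵀ = G) :
    IsNondegenerateQuadraticForm (fun v : Fin t → F => gramForm (RingHom.id F) G v v) ∧
      ∀ u v, QuadraticMap.polar (fun v : Fin t → F => gramForm (RingHom.id F) G v v) u v =
        2 * gramForm (RingHom.id F) G u v := by
  have hS := gramForm_symmetric hu hG
  have hp : ∀ u v, QuadraticMap.polar (fun v : Fin t → F => gramForm (RingHom.id F) G v v) u v =
      2 * gramForm (RingHom.id F) G u v := fun u v => by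
    simp only [QuadraticMap.polar, hS.bilinear.add_left, hS.bilinear.add_right, hS.symm v u]
    ring
  refine ⟨⟨fun c v => by simp only [hS.bilinear.smul_left, hS.bilinear.smul_right]; ring, ⟨fun x y v => ?_,
    fun c x v => ?_, fun v x y => ?_, fun c v x => ?_⟩, fun v hv => ?_⟩, hp⟩
  · rw [hp, hp, hp, hS.bilinear.add_left]; ring
  · rw [hp, hp, hS.bilinear.smul_left]; ring
  · rw [hp, hp, hp, hS.bilinear.add_right]; ring
  · rw [hp, hp, hS.bilinear.smul_right]; ring
  · obtain ⟨⟨x, hx⟩, y, hy⟩ := hS.nondegenerate v hv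
    exact ⟨⟨x, by rw [hp]; exact mul_ne_zero h2 hx⟩, y, by rw [hp]; exact mul_ne_zero h2 hy⟩

/-- The type of the quadratic form of a symmetric matrix. -/
lemma plus_iff_det_sym (h2 : (2 : F) ≠ 0) {t m : ℕ} (ht : t = 2 * m) {G : Matrix (Fin t) (Fin t) F}
    (hu : IsUnit G) (hG : Gᵀ = G) :
    IsPlusTypeOn (fun v : Fin t → F => gramForm (RingHom.id F) G v v) ⊤ ↔ IsSquare ((-1) ^ m * G.det) := by
  obtain ⟨hQ, hp⟩ := nondeg_of_sym h2 hu hG
  have hg : (polarData hQ).gramAt 1 = (2 : F) • G := Matrix.ext fun i j => by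
    rw [gramAt_apply, hp, Units.val_one, Matrix.one_mulVec, Matrix.one_mulVec, Matrix.smul_apply, smul_eq_mul]
    simp [gramForm]
  rw [plus_iff_det_gramAt hQ h2 ht 1, hg, Matrix.det_smul, Fintype.card_fin,
    show (-1 : F) ^ m * ((2 : F) ^ t * G.det) = (-1) ^ m * G.det * (2 ^ m * 2 ^ m) by
      rw [show (2 : F) ^ t = 2 ^ m * 2 ^ m by rw [← pow_add, ← two_mul, ← ht]]; ring]
  exact isSquare_mul_sq_iff (pow_ne_zero _ h2)

/-- The alternating matrix of degree two. -/
def altTwo (F : Type*) [Field F] : Matrix (Fin 2) (Fin 2) F := !![0, 1; -1, 0]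

/-- The bracket of two vectors of the plane. -/
def brk (u u' : Fin 2 → F) : F := u 0 * u' 1 - u 1 * u' 0

lemma altTwo_form (u u' : Fin 2 → F) : u ⬝ᵥ (altTwo F *ᵥ u') = brk u u' := by
  simp [altTwo, brk, dotProduct, Matrix.mulVec, Fin.sum_univ_two]
  ring

lemma smul_of_brk {u u' : Fin 2 → F} (hu : u ≠ 0) (h : brk u u' = 0) : ∃ r : F, u' = r • u := by
  rcases (show u 0 ≠ 0 ∨ u 1 ≠ 0 by
    by_contra hc
    push Not at hc
    exact hu (funext fun i => by fin_cases i; exacts [hc.1, hc.2])) with h0 | h0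
  · refine ⟨u' 0 / u 0, funext fun i => ?_⟩
    simp only [brk] at h
    fin_cases i <;> simp <;> field_simp
    linear_combination h
  · refine ⟨u' 1 / u 1, funext fun i => ?_⟩
    simp only [brk] at h
    fin_cases i <;> simp <;> field_simp
    linear_combination -h

/-- A pure tensor of two plane vectors. -/
def pure22 (u v : Fin 2 → F) : Fin 2 × Fin 2 → F := fun p => u p.1 * v p.2

lemma exists_pure22 (x : Fin 2 × Fin 2 → F) (hx : x (0, 0) * x (1, 1) = x (0, 1) * x (1, 0)) :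
    ∃ u v, x = pure22 u v := by
  rcases eq_or_ne (x (0, 0)) 0 with h0 | h0
  · rw [h0, zero_mul, eq_comm, mul_eq_zero] at hx
    rcases hx with h1 | h1
    · refine ⟨![0, 1], ![x (1, 0), x (1, 1)], funext fun ⟨i, j⟩ => ?_⟩
      fin_cases i <;> fin_cases j <;> simp [pure22, h0, h1]
    · refine ⟨![x (0, 1), x (1, 1)], ![0, 1], funext fun ⟨i, j⟩ => ?_⟩
      fin_cases i <;> fin_cases j <;> simp [pure22, h0, h1]
  · refine ⟨![1, x (1, 0) / x (0, 0)], ![x (0, 0), x (0, 1)], funext fun ⟨i, j⟩ => ?_⟩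
    fin_cases i <;> fin_cases j <;> simp [pure22]
    · field_simp
    · field_simp
      linear_combination hx

/-- A matrix of determinant one fixing the tensor square of the alternating form is a tensor product. -/
theorem kron_of_fixes (h2 : (2 : F) ≠ 0) (b : Matrix (Fin 2 × Fin 2) (Fin 2 × Fin 2) F)
    (hb : bᵀ * (altTwo F ⊗ₖ altTwo F) * b = altTwo F ⊗ₖ altTwo F) (hdet : b.det = 1) :
    ∃ U V : Matrix (Fin 2) (Fin 2) F, b = U ⊗ₖ V := by
  let c : Fin 2 × Fin 2 → Fin 2 × Fin 2 → F := fun p => fun q => b q p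
  have hc : ∀ p p', c p (0, 0) * c p' (1, 1) - c p (0, 1) * c p' (1, 0) - c p (1, 0) * c p' (0, 1) +
      c p (1, 1) * c p' (0, 0) = (altTwo F ⊗ₖ altTwo F) p p' := by
    intro p p'
    rw [← hb]
    simp [c, Matrix.mul_apply, Fintype.sum_prod_type, Fin.sum_univ_two, altTwo]
    ring
  have hpure : ∀ p, ∃ u v, c p = pure22 u v := fun p => exists_pure22 _ (by
    have h1 := hc p p
    have h0 : (altTwo F ⊗ₖ altTwo F) p p = 0 := by
      obtain ⟨i, j⟩ := p
      fin_cases i <;> fin_cases j <;> simp [altTwo]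
    rw [h0] at h1
    refine sub_eq_zero.1 ((mul_eq_zero.1 (?_ : (2 : F) * _ = 0)).resolve_left h2)
    linear_combination h1)
  choose u v huv using hpure
  have key : ∀ p p', brk (u p) (u p') * brk (v p) (v p') = (altTwo F ⊗ₖ altTwo F) p p' := by
    intro p p'
    rw [← hc p p', huv, huv]
    simp only [pure22, brk]
    ring
  have hK : (altTwo F ⊗ₖ altTwo F) ((0, 0) : Fin 2 × Fin 2) (1, 1) = 1 ∧
      (altTwo F ⊗ₖ altTwo F) ((0, 1) : Fin 2 × Fin 2) (1, 0) = -1 ∧
      (altTwo F ⊗ₖ altTwo F) ((0, 0) : Fin 2 × Fin 2) (0, 1) = 0 ∧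
      (altTwo F ⊗ₖ altTwo F) ((0, 0) : Fin 2 × Fin 2) (1, 0) = 0 ∧
      (altTwo F ⊗ₖ altTwo F) ((0, 1) : Fin 2 × Fin 2) (1, 1) = 0 ∧
      (altTwo F ⊗ₖ altTwo F) ((1, 0) : Fin 2 × Fin 2) (1, 1) = 0 := by simp [altTwo]
  obtain ⟨k03, k12, k01, k02, k13, k23⟩ := hK
  have e03 := (key (0, 0) (1, 1)).trans k03
  have e12 := (key (0, 1) (1, 0)).trans k12
  have hne : ∀ p p', brk (u p) (u p') * brk (v p) (v p') ≠ 0 → u p ≠ 0 ∧ v p ≠ 0 := fun p p' h =>
    ⟨fun e => h (by rw [e]; simp [brk]), fun e => h (by rw [e]; simp [brk])⟩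
  obtain ⟨hu0, hv0⟩ := hne (0, 0) (1, 1) (by rw [e03]; exact one_ne_zero)
  obtain ⟨hu1, hv1⟩ := hne (0, 1) (1, 0) (by rw [e12]; exact neg_ne_zero.2 one_ne_zero)
  have hmul : ∀ (r : F) (x y : Fin 2 → F), brk (r • x) y = r * brk x y ∧ brk x (r • y) = r * brk x y :=
    fun r x y => by constructor <;> simp only [brk, Pi.smul_apply, smul_eq_mul] <;> ring
  have hsymm : ∀ x : Fin 2 → F, brk x x = 0 := fun x => by simp only [brk]; ring
  have hpm : ∀ (r : F) (x y : Fin 2 → F), pure22 (r • x) y = pure22 x (r • y) := fun r x y =>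
    funext fun p => by simp only [pure22, Pi.smul_apply, smul_eq_mul]; ring
  have main : ∀ {a a' d d' : Fin 2 → F} {x : Fin 2 × Fin 2 → F},
      brk a a' * brk d d' = 1 → (∃ a'' d'', x = pure22 a'' d'' ∧ brk a a'' * brk d d'' = 1 ∧
        brk a a'' * brk d' d'' = 0 ∧ brk a' a'' * brk d d'' = 0) → x = pure22 a' d' := by
    rintro a a' d d' x h1 ⟨a'', d'', rfl, h3, h4, h5⟩
    have n1 : brk a a'' ≠ 0 := fun e => by rw [e, zero_mul] at h3; exact zero_ne_one h3
    have n2 : brk d d'' ≠ 0 := fun e => by rw [e, mul_zero] at h3; exact zero_ne_one h3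
    have hd' : d' ≠ 0 := fun e => by rw [e] at h1; simp [brk] at h1
    have ha' : a' ≠ 0 := fun e => by rw [e] at h1; simp [brk] at h1
    obtain ⟨r, rfl⟩ := smul_of_brk ha' ((mul_eq_zero.1 h5).resolve_right n2)
    obtain ⟨s, rfl⟩ := smul_of_brk hd' ((mul_eq_zero.1 h4).resolve_left n1)
    rw [(hmul _ _ _).2, (hmul _ _ _).2] at h3
    have hrs : r * s = 1 := by linear_combination h3 - (r * s) * h1
    funext p
    simp only [pure22, Pi.smul_apply, smul_eq_mul]
    linear_combination (a' p.1 * d' p.2) * hrs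
  rcases mul_eq_zero.1 ((key (0, 0) (0, 1)).trans k01) with h | h
  · obtain ⟨r, hr⟩ := smul_of_brk hu0 h
    have hr0 : r ≠ 0 := fun e => hu1 (by rw [hr, e, zero_smul])
    have hvb : brk (v (0, 0)) (v (1, 0)) = 0 := by
      refine (mul_eq_zero.1 ((key (0, 0) (1, 0)).trans k02)).resolve_left fun h' => ?_
      rw [hr, (hmul _ _ _).1, h', mul_zero, zero_mul] at e12
      exact neg_ne_zero.2 one_ne_zero e12.symm
    obtain ⟨s, hs⟩ := smul_of_brk hv0 hvb
    set a := u (0, 0)
    set d := v (0, 0)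
    set a' := s • u (1, 0)
    set d' := r • v (0, 1)
    have hs0 : s ≠ 0 := fun e => by
      rw [hs, e, zero_smul] at e12; simp [brk] at e12
    have h12 : brk a a' * brk d d' = 1 := by
      simp only [a', d', (hmul _ _ _).2]
      rw [hr, hs, (hmul _ _ _).1, (hmul _ _ _).2,
        show brk (v (0, 1)) d = -brk d (v (0, 1)) by simp only [brk]; ring] at e12
      linear_combination -e12
    have c01 : c (0, 1) = pure22 a d' := by rw [huv, hr, hpm]
    have c10 : c (1, 0) = pure22 a' d := by rw [huv, hs, ← hpm]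
    have c11 : c (1, 1) = pure22 a' d' := by
      refine main h12 ⟨u (1, 1), v (1, 1), huv _, e03, ?_, ?_⟩
      · have := (key (0, 1) (1, 1)).trans k13
        rw [hr, (hmul _ _ _).1] at this
        simp only [d', (hmul _ _ _).1]
        linear_combination this
      · have := (key (1, 0) (1, 1)).trans k23
        rw [hs, (hmul _ _ _).1] at this
        simp only [a', (hmul _ _ _).1]
        linear_combination this
    refine ⟨Matrix.of fun i j => ![a, a'] j i, Matrix.of fun i j => ![d, d'] j i, Matrix.ext fun q p => ?_⟩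
    show c p q = _
    obtain ⟨i, j⟩ := p
    fin_cases i <;> fin_cases j
    · simp [huv, pure22, a, d]
    · simp [c01, pure22]
    · simp [c10, pure22]
    · simp [c11, pure22]
  · exfalso
    obtain ⟨s, hs⟩ := smul_of_brk hv0 h
    have hs0 : s ≠ 0 := fun e => hv1 (by rw [hs, e, zero_smul])
    have hub : brk (u (0, 0)) (u (1, 0)) = 0 := by
      refine (mul_eq_zero.1 ((key (0, 0) (1, 0)).trans k02)).resolve_right fun h' => ?_
      rw [hs, (hmul _ _ _).1, h', mul_zero, mul_zero] at e12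
      exact neg_ne_zero.2 one_ne_zero e12.symm
    obtain ⟨r, hr⟩ := smul_of_brk hu0 hub
    set a := u (0, 0)
    set d := v (0, 0)
    set a' := s • u (0, 1)
    set d' := r • v (1, 0)
    have h12 : brk a a' * brk d d' = 1 := by
      simp only [a', d', (hmul _ _ _).2]
      rw [hr, hs, (hmul _ _ _).1, (hmul _ _ _).2,
        show brk (u (0, 1)) a = -brk a (u (0, 1)) by simp only [brk]; ring] at e12
      linear_combination -e12
    have c01 : c (0, 1) = pure22 a' d := by rw [huv, hs, ← hpm]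
    have c10 : c (1, 0) = pure22 a d' := by rw [huv, hr, hpm]
    have c11 : c (1, 1) = pure22 a' d' := by
      refine main h12 ⟨u (1, 1), v (1, 1), huv _, e03, ?_, ?_⟩
      · have := (key (1, 0) (1, 1)).trans k23
        rw [hr, (hmul _ _ _).1] at this
        simp only [d', (hmul _ _ _).1]
        linear_combination this
      · have := (key (0, 1) (1, 1)).trans k13
        rw [hs, (hmul _ _ _).1] at this
        simp only [a', (hmul _ _ _).1]
        linear_combination this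
    let A : Matrix (Fin 2) (Fin 2) F := Matrix.of fun i j => ![a, a'] j i
    let B : Matrix (Fin 2) (Fin 2) F := Matrix.of fun i j => ![d, d'] j i
    have hbe : b = (A ⊗ₖ B).submatrix id (Equiv.prodComm (Fin 2) (Fin 2)) := Matrix.ext fun q p => by
      show c p q = _
      obtain ⟨i, j⟩ := p
      fin_cases i <;> fin_cases j
      · simp [huv, pure22, a, d, A, B]
      · simp [c01, pure22, A, B]
      · simp [c10, pure22, A, B]
      · simp [c11, pure22, A, B]
    have hA : A.det = brk a a' := by simp [A, Matrix.det_fin_two, brk]; ring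
    have hB : B.det = brk d d' := by simp [B, Matrix.det_fin_two, brk]; ring
    have hsw : (A ⊗ₖ B).submatrix id (Equiv.prodComm (Fin 2) (Fin 2) : Equiv.Perm (Fin 2 × Fin 2)) = b := hbe.symm
    rw [← hsw, Matrix.det_permute', show Equiv.Perm.sign (Equiv.prodComm (Fin 2) (Fin 2) :
      Equiv.Perm (Fin 2 × Fin 2)) = -1 by decide, Matrix.det_kronecker, hA, hB, Fintype.card_fin] at hdet
    push_cast at hdet
    exact h2 (by linear_combination -hdet - (brk a a' * brk d d' + 1) * h12)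

variable {Q : (Fin 12 → F) → F} {H : Subgroup (GL (Fin 12) F)}

lemma det_of_mem_omega {n : ℕ} {Q : (Fin n → F) → F} {g : GL (Fin n) F} (hg : g ∈ omegaGL Q) :
    (g : Matrix (Fin n) (Fin n) F).det = 1 := by
  obtain ⟨x, hx, rfl⟩ := hg
  have h1 := Abelianization.commutator_subset_ker
    (Matrix.GeneralLinearGroup.det.comp (Cfsg.isometryGroup F Q).subtype) hx
  have := congrArg (Units.val : Fˣ → F) (MonoidHom.mem_ker.1 h1)
  simpa using this

/-- A tensor frame of shape 3 × 4 with a factor of plus type is one of shape 2 × 6. -/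
theorem regroup_three_four (hQ : IsNondegenerateQuadraticForm Q) (h2 : (2 : F) ≠ 0) (hH : H ≤ omegaGL Q)
    (e : Fin 12 ≃ Fin 3 × Fin 4) (P : GL (Fin 12) F) (G₁ : GL (Fin 3) F) (G₂ : GL (Fin 4) F)
    (hgram : (polarData hQ).gramAt P = tens e (G₁ : Matrix (Fin 3) (Fin 3) F) (G₂ : Matrix (Fin 4) (Fin 4) F))
    (hG₁ : (G₁ : Matrix (Fin 3) (Fin 3) F)ᵀ = (G₁ : Matrix (Fin 3) (Fin 3) F))
    (hG₂ : (G₂ : Matrix (Fin 4) (Fin 4) F)ᵀ = (G₂ : Matrix (Fin 4) (Fin 4) F))
    (hsq : IsSquare (G₂ : Matrix (Fin 4) (Fin 4) F).det) (hle : H ≤ tensorProductSubgroup 3 4 e P) :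
    ∃ (e' : Fin 12 ≃ Fin 2 × Fin 6) (P' : GL (Fin 12) F) (J : GL (Fin 2) F) (G : GL (Fin 6) F),
      (polarData hQ).gramAt P' = tens e' (J : Matrix (Fin 2) (Fin 2) F) (G : Matrix (Fin 6) (Fin 6) F) ∧
      IsSymplecticForm (gramForm (RingHom.id F) (J : Matrix (Fin 2) (Fin 2) F)) ∧
      IsSymplecticForm (gramForm (RingHom.id F) (G : Matrix (Fin 6) (Fin 6) F)) ∧
      H ≤ tensorProductSubgroup 2 6 e' P' := by
  classical
  have : Nonempty (Fin 3) := ⟨0⟩
  have : Nonempty (Fin 4) := ⟨0⟩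
  obtain ⟨hQ', hp'⟩ := nondeg_of_sym h2 (Units.isUnit G₂) hG₂
  obtain ⟨W, -, hW, hWd⟩ := (plus_iff_det_sym h2 (m := 2) rfl (Units.isUnit G₂) hG₂).2
    (by rw [neg_one_sq, one_mul]; exact hsq)
  rw [finrank_top, Module.finrank_fintype_fun_eq_card, Fintype.card_fin] at hWd
  obtain ⟨g, hg⟩ := H4.isom_qPlus_of_singular (qf_nondeg hQ') (m := 2) (by simp) W hW (by simp at hWd ⊢; omega)
  let e4 : Fin 4 ≃ Fin 2 × Fin 2 := (finProdFinEquiv (m := 2) (n := 2)).symm
  let y : (Fin 4 → F) →ₗ[F] (Fin 2 ⊕ Fin 2 → F) :=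
    { toFun := fun x => Sum.elim ![x (e4.symm (0, 0)), -x (e4.symm (0, 1))] ![x (e4.symm (1, 1)), x (e4.symm (1, 0))]
      map_add' := fun x x' => funext fun i => by
        rcases i with i | i <;> fin_cases i <;> simp [add_comm]
      map_smul' := fun r x => funext fun i => by rcases i with i | i <;> fin_cases i <;> simp }
  let Smap : (Fin 4 → F) →ₗ[F] (Fin 4 → F) := g.symm.toLinearMap ∘ₗ y
  let Sm : Matrix (Fin 4) (Fin 4) F := LinearMap.toMatrix' Smap
  let K := tens e4 (altTwo F) (altTwo F)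
  have hSK : Smᵀ * (G₂ : Matrix (Fin 4) (Fin 4) F) * Sm = (2⁻¹ : F) • K := by
    refine eq_of_gramForm_eq (RingHom.id F) fun x x' => ?_
    rw [show Smᵀ * (G₂ : Matrix (Fin 4) (Fin 4) F) * Sm = Smᵀ * (G₂ : Matrix (Fin 4) (Fin 4) F) * Sm.map (RingHom.id F) by rw [map_ringHom_id], ← gramForm_mulVec]
    have hmv : ∀ x, Sm *ᵥ x = g.symm (y x) := fun x => by
      rw [← Matrix.toLin'_apply, Matrix.toLin'_toMatrix']; rfl
    have hq' : ∀ x, gramForm (RingHom.id F) (G₂ : Matrix (Fin 4) (Fin 4) F) (g.symm x) (g.symm x) =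
        x (.inl 0) * x (.inr 0) + x (.inl 1) * x (.inr 1) := fun x => by
      have h1 := hg (g.symm x)
      rw [g.apply_symm_apply] at h1
      refine h1.symm.trans ?_
      simp [H4.qPlus, Fin.sum_univ_two]
    have h3 := hp' (g.symm (y x)) (g.symm (y x'))
    simp only [QuadraticMap.polar, ← map_add, hq'] at h3
    rw [hmv, hmv]
    refine mul_left_cancel₀ h2 (h3.symm.trans ?_)
    rw [gramForm_smul_gram, mul_inv_cancel_left₀ h2]
    simp [y, K, gramForm, dotProduct, Matrix.mulVec, tens_apply, altTwo, Fin.sum_univ_four, e4,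
      finProdFinEquiv, Fin.divNat, Fin.modNat]
    ring
  have hKdet : K.det = 1 := by
    rw [det_tens]
    simp [altTwo, Matrix.det_fin_two]
  have hSdet : Sm.det ≠ 0 := fun h0 => by
    have := congrArg Matrix.det hSK
    rw [Matrix.det_mul, h0, mul_zero, Matrix.det_smul, hKdet, mul_one] at this
    exact pow_ne_zero _ (inv_ne_zero h2) this.symm
  let S : GL (Fin 4) F := Matrix.GeneralLinearGroup.mkOfDetNeZero Sm hSdet
  have hSval : (S : Matrix (Fin 4) (Fin 4) F) = Sm := rfl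
  let PS : GL (Fin 12) F := P * tensUnit e 1 S
  have hPS : (polarData hQ).gramAt PS =
      tens e ((2⁻¹ : F) • (G₁ : Matrix (Fin 3) (Fin 3) F)) K := by
    rw [FormData.gramAt_mul, hgram]
    show (tens e ((1 : GL (Fin 3) F) : Matrix (Fin 3) (Fin 3) F) Sm)ᵀ * _ *
      (tens e ((1 : GL (Fin 3) F) : Matrix (Fin 3) (Fin 3) F) Sm).map (RingHom.id F) = _
    rw [map_ringHom_id, Units.val_one, tens_transpose, Matrix.transpose_one, tens_mul, tens_mul, one_mul, mul_one,
      hSK, tens_smul_right, tens_smul_left]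
  let e' : Fin 12 ≃ Fin 2 × Fin 6 :=
    (e.trans ((Equiv.refl (Fin 3)).prodCongr e4)).trans
      { toFun := fun p => (p.2.1, (finProdFinEquiv (m := 3) (n := 2)) (p.1, p.2.2))
        invFun := fun p => (((finProdFinEquiv (m := 3) (n := 2)).symm p.2).1,
          (p.1, ((finProdFinEquiv (m := 3) (n := 2)).symm p.2).2))
        left_inv := fun p => by simp
        right_inv := fun p => by simp }
  let k6 : Fin 6 ≃ Fin 3 × Fin 2 := (finProdFinEquiv (m := 3) (n := 2)).symm
  have hre : ∀ (A : Matrix (Fin 3) (Fin 3) F) (U V : Matrix (Fin 2) (Fin 2) F),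
      tens e A (tens e4 U V) = tens e' U (tens k6 A V) := fun A U V => Matrix.ext fun p q => by
    simp only [tens_apply, e', k6, Equiv.trans_apply, Equiv.prodCongr_apply, Prod.map, Equiv.coe_fn_mk,
      Equiv.refl_apply, Equiv.symm_apply_apply]
    ring
  have hJu : IsUnit (altTwo F) := (Matrix.isUnit_iff_isUnit_det _).2 (by simp [altTwo, Matrix.det_fin_two])
  let J : GL (Fin 2) F := hJu.unit
  let G₁' : GL (Fin 3) F := scl (Units.mk0 (2⁻¹ : F) (inv_ne_zero h2)) * G₁
  have hG₁' : (G₁' : Matrix (Fin 3) (Fin 3) F) = (2⁻¹ : F) • (G₁ : Matrix (Fin 3) (Fin 3) F) := by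
    rw [coe_scl_mul]; rfl
  let G : GL (Fin 6) F := tensUnit k6 G₁' J
  have hGval : (G : Matrix (Fin 6) (Fin 6) F) = tens k6 ((2⁻¹ : F) • (G₁ : Matrix (Fin 3) (Fin 3) F)) (altTwo F) := by
    rw [← hG₁']; rfl
  have hJt : (altTwo F)ᵀ = -altTwo F := by ext i j; fin_cases i <;> fin_cases j <;> simp [altTwo]
  refine ⟨e', PS, J, G, ?_, gramForm_symplectic h2 (Units.isUnit J) hJt,
    gramForm_symplectic h2 (Units.isUnit G) ?_, fun h hh => ?_⟩
  · rw [hPS, hGval]
    exact hre _ _ _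
  · rw [hGval, tens_transpose, hJt, Matrix.transpose_smul, hG₁, ← neg_one_smul F (altTwo F), tens_smul_right,
      neg_one_smul]
  obtain ⟨a, b, x, hx0, hab, ha, hb⟩ := factor_of_tensor hQ hH G₁ G₂ hgram hle hh
  have hda : (a : Matrix (Fin 3) (Fin 3) F).det ^ 2 = x ^ 3 := by
    have := congrArg Matrix.det ha
    rw [Matrix.det_mul, Matrix.det_mul, Matrix.det_transpose, Matrix.det_smul, Fintype.card_fin] at this
    exact mul_right_cancel₀ (Matrix.GeneralLinearGroup.det_ne_zero G₁) (by linear_combination this)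
  have hdb : (b : Matrix (Fin 4) (Fin 4) F).det ^ 2 = x⁻¹ ^ 4 := by
    have := congrArg Matrix.det hb
    rw [Matrix.det_mul, Matrix.det_mul, Matrix.det_transpose, Matrix.det_smul, Fintype.card_fin] at this
    exact mul_right_cancel₀ (Matrix.GeneralLinearGroup.det_ne_zero G₂) (by linear_combination this)
  have hdh : (a : Matrix (Fin 3) (Fin 3) F).det ^ 4 * (b : Matrix (Fin 4) (Fin 4) F).det ^ 3 = 1 := by
    have := congrArg Matrix.det hab
    rw [det_tens, Units.val_mul, Units.val_mul, Matrix.det_mul, Matrix.det_mul, det_of_mem_omega (hH hh),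
      mul_one, ← Matrix.det_mul, ← Units.val_mul, inv_mul_cancel, Units.val_one, Matrix.det_one] at this
    exact this.symm
  set μ := (a : Matrix (Fin 3) (Fin 3) F).det / x with hμ
  have hμ2 : μ ^ 2 = x := by rw [hμ, div_pow, hda]; field_simp
  have hμ0 : μ ≠ 0 := div_ne_zero (Matrix.GeneralLinearGroup.det_ne_zero a) hx0
  let z : Fˣ := Units.mk0 μ hμ0
  let a' : GL (Fin 3) F := scl z⁻¹ * a
  let b' : GL (Fin 4) F := scl z * b
  have ha'v : (a' : Matrix (Fin 3) (Fin 3) F) = μ⁻¹ • (a : Matrix (Fin 3) (Fin 3) F) := by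
    rw [coe_scl_mul]; simp [z]
  have hb'v : (b' : Matrix (Fin 4) (Fin 4) F) = μ • (b : Matrix (Fin 4) (Fin 4) F) := by
    rw [coe_scl_mul]; rfl
  have htab : tens e (a : Matrix (Fin 3) (Fin 3) F) (b : Matrix (Fin 4) (Fin 4) F) =
      tens e (a' : Matrix (Fin 3) (Fin 3) F) (b' : Matrix (Fin 4) (Fin 4) F) := by
    rw [ha'v, hb'v, tens_smul_left, tens_smul_right, smul_smul, inv_mul_cancel₀ hμ0, one_smul]
  have hb'G : (b' : Matrix (Fin 4) (Fin 4) F)ᵀ * (G₂ : Matrix (Fin 4) (Fin 4) F) * (b' : Matrix (Fin 4) (Fin 4) F) =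
      (G₂ : Matrix (Fin 4) (Fin 4) F) := by
    rw [hb'v, Matrix.transpose_smul, smul_mul_assoc, smul_mul_assoc, mul_smul_comm, hb, smul_smul, smul_smul,
      ← sq, hμ2, mul_inv_cancel₀ hx0, one_smul]
  have hb'det : (b' : Matrix (Fin 4) (Fin 4) F).det = 1 := by
    rw [hb'v, Matrix.det_smul, Fintype.card_fin]
    set da := (a : Matrix (Fin 3) (Fin 3) F).det
    set db := (b : Matrix (Fin 4) (Fin 4) F).det
    have e1 : da ^ 4 = x ^ 6 := by linear_combination (da ^ 2 + x ^ 3) * hda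
    have e2 : db ^ 2 * x ^ 4 = 1 := by rw [hdb, ← mul_pow, inv_mul_cancel₀ hx0, one_pow]
    have e3 : μ ^ 4 = x ^ 2 := by linear_combination (μ ^ 2 + x) * hμ2
    linear_combination db * e3 + hdh - db ^ 3 * e1 - db * x ^ 2 * e2
  let T : GL (Fin 4) F := S⁻¹ * b' * S
  have hSS : (S : Matrix (Fin 4) (Fin 4) F) * (T : Matrix (Fin 4) (Fin 4) F) =
      (b' : Matrix (Fin 4) (Fin 4) F) * (S : Matrix (Fin 4) (Fin 4) F) := by
    rw [← Units.val_mul, ← Units.val_mul]
    simp [T, mul_assoc]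
  have hTK : (T : Matrix (Fin 4) (Fin 4) F)ᵀ * K * (T : Matrix (Fin 4) (Fin 4) F) = K := by
    apply smul_right_injective _ (inv_ne_zero h2)
    show (2⁻¹ : F) • _ = (2⁻¹ : F) • K
    rw [← smul_mul_assoc, ← mul_smul_comm, ← hSK, ← hSval]
    calc (T : Matrix (Fin 4) (Fin 4) F)ᵀ * ((S : Matrix (Fin 4) (Fin 4) F)ᵀ * (G₂ : Matrix (Fin 4) (Fin 4) F) * (S : Matrix (Fin 4) (Fin 4) F)) * (T : Matrix (Fin 4) (Fin 4) F)
        = ((S : Matrix (Fin 4) (Fin 4) F) * (T : Matrix (Fin 4) (Fin 4) F))ᵀ * (G₂ : Matrix (Fin 4) (Fin 4) F) * ((S : Matrix (Fin 4) (Fin 4) F) * (T : Matrix (Fin 4) (Fin 4) F)) := by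
          rw [Matrix.transpose_mul]; simp only [mul_assoc]
      _ = (S : Matrix (Fin 4) (Fin 4) F)ᵀ * ((b' : Matrix (Fin 4) (Fin 4) F)ᵀ * (G₂ : Matrix (Fin 4) (Fin 4) F) * (b' : Matrix (Fin 4) (Fin 4) F)) * (S : Matrix (Fin 4) (Fin 4) F) := by
          rw [hSS, Matrix.transpose_mul]; simp only [mul_assoc]
      _ = _ := by rw [hb'G]
  have hTdet : (T : Matrix (Fin 4) (Fin 4) F).det = 1 := by
    have := congrArg Matrix.det hSS
    rw [Matrix.det_mul, Matrix.det_mul, hb'det, one_mul] at this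
    exact (mul_eq_left₀ (Matrix.GeneralLinearGroup.det_ne_zero S)).1 this
  let Tk := Matrix.reindexAlgEquiv F F e4 (T : Matrix (Fin 4) (Fin 4) F)
  obtain ⟨U, V, hUV⟩ := kron_of_fixes h2 Tk
    (by
      have := congrArg (Matrix.reindexAlgEquiv F F e4) hTK
      rw [map_mul, map_mul] at this
      rw [show altTwo F ⊗ₖ altTwo F = Matrix.reindexAlgEquiv F F e4 K by
        rw [← Matrix.reindexAlgEquiv_symm]; exact ((Matrix.reindexAlgEquiv F F e4).apply_symm_apply _).symm]
      exact this)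
    ((Matrix.det_reindexAlgEquiv F F e4 _).trans hTdet)
  have hTv : (T : Matrix (Fin 4) (Fin 4) F) = tens e4 U V := by
    rw [tens, ← hUV, ← Matrix.reindexAlgEquiv_symm]
    exact ((Matrix.reindexAlgEquiv F F e4).symm_apply_apply _).symm
  have hUd : U.det ≠ 0 ∧ V.det ≠ 0 := by
    rw [hTv, det_tens] at hTdet
    exact ⟨fun h0 => by simp [h0] at hTdet, fun h0 => by simp [h0] at hTdet⟩
  refine mem_tensorProductSubgroup_iff.2 ⟨Matrix.GeneralLinearGroup.mkOfDetNeZero U hUd.1,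
    tensUnit k6 a' (Matrix.GeneralLinearGroup.mkOfDetNeZero V hUd.2), ?_⟩
  have h1 : (h : Matrix (Fin 12) (Fin 12) F) * (PS : Matrix (Fin 12) (Fin 12) F) =
      (PS : Matrix (Fin 12) (Fin 12) F) * tens e (a' : Matrix (Fin 3) (Fin 3) F) (T : Matrix (Fin 4) (Fin 4) F) := by
    show (h : Matrix (Fin 12) (Fin 12) F) * ((P : Matrix (Fin 12) (Fin 12) F) *
        tens e ((1 : GL (Fin 3) F) : Matrix (Fin 3) (Fin 3) F) (S : Matrix (Fin 4) (Fin 4) F)) =
      (P : Matrix (Fin 12) (Fin 12) F) * tens e ((1 : GL (Fin 3) F) : Matrix (Fin 3) (Fin 3) F)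
        (S : Matrix (Fin 4) (Fin 4) F) * _
    rw [mul_assoc, tens_mul, Units.val_one, one_mul, hSS, ← mul_one (a' : Matrix (Fin 3) (Fin 3) F), ← tens_mul,
      ← htab, ← hab, ← mul_assoc, ← mul_assoc, ← Units.val_mul, ← Units.val_mul]
    simp [mul_assoc]
  show (h : Matrix (Fin 12) (Fin 12) F) = (PS : Matrix (Fin 12) (Fin 12) F) *
    tens e' U (tens k6 (a' : Matrix (Fin 3) (Fin 3) F) V) * _
  rw [← hre, ← hTv, ← h1, mul_assoc, ← Units.val_mul, mul_inv_cancel, Units.val_one, mul_one]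

end Cfsg.Agent.H6.OEven
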