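import Cfsg.Agent.H6.OEven.Frame
import Mathlib.FieldTheory.Finite.Extension

/-!
Subfield groups: the quadratic form is rational, and a subfield of index two gives plus type.
-/

set_option autoImplicit false
set_option linter.unusedSectionVars false

open scoped MatrixGroups Matrix

namespace Cfsg.Agent.H6.OEven

open Cfsg.Geo Cfsg.Agent.H99.Asch

variable {n : ℕ} {F : Type*} [Field F] [Fintype F] {Q : (Fin n → F) → F}
  {H : Subgroup (GL (Fin n) F)}

section Rational

variable (F₀ : Subfield F)

/-- The rational points of a frame. -/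
def ratVec (P : GL (Fin n) F) (u : Fin n → F₀) : Fin n → F :=
  (P : Matrix (Fin n) (Fin n) F) *ᵥ fun i => ((u i : F₀) : F)

lemma ratVec_add (P : GL (Fin n) F) (u v : Fin n → F₀) :
    ratVec F₀ P (u + v) = ratVec F₀ P u + ratVec F₀ P v := by
  rw [ratVec, ratVec, ratVec, ← Matrix.mulVec_add]
  congr 1

lemma ratVec_smul (P : GL (Fin n) F) (c : F₀) (u : Fin n → F₀) :
    ratVec F₀ P (c • u) = (c : F) • ratVec F₀ P u := by
  rw [ratVec, ratVec, ← Matrix.mulVec_smul]
  congr 1

lemma ratVec_injective (P : GL (Fin n) F) : Function.Injective (ratVec F₀ P) := by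
  intro u v h
  funext i
  exact Subtype.ext (congrFun (Matrix.mulVec_injective_of_isUnit (Units.isUnit P) h) i)

end Rational

/-- The frame of a subfield group may be taken rational for the quadratic form. -/
theorem quad_rational (hQ : IsNondegenerateQuadraticForm Q) (hn : 2 ≤ n) (hH : H ≤ omegaGL Q)
    (hirr : ActsIrreducibly (matrixSet H)) {F₁ : Subfield F} {P : GL (Fin n) F} {ζ : F} (hζ : ζ ≠ 0)
    (hent : EntriesIn F₁ (ζ • (polarData hQ).gramAt P)) (hle : H ≤ subfieldSubgroup F₁ P) :
    IsQuadFormRationalStructure (fun v : Fin n → F => ζ * Q v) F₁ P := by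
  classical
  haveI : Nonempty (Fin n) := ⟨⟨0, by omega⟩⟩
  set g := ζ • (polarData hQ).gramAt P with hg
  have hpol : ∀ a b : Fin n → F, ζ * QuadraticMap.polar Q ((P : Matrix (Fin n) (Fin n) F) *ᵥ a)
      ((P : Matrix (Fin n) (Fin n) F) *ᵥ b) = ∑ i, a i * ∑ j, g i j * b j := by
    intro a b
    rw [← polarData_form hQ, (polarData hQ).form_gramAt, polarData_σ, ← gramForm_smul_gram]
    rfl
  have hrat : ∀ a b : Fin n → F, (∀ i, a i ∈ F₁) → (∀ i, b i ∈ F₁) →
      ζ * QuadraticMap.polar Q ((P : Matrix (Fin n) (Fin n) F) *ᵥ a) ((P : Matrix (Fin n) (Fin n) F) *ᵥ b) ∈ F₁ :=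
    fun a b ha hb => by
      rw [hpol]
      exact sum_mem fun i _ => mul_mem (ha i) (sum_mem fun j _ => mul_mem (hent i j) (hb j))
  rcases card_parity (F := F) with hq | h2
  · intro u hu
    have h2 := two_ne_zero_of_card_odd hq
    show ζ * Q _ ∈ F₁
    rw [show ζ * Q ((P : Matrix (Fin n) (Fin n) F) *ᵥ u) = (2 : F)⁻¹ * (ζ * QuadraticMap.polar Q
      ((P : Matrix (Fin n) (Fin n) F) *ᵥ u) ((P : Matrix (Fin n) (Fin n) F) *ᵥ u)) by
        rw [polar_self hQ]; field_simp]
    exact mul_mem (inv_mem (ofNat_mem _ 2)) (hrat u u hu hu)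
  · let Φ : (Fin n → F₁) → (F ⧸ F₁.toSubring.toAddSubgroup) := fun u =>
      QuotientAddGroup.mk (ζ * Q (ratVec F₁ P u))
    haveI := CharTwo.of_one_ne_zero_of_two_eq_zero (R := F) one_ne_zero h2
    -- a rational matrix with the same effect on the quadratic form
    have hcol : ∀ h ∈ H, ∃ y : Matrix (Fin n) (Fin n) F₁, ∀ w : Fin n → F,
        (h : Matrix (Fin n) (Fin n) F) *ᵥ ((P : Matrix (Fin n) (Fin n) F) *ᵥ w) =
          (P : Matrix (Fin n) (Fin n) F) *ᵥ (y.map (F₁.subtype) *ᵥ w) := by
      intro h hh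
      obtain ⟨x, hx, hxh⟩ := hle hh
      obtain ⟨_, ⟨y, rfl⟩, z, hz, rfl⟩ := Subgroup.mem_sup_of_normal_right.1 hx
      obtain ⟨c, hc⟩ := (mem_scalars_iff z).1 hz
      have e : ∀ w : Fin n → F, (h : Matrix (Fin n) (Fin n) F) *ᵥ ((P : Matrix (Fin n) (Fin n) F) *ᵥ w) =
          (c : F) • ((P : Matrix (Fin n) (Fin n) F) *ᵥ (((y : Matrix (Fin n) (Fin n) F₁).map F₁.subtype) *ᵥ w)) := by
        intro w
        rw [← hxh]
        show ((P * (Matrix.GeneralLinearGroup.map (F₁.subtype : F₁ →+* F) y * z) * P⁻¹ : GL (Fin n) F) :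
          Matrix (Fin n) (Fin n) F) *ᵥ _ = _
        rw [Matrix.mulVec_mulVec, ← Units.val_mul, inv_mul_cancel_right, Units.val_mul, Units.val_mul, hc,
          Matrix.mul_smul, mul_one, Matrix.mul_smul, Matrix.smul_mulVec, ← Matrix.mulVec_mulVec]
        rfl
      -- the scalar lies in the subfield
      have hc1 : (c : F) ∈ F₁ := by
        obtain ⟨i, j, hij⟩ : ∃ i j, g i j ≠ 0 := by
          by_contra hcon
          push Not at hcon
          obtain ⟨⟨a, ha⟩, -⟩ := hQ.nondegenerate ((P : Matrix (Fin n) (Fin n) F) *ᵥ Pi.single (⟨0, by omega⟩ : Fin n) 1)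
            (fun h0 => by
              have := Matrix.mulVec_injective_of_isUnit (Units.isUnit P) (h0.trans (Matrix.mulVec_zero _).symm)
              simp at this)
          apply ha
          refine (mul_eq_zero.1 ?_).resolve_left hζ
          rw [← show (P : Matrix (Fin n) (Fin n) F) *ᵥ (((P⁻¹ : GL (Fin n) F) : Matrix (Fin n) (Fin n) F) *ᵥ a) = a
            by rw [Matrix.mulVec_mulVec, ← Units.val_mul, mul_inv_cancel, Units.val_one, Matrix.one_mulVec], hpol]
          simp [hcon]
        let si : Fin n → F := Pi.single i 1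
        let sj : Fin n → F := Pi.single j 1
        have hsi : ∀ (k l : Fin n), (Pi.single k (1 : F) : Fin n → F) l ∈ F₁ := fun k l => by
          rw [Pi.single_apply]; split_ifs
          · exact one_mem _
          · exact zero_mem _
        have hs : ζ * QuadraticMap.polar Q ((P : Matrix (Fin n) (Fin n) F) *ᵥ si)
            ((P : Matrix (Fin n) (Fin n) F) *ᵥ sj) = g i j := by
          rw [hpol]; simp [si, sj, Pi.single_apply]
        have hy : ∀ (k l : Fin n), (((y : Matrix (Fin n) (Fin n) F₁).map F₁.subtype) *ᵥ Pi.single k 1) l ∈ F₁ :=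
          fun k l => by simp [Matrix.mulVec_single]
        have h1 := polar_of_mem_omega (hH hh) ((P : Matrix (Fin n) (Fin n) F) *ᵥ si)
          ((P : Matrix (Fin n) (Fin n) F) *ᵥ sj)
        rw [e, e, hQ.polar_bilinear.smul_left, hQ.polar_bilinear.smul_right] at h1
        have h3 := congrArg (fun x => ζ * x) h1
        simp only [hs] at h3
        rw [mul_left_comm, mul_left_comm ζ, ← mul_assoc] at h3
        have h4 : (c : F) * c ∈ F₁ := by
          have hb := hrat _ _ (hy i) (hy j)
          rw [show (c : F) * c = g i j * (ζ * QuadraticMap.polar Q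
            ((P : Matrix (Fin n) (Fin n) F) *ᵥ (((y : Matrix (Fin n) (Fin n) F₁).map F₁.subtype) *ᵥ si))
            ((P : Matrix (Fin n) (Fin n) F) *ᵥ (((y : Matrix (Fin n) (Fin n) F₁).map F₁.subtype) *ᵥ sj)))⁻¹ by
              rw [← h3, mul_inv_cancel_right₀]
              intro h0
              rw [h0, mul_zero] at h3
              exact hij h3.symm]
          exact mul_mem (hent i j) (inv_mem hb)
        haveI : CharP F₁ 2 := CharTwo.of_one_ne_zero_of_two_eq_zero one_ne_zero (Subtype.ext h2)
        obtain ⟨t, ht⟩ := FiniteField.isSquare_of_char_two (ringChar.eq F₁ 2) (⟨_, h4⟩ : F₁)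
        have h5 : (t : F) * t = (c : F) * c := (congrArg Subtype.val ht).symm
        rcases mul_self_eq_mul_self_iff.1 h5 with h6 | h6
        · exact h6 ▸ t.2
        · rw [CharTwo.neg_eq] at h6
          exact h6 ▸ t.2
      refine ⟨(⟨(c : F), hc1⟩ : F₁) • (y : Matrix (Fin n) (Fin n) F₁), fun w => ?_⟩
      rw [e, ← Matrix.mulVec_smul, ← Matrix.smul_mulVec]
      congr 2
    -- every functional of the quotient kills the residue
    intro u hu
    by_contra hne
    let M : Submodule F₁ F := LinearMap.range (Algebra.linearMap F₁ F)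
    have hmemM : ∀ x : F, x ∈ M ↔ x ∈ F₁ := fun x => by
      constructor
      · rintro ⟨a, rfl⟩; exact a.2
      · exact fun hx => ⟨⟨x, hx⟩, rfl⟩
    have hne' : ζ * Q ((P : Matrix (Fin n) (Fin n) F) *ᵥ u) ∉ M := fun h => hne ((hmemM _).1 h)
    obtain ⟨π, hπ, hπM⟩ := Submodule.exists_le_ker_of_lt_top M
      (lt_top_iff_ne_top.2 fun hM => hne' (hM ▸ Submodule.mem_top))
    obtain ⟨π, hπv, hπM⟩ : ∃ π : F →ₗ[F₁] F₁, π (ζ * Q ((P : Matrix (Fin n) (Fin n) F) *ᵥ u)) ≠ 0 ∧
        ∀ x ∈ M, π x = 0 := by
      obtain ⟨π, h1, h2⟩ := Submodule.exists_dual_map_eq_bot_of_notMem hne' inferInstance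
      refine ⟨π, h1, fun x hx => ?_⟩
      have : π x ∈ M.map π := ⟨x, hx, rfl⟩
      rwa [h2, Submodule.mem_bot] at this
    let ψ : (Fin n → F₁) → F₁ := fun a => π (ζ * Q (ratVec F₁ P a))
    have hψadd : ∀ a b, ψ (a + b) = ψ a + ψ b := by
      intro a b
      show π _ = π _ + π _
      rw [ratVec_add, qf_add hQ, mul_add, mul_add, map_add, map_add,
        hπM (ζ * QuadraticMap.polar Q (ratVec F₁ P a) (ratVec F₁ P b))
          ((hmemM _).2 (hrat _ _ (fun i => (a i).2) fun i => (b i).2)), add_zero]
    have hψsmul : ∀ (c : F₁) a, ψ (c • a) = c ^ 2 * ψ a := by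
      intro c a
      show π _ = c ^ 2 * π _
      rw [ratVec_smul, hQ.smul, mul_left_comm, show ((c : F) ^ 2 * (ζ * Q (ratVec F₁ P a))) =
        (c ^ 2 : F₁) • (ζ * Q (ratVec F₁ P a)) from rfl, map_smul, smul_eq_mul]
    -- the semilinear functional is a squared dot product
    haveI : CharP F₁ 2 := CharTwo.of_one_ne_zero_of_two_eq_zero one_ne_zero (Subtype.ext h2)
    have hsq : ∀ x : F₁, ∃ t, x = t * t := fun x => FiniteField.isSquare_of_char_two (ringChar.eq F₁ 2) x
    choose a ha using fun i => hsq (ψ (Pi.single i 1))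
    have hψ : ∀ b, ψ b = (∑ i, a i * b i) * ∑ i, a i * b i := by
      let d : (Fin n → F₁) →+ F₁ := AddMonoidHom.mk' ψ hψadd
      intro b
      have h1 : ψ b = ∑ i, b i ^ 2 * (a i * a i) := by
        conv_lhs => rw [pi_eq_sum_univ' b]
        rw [show ψ (∑ i, b i • (Pi.single i (1 : F₁) : Fin n → F₁)) =
          ∑ i, ψ (b i • (Pi.single i (1 : F₁) : Fin n → F₁)) from map_sum d _ _]
        exact Finset.sum_congr rfl fun i _ => by rw [hψsmul, ← ha i]
      rw [h1, ← sq, CharTwo.sum_sq]
      exact Finset.sum_congr rfl fun i _ => by ring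
    -- its linear form gives an invariant hyperplane
    let af : (Fin n → F) → F := fun v => ∑ i, (a i : F) * (((P⁻¹ : GL (Fin n) F) : Matrix (Fin n) (Fin n) F) *ᵥ v) i
    have haf : ∀ w, af ((P : Matrix (Fin n) (Fin n) F) *ᵥ w) = ∑ i, (a i : F) * w i := fun w => by
      simp only [af, Matrix.mulVec_mulVec, ← Units.val_mul, inv_mul_cancel, Units.val_one, Matrix.one_mulVec]
    have hinv : ∀ h ∈ H, ∀ v, af ((h : Matrix (Fin n) (Fin n) F) *ᵥ v) = af v := by
      intro h hh v
      obtain ⟨y, hy⟩ := hcol h hh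
      obtain ⟨w, rfl⟩ : ∃ w, (P : Matrix (Fin n) (Fin n) F) *ᵥ w = v :=
        ⟨((P⁻¹ : GL (Fin n) F) : Matrix (Fin n) (Fin n) F) *ᵥ v, by
          rw [Matrix.mulVec_mulVec, ← Units.val_mul, mul_inv_cancel, Units.val_one, Matrix.one_mulVec]⟩
      rw [hy, haf, haf]
      have hy1 : ∀ k, ∑ i, a i * y i k = a k := by
        intro k
        have h1 : ψ (y *ᵥ Pi.single k 1) = ψ (Pi.single k 1) := by
          show π _ = π _
          congr 2
          have e : ratVec F₁ P (y *ᵥ Pi.single k 1) =
              (h : Matrix (Fin n) (Fin n) F) *ᵥ ratVec F₁ P (Pi.single k 1) := by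
            rw [ratVec, ratVec, hy]
            congr 1
            funext i
            simp [Matrix.mulVec_single, Pi.single_apply, apply_ite, Matrix.mulVec, dotProduct]
          rw [e, isometry_of_mem_omega (hH hh)]
        rw [hψ, hψ] at h1
        have h2' : (∑ i, a i * (y *ᵥ Pi.single k 1) i) = ∑ i, a i * (Pi.single k 1 : Fin n → F₁) i := by
          rcases mul_self_eq_mul_self_iff.1 h1 with h6 | h6
          · exact h6
          · rwa [CharTwo.neg_eq] at h6
        simpa [Matrix.mulVec_single, Pi.single_apply] using h2'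
      simp only [Matrix.mulVec, dotProduct, Matrix.map_apply, Finset.mul_sum]
      rw [Finset.sum_comm]
      refine Finset.sum_congr rfl fun k _ => ?_
      rw [← hy1 k, AddSubmonoidClass.coe_finsetSum, Finset.sum_mul]
      refine Finset.sum_congr rfl fun i _ => ?_
      push_cast
      simp [mul_assoc]
    let W : Submodule F (Fin n → F) :=
      { carrier := {v | af v = 0}
        add_mem' := fun {x y} hx hy => by
          show af (x + y) = 0
          simp only [af, Matrix.mulVec_add, Pi.add_apply, mul_add, Finset.sum_add_distrib]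
          exact (congrArg₂ (· + ·) hx hy).trans (add_zero 0)
        zero_mem' := by show af 0 = 0; simp [af]
        smul_mem' := fun c v hv => by
          show af (c • v) = 0
          rw [show af (c • v) = c * af v by
            simp only [af, Matrix.mulVec_smul, Pi.smul_apply, smul_eq_mul, Finset.mul_sum]
            exact Finset.sum_congr rfl fun i _ => by ring, show af v = 0 from hv, mul_zero] }
    have hW : IsInv (matrixSet H) W := by
      rintro _ ⟨h, hh, rfl⟩ v hv
      show af _ = 0
      rw [hinv h hh]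
      exact hv
    rcases actsIrreducibly_iff.1 hirr W hW with h0 | h0
    · let L : (Fin n → F) →ₗ[F] F :=
        { toFun := af
          map_add' := fun x y => by simp only [af, Matrix.mulVec_add, Pi.add_apply, mul_add, Finset.sum_add_distrib]
          map_smul' := fun c v => by
            simp only [af, Matrix.mulVec_smul, Pi.smul_apply, smul_eq_mul, Finset.mul_sum, RingHom.id_apply]
            exact Finset.sum_congr rfl fun i _ => by ring }
      have hinj : LinearMap.ker L = ⊥ := h0
      have := LinearMap.finrank_le_finrank_of_injective (LinearMap.ker_eq_bot.1 hinj)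
      simp at this
      omega
    · apply hπv
      have hz : ∀ i, a i = 0 := fun i => by
        have h1 : af ((P : Matrix (Fin n) (Fin n) F) *ᵥ Pi.single i 1) = 0 :=
          (h0 ▸ Submodule.mem_top : (P : Matrix (Fin n) (Fin n) F) *ᵥ Pi.single i 1 ∈ W)
        rw [haf] at h1
        simpa [Pi.single_apply] using h1
      have h1 := hψ fun i => ⟨u i, hu i⟩
      simp only [hz, zero_mul, Finset.sum_const_zero, mul_zero] at h1
      exact h1

/-- The subfield alternative gives a rational structure for the quadratic form. -/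
theorem subfield_cases (hQ : IsNondegenerateQuadraticForm Q) (hn : 2 ≤ n) (hH : H ≤ omegaGL Q)
    (hirr : ActsIrreducibly (matrixSet H)) (h : InFormSubfield (polarData hQ) H) :
    ∃ (F₀ : Subfield F) (r : ℕ) (P : GL (Fin n) F) (ζ : F), r.Prime ∧ Fintype.card F = Nat.card F₀ ^ r ∧
      ζ ≠ 0 ∧ IsQuadFormRationalStructure (fun v : Fin n → F => ζ * Q v) F₀ P ∧ H ≤ subfieldSubgroup F₀ P := by
  obtain ⟨F₁, r, P, ζ, hr, hc, hζ, hent, hle⟩ := h
  exact ⟨F₁, r, P, ζ, hr, hc, hζ, quad_rational hQ hn hH hirr hζ hent hle, hle⟩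

/-- Quadratic polynomials over a subfield of index two have roots. -/
lemma root_of_index_two {F₀ : Subfield F} (hc : Fintype.card F = Nat.card F₀ ^ 2) (a b : F₀) :
    ∃ t : F, t ^ 2 + (a : F) * t + b = 0 := by
  classical
  open Polynomial in
  by_contra hne
  push Not at hne
  let f : Polynomial F₀ := Polynomial.X ^ 2 + Polynomial.C a * Polynomial.X + Polynomial.C b
  have hm : f.Monic := by
    show (Polynomial.X ^ 2 + Polynomial.C a * Polynomial.X + Polynomial.C b).Monic
    monicity!
  have hd : f.natDegree = 2 := by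
    show (Polynomial.X ^ 2 + Polynomial.C a * Polynomial.X + Polynomial.C b).natDegree = 2
    compute_degree!
  have hirr : Irreducible f := by
    refine (Polynomial.irreducible_iff_roots_eq_zero_of_degree_le_three (by omega) (by omega)).2 ?_
    refine Multiset.eq_zero_of_forall_notMem fun t ht => ?_
    rw [Polynomial.mem_roots hm.ne_zero] at ht
    apply hne (t : F)
    have h1 := congrArg (Subtype.val : F₀ → F) ht
    simpa [f] using h1
  have hdvd : f ∣ Polynomial.X ^ Nat.card F₀ ^ 2 - Polynomial.X :=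
    (Irreducible.natDegree_dvd_iff_dvd_X_pow_card_pow_sub_X hirr).1 (by rw [hd])
  have hs : ((Polynomial.X ^ Nat.card F₀ ^ 2 - Polynomial.X : Polynomial F₀).map F₀.subtype).Splits := by
    rw [Polynomial.map_sub, Polynomial.map_pow, Polynomial.map_X, ← hc]
    rw [← Nat.card_eq_fintype_card]
    exact Polynomial.splits_X_pow_nat_card_sub_X
  have hs' : (f.map F₀.subtype).Splits := by
    refine Polynomial.Splits.of_dvd hs ?_ (Polynomial.map_dvd _ hdvd)
    refine (Polynomial.map_ne_zero_iff F₀.subtype.injective).2 (FiniteField.X_pow_card_pow_sub_X_ne_zero _ (by omega) ?_)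
    exact Finite.one_lt_card
  obtain ⟨t, ht⟩ := hs'.exists_eval_eq_zero (by
    rw [Polynomial.degree_map, Polynomial.degree_eq_natDegree hm.ne_zero, hd]
    decide)
  apply hne t
  simpa [f] using ht

lemma plus_of_family {κ : Type*} [Fintype κ] (hQ : IsNondegenerateQuadraticForm Q) (g : κ → Fin n → F)
    (hli : LinearIndependent F g) (hq : ∀ i, Q (g i) = 0)
    (hp : ∀ i j, QuadraticMap.polar Q (g i) (g j) = 0) (hk : 2 * Fintype.card κ = n) : IsPlusTypeOn Q ⊤ :=
  plus_of_singular_half (U := Submodule.span F (Set.range g))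
    (fun z hz => H4.singular_span (Q := qf hQ) (e := g) hq hp hz)
    (by rw [finrank_span_eq_card hli, hk])

/-- A rational structure over a subfield of index two makes the form of plus type. -/
theorem plus_of_index_two (hQ : IsNondegenerateQuadraticForm Q) {m : ℕ} (hn : n = 2 * m)
    {F₀ : Subfield F} (hc : Fintype.card F = Nat.card F₀ ^ 2) {P : GL (Fin n) F} {ζ : F} (hζ : ζ ≠ 0)
    (hrat : IsQuadFormRationalStructure (fun v : Fin n → F => ζ * Q v) F₀ P) : IsPlusTypeOn Q ⊤ := by
  classical
  have hpol : ∀ a b : Fin n → F₀, ζ * QuadraticMap.polar Q (ratVec F₀ P a) (ratVec F₀ P b) ∈ F₀ := by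
    intro a b
    rw [QuadraticMap.polar, mul_sub, mul_sub, ← ratVec_add]
    exact sub_mem (sub_mem (hrat _ fun i => ((a + b) i).2) (hrat _ fun i => (a i).2)) (hrat _ fun i => (b i).2)
  rcases card_parity (F := F) with hq | h2
  · have h2 := two_ne_zero_of_card_odd hq
    rw [plus_iff_det_gramAt hQ h2 hn P]
    have hd : (ζ • (polarData hQ).gramAt P).det ∈ F₀ := by
      rw [Matrix.det_apply]
      refine sum_mem fun σ _ => ?_
      rw [Units.smul_def, zsmul_eq_mul]
      refine mul_mem (intCast_mem _ _) (prod_mem fun i _ => ?_)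
      rw [Matrix.smul_apply, smul_eq_mul, gramAt_apply]
      have hs : ∀ k : Fin n, (fun i => (((Pi.single k 1 : Fin n → F₀) i : F₀) : F)) = Pi.single k 1 := fun k => by
        funext i; simp [Pi.single_apply, apply_ite]
      simpa [ratVec, hs] using hpol (Pi.single (σ i) 1) (Pi.single i 1)
    have hsq : ∀ x : F, x ∈ F₀ → IsSquare x := by
      intro x hx
      rcases eq_or_ne x 0 with rfl | hx0
      · exact IsSquare.zero
      haveI := Fintype.ofFinite F₀
      have hne : ringChar F ≠ 2 := fun e => h2 (by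
        haveI : CharP F 2 := (ringChar.eq_iff).1 e
        exact CharTwo.two_eq_zero)
      rw [FiniteField.isSquare_iff hne hx0]
      have hx1 : x ^ (Fintype.card F₀ - 1) = 1 := by
        have h1 := FiniteField.pow_card_sub_one_eq_one (⟨x, hx⟩ : F₀) (by simpa [Subtype.ext_iff] using hx0)
        simpa using congrArg Subtype.val h1
      rw [hc, Nat.card_eq_fintype_card]
      set q := Fintype.card F₀ with hq'
      have hodd : Odd q := by
        rw [hc, Nat.card_eq_fintype_card, ← hq'] at hq
        exact (Nat.odd_pow_iff two_ne_zero).1 hq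
      obtain ⟨j, hj⟩ := hodd
      rw [show q ^ 2 / 2 = (q - 1) * (j + 1) by
        rw [hj, show 2 * j + 1 - 1 = 2 * j by omega]
        rw [show (2 * j + 1) ^ 2 = 2 * (2 * j * (j + 1)) + 1 by ring]
        omega, pow_mul, hx1, one_pow]
    have h1 := hsq _ (mul_mem (pow_mem (neg_mem (one_mem _)) m) hd : (-1 : F) ^ m * _ ∈ F₀)
    rw [Matrix.det_smul, Fintype.card_fin, show ζ ^ n = ζ ^ m * ζ ^ m by rw [← pow_add, hn, two_mul],
      show ∀ a b c : F, a * (b * b * c) = a * c * (b * b) from fun a b c => by ring] at h1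
    exact (isSquare_mul_sq_iff (pow_ne_zero _ hζ)).1 h1
  · haveI := CharTwo.of_one_ne_zero_of_two_eq_zero (R := F) one_ne_zero h2
    let q₁ : (Fin n → F₀) → F₀ := fun u => ⟨ζ * Q (ratVec F₀ P u), hrat _ fun i => (u i).2⟩
    have hp₁ : ∀ a b, ((QuadraticMap.polar q₁ a b : F₀) : F) =
        ζ * QuadraticMap.polar Q (ratVec F₀ P a) (ratVec F₀ P b) := fun a b => by
      simp [QuadraticMap.polar, q₁, ratVec_add]
      ring
    have hq₁ : IsNondegenerateQuadraticForm q₁ := by
      refine ⟨fun c v => Subtype.ext ?_, ⟨fun x y v => ?_, fun c x v => ?_, fun v x y => ?_, fun c v x => ?_⟩,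
        fun v hv => ?_⟩
      · show ζ * Q _ = ((c ^ 2 : F₀) : F) * (ζ * Q _)
        rw [ratVec_smul, hQ.smul]; push_cast; ring
      iterate 4
        apply Subtype.ext
        push_cast [hp₁, ratVec_add, ratVec_smul, hQ.polar_bilinear.add_left, hQ.polar_bilinear.add_right,
          hQ.polar_bilinear.smul_left, hQ.polar_bilinear.smul_right]
        ring
      · have hv' : ratVec F₀ P v ≠ 0 := fun e => hv (ratVec_injective F₀ P (e.trans (by
          rw [ratVec, show (fun i : Fin n => (((0 : Fin n → F₀) i : F₀) : F)) = 0 from rfl, Matrix.mulVec_zero])))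
        have hex : ∃ x, QuadraticMap.polar q₁ x v ≠ 0 := by
          by_contra hcon
          push Not at hcon
          obtain ⟨⟨z, hz⟩, -⟩ := hQ.nondegenerate _ hv'
          apply hz
          have h0 : ∀ k, QuadraticMap.polar Q ((P : Matrix (Fin n) (Fin n) F) *ᵥ Pi.single k 1) (ratVec F₀ P v) = 0 := by
            intro k
            have h1 := congrArg (Subtype.val : F₀ → F) (hcon (Pi.single k 1))
            rw [hp₁] at h1
            have h3 : ratVec F₀ P (Pi.single k 1) = (P : Matrix (Fin n) (Fin n) F) *ᵥ Pi.single k 1 := by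
              rw [ratVec]; congr 1; funext i; simp [Pi.single_apply, apply_ite]
            rw [h3] at h1
            exact (mul_eq_zero.1 h1).resolve_left hζ
          have hz' : z = ∑ k, (((P⁻¹ : GL (Fin n) F) : Matrix (Fin n) (Fin n) F) *ᵥ z) k •
              ((P : Matrix (Fin n) (Fin n) F) *ᵥ Pi.single k 1) := by
            simp only [← Matrix.mulVec_smul, ← Matrix.mulVec_sum, ← pi_eq_sum_univ']
            rw [Matrix.mulVec_mulVec, ← Units.val_mul, mul_inv_cancel, Units.val_one, Matrix.one_mulVec]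
          rw [hz', ← H98.coe_qOfFun hQ, ← QuadraticMap.polarBilin_apply_apply, map_sum, LinearMap.sum_apply]
          refine Finset.sum_eq_zero fun k _ => ?_
          simp only [map_smul, LinearMap.smul_apply, QuadraticMap.polarBilin_apply_apply, H98.coe_qOfFun hQ, h0, smul_zero]
        obtain ⟨x, hx⟩ := hex
        exact ⟨⟨x, hx⟩, x, by rwa [QuadraticMap.polar_comm]⟩
    have hf : ⇑(qf hq₁) = q₁ := H98.coe_qOfFun hq₁
    obtain ⟨r, d, e, f, x, hef, hd, hli, hxe, hxf, hdim, haniso⟩ :=
      H4.exists_witt_decomposition (Q := qf hq₁) (qf_nondeg hq₁)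
    simp only [hf] at hxe hxf haniso
    rw [Module.finrank_fintype_fun_eq_card, Fintype.card_fin] at hdim
    let e' : Fin r → Fin n → F := fun i => ratVec F₀ P (e i)
    let f' : Fin r → Fin n → F := fun i => ratVec F₀ P (f i)
    have hq0 : ∀ u, q₁ u = 0 → Q (ratVec F₀ P u) = 0 := fun u hu =>
      (mul_eq_zero.1 (congrArg Subtype.val hu : ζ * Q _ = 0)).resolve_left hζ
    have hp0 : ∀ a b, QuadraticMap.polar q₁ a b = 0 → QuadraticMap.polar Q (ratVec F₀ P a) (ratVec F₀ P b) = 0 :=
      fun a b hab => (mul_eq_zero.1 ((hp₁ a b).symm.trans (congrArg Subtype.val hab))).resolve_left hζ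
    have hqe : ∀ i, Q (e' i) = 0 := fun i => hq0 _ (by rw [← hf]; exact hef.qe i)
    have hee : ∀ i j, QuadraticMap.polar Q (e' i) (e' j) = 0 := fun i j => hp0 _ _ (by rw [← hf]; exact hef.ee i j)
    have hef' : ∀ i j, QuadraticMap.polar Q (e' i) (f' j) = if i = j then ζ⁻¹ else 0 := by
      intro i j
      have h1 := congrArg (Subtype.val : F₀ → F) (hef.ef i j)
      rw [hf, hp₁] at h1
      rw [← inv_mul_cancel_left₀ hζ (QuadraticMap.polar Q (e' i) (f' j)), h1]
      split_ifs <;> simp
    have key : ∀ (c : Fin r → F) (j : Fin r), QuadraticMap.polar Q (∑ i, c i • e' i) (f' j) = c j * ζ⁻¹ := by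
      intro c j
      rw [← H98.coe_qOfFun hQ, ← QuadraticMap.polarBilin_apply_apply, map_sum, LinearMap.sum_apply]
      simp [hef', H98.coe_qOfFun hQ]
    rcases (by omega : d = 0 ∨ d = 2) with rfl | rfl
    · refine plus_of_family hQ e' (Fintype.linearIndependent_iff.2 fun c hc' j => ?_) hqe hee (by simp; omega)
      have := key c j
      rw [hc', ← H98.coe_qOfFun hQ, QuadraticMap.polar_zero_left] at this
      exact (mul_eq_zero.1 this.symm).resolve_right (inv_ne_zero hζ)
    · have hx0 : x 0 ≠ 0 := hli.ne_zero 0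
      have ha0 : q₁ (x 0) ≠ 0 := fun h0 => hx0 (haniso _ (Submodule.subset_span ⟨0, rfl⟩) h0)
      obtain ⟨t, ht⟩ := root_of_index_two hc (QuadraticMap.polar q₁ (x 0) (x 1) / q₁ (x 0)) (q₁ (x 1) / q₁ (x 0))
      set z := t • ratVec F₀ P (x 0) + ratVec F₀ P (x 1) with hz
      have hzQ : Q z = 0 := by
        refine (mul_eq_zero.1 ?_).resolve_left hζ
        have h3 : (q₁ (x 0) : F) ≠ 0 := fun h0 => ha0 (Subtype.ext h0)
        rw [hz, qf_add hQ, hQ.smul, hQ.polar_bilinear.smul_left]
        push_cast at ht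
        rw [hp₁] at ht
        have h4 : (q₁ (x 0) : F) = ζ * Q (ratVec F₀ P (x 0)) := rfl
        have h5 : (q₁ (x 1) : F) = ζ * Q (ratVec F₀ P (x 1)) := rfl
        rw [h4] at h3
        rw [h4, h5] at ht
        have hA : Q (ratVec F₀ P (x 0)) ≠ 0 := fun h0 => h3 (by rw [h0, mul_zero])
        have hdiv : ∀ A B C : F, A ≠ 0 → t ^ 2 + (ζ * B) / (ζ * A) * t + (ζ * C) / (ζ * A) = 0 →
            t ^ 2 * A + t * B + C = 0 := by
          intro A B C hA hh
          have h6 : t ^ 2 * A + t * B + C = (t ^ 2 + (ζ * B) / (ζ * A) * t + (ζ * C) / (ζ * A)) * A := by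
            field_simp
          rw [h6, hh, zero_mul]
        linear_combination ζ * hdiv _ _ _ hA ht
      have hze : ∀ i, QuadraticMap.polar Q z (e' i) = 0 ∧ QuadraticMap.polar Q z (f' i) = 0 := fun i => by
        constructor <;> rw [hz, hQ.polar_bilinear.add_left, hQ.polar_bilinear.smul_left]
        · rw [hp0 _ _ (hxe 0 i), hp0 _ _ (hxe 1 i), mul_zero, add_zero]
        · rw [hp0 _ _ (hxf 0 i), hp0 _ _ (hxf 1 i), mul_zero, add_zero]
      have hz0 : z ≠ 0 := by
        intro h0
        obtain ⟨k, hk⟩ : ∃ k, x 0 k ≠ 0 := by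
          by_contra hcon
          push Not at hcon
          exact hx0 (funext hcon)
        have h1 : ∀ i, t * ((x 0 i : F₀) : F) + ((x 1 i : F₀) : F) = 0 := by
          rw [hz, ratVec, ratVec, ← Matrix.mulVec_smul, ← Matrix.mulVec_add] at h0
          exact fun i => congrFun (Matrix.mulVec_injective_of_isUnit (Units.isUnit P)
            (h0.trans (Matrix.mulVec_zero _).symm)) i
        obtain ⟨s, rfl⟩ : ∃ s : F₀, (s : F) = t := by
          refine ⟨-(x 1 k) / x 0 k, ?_⟩
          have := h1 k
          have hk' : ((x 0 k : F₀) : F) ≠ 0 := fun h0 => hk (Subtype.ext h0)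
          push_cast
          field_simp
          linear_combination -this
        have h2' : s • x 0 + x 1 = 0 := funext fun i => Subtype.ext (by simpa using h1 i)
        have := Fintype.linearIndependent_iff.1 hli ![s, 1] (by simpa [Fin.sum_univ_two] using h2') 1
        simp at this
      refine plus_of_family hQ (Sum.elim e' fun _ : Unit => z) (Fintype.linearIndependent_iff.2 fun c hc' => ?_) ?_ ?_
        (by simp; omega)
      · simp only [Fintype.sum_sum_type, Sum.elim_inl, Sum.elim_inr, Finset.univ_unique, Finset.sum_singleton] at hc'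
        have he : ∀ j, c (.inl j) = 0 := fun j => by
          have h1 := congrArg (fun v => QuadraticMap.polar Q v (f' j)) hc'
          simp only [hQ.polar_bilinear.add_left, hQ.polar_bilinear.smul_left, (hze j).2, mul_zero, add_zero,
            key (fun i => c (.inl i)) j] at h1
          rw [← H98.coe_qOfFun hQ, QuadraticMap.polar_zero_left] at h1
          exact (mul_eq_zero.1 h1).resolve_right (inv_ne_zero hζ)
        rintro (j | ⟨⟩)
        · exact he j
        · simp only [he, zero_smul, Finset.sum_const_zero, zero_add, smul_eq_zero] at hc'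
          exact hc'.resolve_right hz0
      · rintro (j | ⟨⟩)
        exacts [hqe j, hzQ]
      · rintro (j | ⟨⟩) (k | ⟨⟩)
        · exact hee j k
        · rw [Sum.elim_inl, Sum.elim_inr, QuadraticMap.polar_comm]; exact (hze j).1
        · exact (hze k).1
        · show QuadraticMap.polar Q z z = 0
          rw [polar_self hQ, hzQ, mul_zero]

end Cfsg.Agent.H6.OEven
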