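import Cfsg.Agent.H6.OEven.Forms
import Cfsg.Agent.H5.PlanePlus

/-!
Reducible maximal subgroups of Ω in even dimension.
-/

set_option autoImplicit false
set_option linter.unusedSectionVars false

open scoped MatrixGroups Matrix

namespace Cfsg.Agent.H6.OEven

open Cfsg.Geo Cfsg.Agent.H99.Asch

variable {n : ℕ} {F : Type*} [Field F] [Fintype F] {Q : (Fin n → F) → F}
  {H : Subgroup (GL (Fin n) F)}

/-- The possible reducible situations. -/
inductive RedCase (Q : (Fin n → F) → F) (H : Subgroup (GL (Fin n) F)) : Prop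
  | singular (W : Submodule F (Fin n → F)) (hW : W ≠ ⊥) (hs : IsTotallySingularQuad Q W)
      (hd : 2 * Module.finrank F W ≤ n) (heq : H = subspaceStabilizer W ⊓ omegaGL Q)
  | oddDim (hq : Odd (Fintype.card F)) (W : Submodule F (Fin n → F)) (hW : W ≠ ⊥) (hWt : W ≠ ⊤)
      (ho : Odd (Module.finrank F W)) (hd : 2 * Module.finrank F W < n)
      (hnd : IsNondegenerateOn (QuadraticMap.polar Q) W) (heq : H = subspaceStabilizer W ⊓ omegaGL Q)
  | evenDim (W : Submodule F (Fin n → F)) (he : Even (Module.finrank F W)) (h2 : 2 ≤ Module.finrank F W)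
      (hd : 2 * Module.finrank F W < n) (hnd : IsNondegenerateOn (QuadraticMap.polar Q) W)
      (hplane : Module.finrank F W = 2 → IsPlusTypeOn Q W → 4 ≤ Fintype.card F)
      (heq : H = subspaceStabilizer W ⊓ omegaGL Q)
  | point (hq : ¬ Odd (Fintype.card F)) (v : Fin n → F) (hv : Q v ≠ 0)
      (heq : H = subspaceStabilizer (Submodule.span F {v}) ⊓ omegaGL Q)
  | half (W : Submodule F (Fin n → F)) (hd : 2 * Module.finrank F W = n)
      (hnd : IsNondegenerateOn (QuadraticMap.polar Q) W) (heq : H = subspaceStabilizer W ⊓ omegaGL Q)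

/-- A subgroup of isometries preserving a totally isotropic subspace. -/
theorem red_of_isotropic (hQ : IsNondegenerateQuadraticForm Q) (hn : 8 ≤ n) (hH : IsMaximalIn (omegaGL Q) H)
    {W : Submodule F (Fin n → F)} (hW : W ≠ ⊥) (hts : IsTotallySingularFor (QuadraticMap.polar Q) W)
    (hle : H ≤ subspaceStabilizer W) : RedCase Q H := by
  haveI : Finite (Fin n → F) := Pi.finite
  have hsing : ∀ X : Submodule F (Fin n → F), X ≠ ⊥ → IsTotallySingularQuad Q X → H ≤ subspaceStabilizer X →
      RedCase Q H := by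
    intro X hX hXs hXle
    have hd : 2 * Module.finrank F X ≤ n := by
      have := H5.two_mul_finrank_le (qf_nondeg hQ) (W := X) (H5.le_perp_of_forall_eq_zero hXs)
      simpa using this
    exact .singular X hX hXs hd (eq_inf_of_maximal hH hXle
      (not_le_subspace hQ (by simp; omega) hX (by simp; omega)))
  rcases card_parity (F := F) with hq | h2
  · exact hsing W hW (totallySingular_of_isotropic hQ (two_ne_zero_of_card_odd hq) hts) hle
  by_cases hS : singPart hQ W hts = ⊥
  swap
  · refine hsing _ hS (fun v hv => hv.2) fun h hh => mem_subspaceStabilizer_of fun v hv => ?_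
    exact ⟨(hle hh v).1 hv.1, by rw [isometry_of_mem_omega (hH.1.le hh)]; exact hv.2⟩
  obtain ⟨v, hv, hv0⟩ := Submodule.exists_mem_ne_zero_of_ne_bot hW
  have hqv : Q v ≠ 0 := fun e => hv0 ((Submodule.mem_bot F).1 (hS ▸ (⟨hv, e⟩ : v ∈ singPart hQ W hts)))
  have hspan : Submodule.span F {v} = W :=
    Submodule.eq_of_le_of_finrank_le ((Submodule.span_singleton_le_iff_mem _ _).2 hv)
      (by rw [finrank_span_singleton hv0]; exact finrank_le_one_of_singPart hQ hts hS)
  refine .point (not_odd_of_two_eq_zero h2) v hqv (eq_inf_of_maximal hH (hspan ▸ hle)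
    (not_le_subspace hQ (by simp; omega) ?_ ?_))
  · rw [hspan]; exact hW
  · rw [finrank_span_singleton hv0]; simp; omega

/-- A subgroup of isometries preserving a non-degenerate subspace of at most half the dimension. -/
theorem red_of_nondeg (hQ : IsNondegenerateQuadraticForm Q) (hn : 8 ≤ n) (hH : IsMaximalIn (omegaGL Q) H)
    {W : Submodule F (Fin n → F)} (hW : W ≠ ⊥) (hnd : IsNondegenerateOn (QuadraticMap.polar Q) W)
    (hd : 2 * Module.finrank F W ≤ n) (hle : H ≤ subspaceStabilizer W) : RedCase Q H := by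
  have heq := eq_inf_of_maximal hH hle (not_le_subspace hQ (by simp; omega) hW (by simp; omega))
  rcases hd.lt_or_eq with hlt | he
  swap
  · exact .half W he hnd heq
  have hWt : W ≠ ⊤ := fun e => by rw [e, finrank_top] at hlt; simp at hlt; omega
  have hpos : Module.finrank F W ≠ 0 := fun e => hW (Submodule.finrank_eq_zero.1 e)
  rcases Nat.even_or_odd (Module.finrank F W) with hev | hodd
  swap
  · exact .oddDim (odd_of_two_ne_zero (two_ne_zero_of_odd_finrank hQ hnd hodd)) W hW hWt hodd hlt hnd heq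
  have h2 : 2 ≤ Module.finrank F W := by obtain ⟨j, hj⟩ := hev; omega
  refine .evenDim W hev h2 hlt hnd (fun h hplus => ?_) heq
  by_contra hq
  exact false_of_between hH hle (H5.not_maximal_stab_plane (qf hQ) (H98.coe_qOfFun hQ) (qf_nondeg hQ)
    (by simp; omega) (by omega) W h (H5.inf_perp_of_isNondegenerateOn (qf hQ) (H98.coe_qOfFun hQ) hnd) hplus)

/-- The perp of an invariant subspace is invariant. -/
lemma perp_invariant (hQ : IsNondegenerateQuadraticForm Q) (hH : H ≤ omegaGL Q)
    {W : Submodule F (Fin n → F)} (hle : H ≤ subspaceStabilizer W) :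
    H ≤ subspaceStabilizer (H5.perp (qf hQ) W) := fun h hh => mem_subspaceStabilizer_of fun v hv => by
  rw [H5.mem_perp] at hv ⊢
  intro w hw
  have hinv := (hle (inv_mem hh) w).1 hw
  have := polar_of_mem_omega (hH (inv_mem hh)) w ((h : Matrix (Fin n) (Fin n) F) *ᵥ v)
  show QuadraticMap.polar Q w _ = 0
  rw [← this, Matrix.mulVec_mulVec, ← Units.val_mul, inv_mul_cancel, Units.val_one, Matrix.one_mulVec]
  exact hv _ hinv

lemma nondeg_perp (hQ : IsNondegenerateQuadraticForm Q) {W : Submodule F (Fin n → F)}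
    (hnd : IsNondegenerateOn (QuadraticMap.polar Q) W) :
    IsNondegenerateOn (QuadraticMap.polar Q) (H5.perp (qf hQ) W) ∧
      Module.finrank F W + Module.finrank F (H5.perp (qf hQ) W) = n ∧
      AreOrthogonalFor (QuadraticMap.polar Q) W (H5.perp (qf hQ) W) ∧ Disjoint W (H5.perp (qf hQ) W) := by
  have hi := H5.inf_perp_of_isNondegenerateOn (qf hQ) (H98.coe_qOfFun hQ) hnd
  have hs := H5.finrank_perp_add (qf_nondeg hQ) W
  rw [Module.finrank_fintype_fun_eq_card, Fintype.card_fin] at hs
  refine ⟨H5.isNondegenerateOn_of_inf_perp (qf hQ) (H98.coe_qOfFun hQ) ?_, by omega, fun u hu v hv => ?_,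
    disjoint_iff.2 hi⟩
  · rw [H5.perp_perp (qf_nondeg hQ), inf_comm]; exact hi
  · exact H5.mem_perp.1 hv u hu

/-- A subgroup of isometries preserving a proper non-degenerate subspace. -/
theorem red_of_nondeg' (hQ : IsNondegenerateQuadraticForm Q) (hn : 8 ≤ n) (hH : IsMaximalIn (omegaGL Q) H)
    {W : Submodule F (Fin n → F)} (hW : W ≠ ⊥) (hWt : W ≠ ⊤) (hnd : IsNondegenerateOn (QuadraticMap.polar Q) W)
    (hle : H ≤ subspaceStabilizer W) : RedCase Q H := by
  rcases le_or_gt (2 * Module.finrank F W) n with hd | hd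
  · exact red_of_nondeg hQ hn hH hW hnd hd hle
  obtain ⟨h1, h2, -, -⟩ := nondeg_perp hQ hnd
  refine red_of_nondeg hQ hn hH (fun e => hWt ?_) h1 (by omega) (perp_invariant hQ hH.1.le hle)
  rw [e, finrank_bot] at h2
  exact Submodule.eq_top_of_finrank_eq (by simpa using h2)

/-- The subspace alternative of the form-relative theorem. -/
theorem red_of_subspace (hQ : IsNondegenerateQuadraticForm Q) (hn : 8 ≤ n) (hH : IsMaximalIn (omegaGL Q) H)
    (h : InFormSubspace (polarData hQ) H) : RedCase Q H := by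
  rcases h with ⟨W, hW, hts, hle⟩ | ⟨W, hW, hnd, hd, hle⟩
  · rw [polarData_form] at hts
    exact red_of_isotropic hQ hn hH hW hts hle
  · rw [polarData_form] at hnd
    simp only [Fintype.card_fin] at hd
    exact red_of_nondeg hQ hn hH hW hnd hd.le hle

/-- In plus type no maximal subgroup stabilises a singular subspace of dimension half less one. -/
theorem singular_dim_ne (hQ : IsNondegenerateQuadraticForm Q) (hn : 8 ≤ n) (hplus : IsPlusTypeOn Q ⊤)
    (hH : IsMaximalIn (omegaGL Q) H) {W : Submodule F (Fin n → F)} (hW : IsTotallySingularQuad Q W)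
    (hle : H ≤ subspaceStabilizer W) : 2 * (Module.finrank F W + 1) ≠ n := by
  intro hdim
  apply false_of_between hH hle
  classical
  haveI : Finite (Fin n → F) := Pi.finite
  have hQ' := qf_nondeg hQ
  have hf : ⇑(qf hQ) = Q := H98.coe_qOfFun hQ
  obtain ⟨j, hj⟩ : ∃ j, j = Module.finrank F W + 1 := ⟨_, rfl⟩
  have hV : Module.finrank F (Fin n → F) = 2 * j := by simp; omega
  obtain ⟨U₀, -, hU₀, hU₀d⟩ := hplus
  rw [finrank_top] at hU₀d
  obtain ⟨U, hU, hWU⟩ := H4.exists_ge_singSub (Q := qf hQ) hQ' hV (U := W) hW ⟨U₀, by omega, hU₀⟩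
  have hstab : ∀ (X : Submodule F (Fin n → F)) (g : H5.orth (qf hQ)), H5.Preserves X g →
      H5.imageSub g X = X := fun X g h => Submodule.eq_of_le_of_finrank_eq
    (Submodule.map_le_iff_le_comap.2 h) (LinearEquiv.finrank_map_eq _ _)
  rw [H5.omegaGL_eq_map (qf hQ) hf]
  refine ⟨subspaceStabilizer U ⊓ (commutator (H5.orth (qf hQ))).map (H5.toGLHom (qf hQ) hf), ?_, ?_⟩
  · refine lt_of_le_not_ge ?_ ?_
    · rintro x ⟨hx, g, hg, rfl⟩
      refine ⟨(H5.toGLHom_mem_stab_iff (qf hQ) hf U g).2 fun v hv => ?_, g, hg, rfl⟩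
      rw [← H5.imageSub_eq_of_hyperplane hQ' hV hU hWU hj.symm hg
        (hstab W g ((H5.toGLHom_mem_stab_iff (qf hQ) hf W g).1 hx))]
      exact Submodule.mem_map_of_mem hv
    · intro hle
      obtain ⟨u, hu, huW⟩ := H4.exists_mem_notMem_of_finrank_lt
        (show Module.finrank F W < Module.finrank F U by rw [hU.1]; omega)
      obtain ⟨w, hw, hw0⟩ := Submodule.exists_mem_ne_zero_of_ne_bot
        (show W ≠ ⊥ from fun h => by rw [h, finrank_bot] at hdim; omega)
      obtain ⟨a, hua, hwa⟩ : ∃ a, QuadraticMap.polar (qf hQ) u a = 0 ∧ QuadraticMap.polar (qf hQ) w a ≠ 0 := by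
        by_contra hc
        push Not at hc
        have hm : w ∈ H5.perp (qf hQ) (H5.perp (qf hQ) (Submodule.span F {u})) :=
          H5.mem_perp.2 fun z hz => by
            rw [QuadraticMap.polar_comm]; exact hc z (H5.mem_perp_span.1 hz)
        rw [H5.perp_perp hQ'] at hm
        obtain ⟨c, rfl⟩ := Submodule.mem_span_singleton.1 hm
        have hc0 : c ≠ 0 := fun h => hw0 (by simp [h])
        refine huW ?_
        have := W.smul_mem c⁻¹ hw
        rwa [inv_smul_smul₀ hc0] at this
      have hqu : qf hQ u = 0 := hU.2 u hu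
      have hg := H5.eich_mem_commutator hQ' (by omega) u a
      have hpU : H5.Preserves U (H5.eich (qf hQ) u a) := fun x hx => by
        rw [H5.eich_apply hqu hua, show QuadraticMap.polar (qf hQ) u x = 0 from
          H4.polar_eq_zero_of_singular hU.2 hu hx]
        simp only [zero_smul, add_zero, mul_zero, sub_zero]
        exact sub_mem hx (U.smul_mem _ hu)
      have hmem := hle (show H5.toGLHom (qf hQ) hf (H5.eich (qf hQ) u a) ∈ _ from
        ⟨(H5.toGLHom_mem_stab_iff (qf hQ) hf U _).2 hpU, _, hg, rfl⟩)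
      have h := (H5.toGLHom_mem_stab_iff (qf hQ) hf W _).1 hmem.1 w hw
      rw [H5.eich_apply hqu hua, show QuadraticMap.polar (qf hQ) u w = 0 from
          H4.polar_eq_zero_of_singular hU.2 hu (hWU hw)] at h
      simp only [zero_smul, add_zero, mul_zero, sub_zero] at h
      have h' : QuadraticMap.polar (qf hQ) a w • u ∈ W := by simpa using sub_mem hw h
      refine huW ?_
      have := W.smul_mem (QuadraticMap.polar (qf hQ) a w)⁻¹ h'
      rwa [inv_smul_smul₀ (by rwa [QuadraticMap.polar_comm])] at this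
  · refine lt_of_le_not_ge inf_le_right fun hle => ?_
    obtain ⟨g, hg, hgU⟩ := H5.exists_not_preserves_singular hQ' (by omega)
      (show U ≠ ⊥ from fun h => by have := hU.1; rw [h, finrank_bot] at this; omega) hU.2
    exact hgU ((H5.toGLHom_mem_stab_iff (qf hQ) hf U g).1 (hle ⟨g, hg, rfl⟩).1)

end Cfsg.Agent.H6.OEven
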