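import Cfsg.Agent.H6.OEven.Special
import Cfsg.Agent.H6.OEven.Tensor
import Cfsg.Agent.H6.OEven.SmallBlocks
import Cfsg.Agent.H6.OEven.Decomp
import Cfsg.Agent.H6.OEven.Quintic
import Cfsg.Agent.H99.Aschbacher.FormMain

/-!
The maximal subgroups of Ω in dimension 10.
-/

set_option autoImplicit false

open scoped MatrixGroups Matrix

namespace Cfsg.Agent.H6.OEven

open Cfsg Cfsg.Geo Cfsg.Agent.H99.Asch

variable {F : Type*} [Field F] [Fintype F] {Q : (Fin 10 → F) → F}
  {H : Subgroup (GL (Fin 10) F)}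

/-- The outcomes in dimension 10, before the type of the form is used. -/
inductive TenCase (Q : (Fin 10 → F) → F) (H : Subgroup (GL (Fin 10) F)) : Prop
  | singular (W : Submodule F (Fin 10 → F)) (hW : W ≠ ⊥) (hs : IsTotallySingularQuad Q W)
      (hle : H ≤ subspaceStabilizer W) (heq : H = subspaceStabilizer W ⊓ omegaGL Q)
  | oddDim (hq : Odd (Fintype.card F)) (W : Submodule F (Fin 10 → F)) (hW : W ≠ ⊥) (hWt : W ≠ ⊤)
      (ho : Odd (Module.finrank F W)) (hd : 2 * Module.finrank F W ≠ 10)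
      (hnd : IsNondegenerateOn (QuadraticMap.polar Q) W) (heq : H = subspaceStabilizer W ⊓ omegaGL Q)
  | two (W : Submodule F (Fin 10 → F)) (hd : Module.finrank F W = 2)
      (hnd : IsNondegenerateOn (QuadraticMap.polar Q) W) (hplane : IsPlusTypeOn Q W → 4 ≤ Fintype.card F)
      (heq : H = subspaceStabilizer W ⊓ omegaGL Q)
  | four (W : Submodule F (Fin 10 → F)) (hd : Module.finrank F W = 4)
      (hnd : IsNondegenerateOn (QuadraticMap.polar Q) W) (heq : H = subspaceStabilizer W ⊓ omegaGL Q)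
  | point (hq : ¬ Odd (Fintype.card F)) (v : Fin 10 → F) (hv : Q v ≠ 0)
      (heq : H = subspaceStabilizer (Submodule.span F {v}) ⊓ omegaGL Q)
  | frame (hp : (Fintype.card F).Prime) (D : Fin 10 → Submodule F (Fin 10 → F))
      (hD : IsOrthogonalMDecomposition Q 1 D) (heq : H = decompositionStabilizer D ⊓ omegaGL Q)
      (hpm : IsPlusTypeOn Q ⊤ ↔ Fintype.card F % 4 ≠ 3) (hq : Odd (Fintype.card F))
  | pairs (D : Fin 5 → Submodule F (Fin 10 → F)) (hD : IsOrthogonalMDecomposition Q 2 D)
      (heq : H = decompositionStabilizer D ⊓ omegaGL Q)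
  | halfIso (D : Fin 2 → Submodule F (Fin 10 → F)) (hD : IsOrthogonalMDecomposition Q 5 D)
      (heq : H = decompositionStabilizer D ⊓ omegaGL Q) (hpm : IsPlusTypeOn Q ⊤ ↔ Fintype.card F % 4 ≠ 3)
      (hq : Odd (Fintype.card F))
  | halfNon (D : Fin 2 → Submodule F (Fin 10 → F))
      (hD : IsNondegenerateMDecomposition (QuadraticMap.polar Q) 5 D) (hni : ¬ AreIsometricFor Q (D 0) (D 1))
      (heq : H = decompositionStabilizer D ⊓ omegaGL Q) (hpm : IsPlusTypeOn Q ⊤ ↔ Fintype.card F % 4 = 3)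
      (hq : Odd (Fintype.card F))
  | selfField (hq : Odd (Fintype.card F)) (K : Subalgebra F (Matrix (Fin 10) (Fin 10) F))
      (hK : IsFieldSubalgebra 2 K) (hs : IsSelfAdjointFor (QuadraticMap.polar Q) K)
      (heq : H = subalgebraNormalizer K ⊓ omegaGL Q)
  | unitary (K : Subalgebra F (Matrix (Fin 10) (Fin 10) F)) (hK : IsFieldSubalgebra 2 K)
      (ha : IsAdjointClosedFor (QuadraticMap.polar Q) K) (hns : ¬ IsSelfAdjointFor (QuadraticMap.polar Q) K)
      (hsim : ∀ k ∈ K, ∃ c : F, ∀ v : Fin 10 → F, Q (k *ᵥ v) = c * Q v)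
      (heq : H = subalgebraNormalizer K ⊓ omegaGL Q)
  | subfield (F₀ : Subfield F) (r : ℕ) (P : GL (Fin 10) F) (ζ : F) (hr : r.Prime)
      (hc : Fintype.card F = Nat.card F₀ ^ r) (hζ : ζ ≠ 0)
      (hP : IsQuadFormRationalStructure (fun v : Fin 10 → F => ζ * Q v) F₀ P)
      (heq : H = subfieldSubgroup F₀ P ⊓ omegaGL Q)
  | residual (h : InOrthogonalResidualClass H)

lemma isSquare_neg_one_pow_five : IsSquare ((-1 : F) ^ 5) ↔ Fintype.card F % 4 ≠ 3 := by
  rw [show (-1 : F) ^ 5 = -1 by norm_num]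
  exact FiniteField.isSquare_neg_one_iff

/-- The reducible outcomes in dimension 10. -/
theorem red_ten (hQ : IsNondegenerateQuadraticForm Q) (hH : IsMaximalIn (omegaGL Q) H) (h : RedCase Q H) :
    TenCase Q H := by
  rcases h with ⟨W, hW, hs, -, heq⟩ | ⟨hq, W, hW, hWt, ho, hlt, hnd, heq⟩ | ⟨W, he, h2, hlt, hnd, hplane, heq⟩ |
    ⟨hq, v, hv, heq⟩ | ⟨W, hd, hnd, heq⟩
  · exact .singular W hW hs (heq ▸ inf_le_left) heq
  · exact .oddDim hq W hW hWt ho (by omega) hnd heq
  · obtain ⟨j, hj⟩ := he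
    rcases (show Module.finrank F W = 2 ∨ Module.finrank F W = 4 by omega) with h | h
    · exact .two W h hnd (hplane h) heq
    · exact .four W h hnd heq
  · exact .point hq v hv heq
  · have hd5 : Module.finrank F W = 5 := by omega
    have h2 : (2 : F) ≠ 0 := two_ne_zero_of_odd_finrank hQ hnd (by rw [hd5]; exact ⟨2, rfl⟩)
    obtain ⟨hdec, heq'⟩ := half_decomp hQ hH (by norm_num) hd hnd (heq ▸ inf_le_left)
    obtain ⟨hnd', hdim, horth, -⟩ := nondeg_perp hQ hnd
    rw [hd5] at hdec
    by_cases hiso : AreIsometricFor Q W (H5.perp (qf hQ) W)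
    · have hD : IsOrthogonalMDecomposition Q 5 ![W, H5.perp (qf hQ) W] := by
        refine ⟨hdec, fun i j => ?_⟩
        fin_cases i <;> fin_cases j
        · exact ⟨LinearEquiv.refl F _, fun w => rfl⟩
        · exact hiso
        · exact isometric_symm hiso
        · exact ⟨LinearEquiv.refl F _, fun w => rfl⟩
      exact .halfIso _ hD heq' ((plus_iff_of_blocks hQ h2 hD ⟨1, rfl⟩ (m := 5) (by simp)).trans
        isSquare_neg_one_pow_five) (odd_of_two_ne_zero h2)
    · refine .halfNon _ hdec hiso heq' ((plus_iff_of_nonisometric hQ h2 hnd hnd' horth (j := 2) hd5 (by omega)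
        (by simp) hiso).trans ?_) (odd_of_two_ne_zero h2)
      rw [FiniteField.isSquare_neg_one_iff]
      omega

/-- The outcomes for an orthogonal decomposition in dimension 10. -/
theorem dec_ten (hQ : IsNondegenerateQuadraticForm Q) (hH : IsMaximalIn (omegaGL Q) H)
    (h : InFormDecomposition (polarData hQ) H) : TenCase Q H := by
  rcases dec_cases hQ (by norm_num) ⟨5, rfl⟩ hH h with h | ⟨t, k, D, hD, htk, heq⟩
  · exact red_ten hQ hH h
  have ht := hD.decomp.decomp.two_le
  have hk0 := hD.decomp.decomp.pos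
  have hk5 : k ≤ 5 := by nlinarith
  interval_cases k
  · obtain rfl : t = 10 := by omega
    have h2 : (2 : F) ≠ 0 := two_ne_zero_of_odd_finrank hQ (hD.decomp.nondegenerate 0)
      (by rw [hD.decomp.decomp.finrank_eq]; exact odd_one)
    by_cases hp : (Fintype.card F).Prime
    · exact .frame hp D hD heq ((plus_iff_of_blocks hQ h2 hD ⟨5, rfl⟩ (m := 5) rfl).trans
        isSquare_neg_one_pow_five) (odd_of_two_ne_zero h2)
    · obtain ⟨F₀, r, P, ζ, hr, hc, hζ, hP, hle⟩ :=
        line_subfield hQ hD htk hH.1.le (heq ▸ inf_le_left) hp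
      exact .subfield F₀ r P ζ hr hc hζ hP
        (eq_inf_of_maximal hH hle (not_le_subfield hQ (by simp) hr.two_le hc P))
  · obtain rfl : t = 5 := by omega
    exact .pairs D hD heq
  · omega
  · omega
  · obtain rfl : t = 2 := by omega
    have h2 : (2 : F) ≠ 0 := two_ne_zero_of_odd_finrank hQ (hD.decomp.nondegenerate 0)
      (by rw [hD.decomp.decomp.finrank_eq]; exact ⟨2, rfl⟩)
    exact .halfIso D hD heq ((plus_iff_of_blocks hQ h2 hD ⟨1, rfl⟩ (m := 5) rfl).trans
      isSquare_neg_one_pow_five) (odd_of_two_ne_zero h2)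

/-- An adjoint-closed normalised quadratic field in dimension 10. -/
theorem quad_field_ten (hQ : IsNondegenerateQuadraticForm Q) (hH : IsMaximalIn (omegaGL Q) H)
    (hirr : ActsIrreducibly (matrixSet H)) {K : Subalgebra F (Matrix (Fin 10) (Fin 10) F)}
    (hK : IsFieldSubalgebra 2 K) (hKa : ∀ k ∈ K, (polarData hQ).adj k ∈ K) (hKn : Normalises H K) :
    TenCase Q H := by
  have heq := field_eq hQ (by norm_num) hH Nat.prime_two (by norm_num) hK hKn
  rcases self_or_unitary hQ (by norm_num) Nat.prime_two hK hKa with hself | ⟨-, hns, hfix⟩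
  · have h2 : (2 : F) ≠ 0 := fun h2 => by
      have := four_dvd_of_selfAdjoint hQ (by norm_num) h2 hK hself
      omega
    exact .selfField (odd_of_two_ne_zero h2) K hK (selfAdjointFor_of hQ hself) heq
  · exact .unitary K hK (adjointClosedFor_of hQ hKa) hns
      (unitary_similar hQ (by norm_num) hH.1.le hirr hK hKa hKn hns hfix) heq

/-- The outcomes in dimension 10. -/
theorem ten_cases (hQ : IsNondegenerateQuadraticForm Q) (hH : IsMaximalIn (omegaGL Q) H) : TenCase Q H := by
  classical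
  rcases form_aschbacher (polarData hQ) (by simp) (hH.1.le.trans (omega_le_isom hQ)) with h | h | ⟨hirr, h⟩
  · exact red_ten hQ hH (red_of_subspace hQ (by norm_num) hH h)
  · exact dec_ten hQ hH h
  have hhalves : InFormHalves (polarData hQ) H → False := fun h => by
    obtain ⟨k, V, hk, hV, hs, hle⟩ := halves_singular hQ (by norm_num) hH.1.le hirr h
    exact halves_parity hQ hH.1.le hirr hk (by rw [show k = 5 by omega]; exact ⟨2, rfl⟩) hV hs hle
  rcases h with h | ⟨N, -, -, h⟩ | h | h | h | h | h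
  · exact (hhalves h).elim
  · obtain ⟨r, L, hr, hr10, hL, hLa, hLn⟩ := field_prime hQ (by norm_num) h
    rcases hr.eq_two_or_odd' with rfl | hodd
    · exact quad_field_ten hQ hH hirr hL hLa hLn
    obtain rfl : r = 5 := by
      refine (Nat.prime_dvd_prime_iff_eq hr (by norm_num : Nat.Prime 5)).1
        ((hr.dvd_mul.1 (show r ∣ 2 * 5 from hr10)).resolve_left fun h2 => ?_)
      have := (Nat.prime_dvd_prime_iff_eq hr Nat.prime_two).1 h2
      subst this
      exact absurd hodd (by decide)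
    rcases self_or_unitary hQ (by norm_num) hr hL hLa with hself | ⟨h52, -⟩
    · obtain ⟨K, hK, hKa, hKn⟩ := quintic_quad hQ rfl hH.1.le hirr hL hself hLn
      exact quad_field_ten hQ hH hirr hK hKa hKn
    · omega
  · obtain ⟨s, t, e, P, G₁, G₂, hs, hst, hn, hgram, hle, hcase⟩ := tensor_cases hQ (by norm_num) hH.1.le hirr h
    obtain ⟨rfl, rfl⟩ : s = 2 ∧ t = 5 := by
      have : s < 4 := by
        by_contra hc
        have := Nat.mul_le_mul (not_lt.1 hc) ((not_lt.1 hc).trans hst)
        omega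
      interval_cases s <;> omega
    rcases hcase with ⟨-, h5, -, -⟩ | ⟨hq, hG₁, -⟩
    · exact absurd h5 (by decide)
    let e' : Fin 10 ≃ Fin 5 × Fin 2 := e.trans (Equiv.prodComm _ _)
    have hswap : ∀ (A : Matrix (Fin 2) (Fin 2) F) (B : Matrix (Fin 5) (Fin 5) F),
        tens e' B A = tens e A B := fun A B => Matrix.ext fun x y => by
      rw [tens_apply, tens_apply, mul_comm]
      rfl
    have hle' : H ≤ tensorProductSubgroup 5 2 e' P := fun x hx => by
      obtain ⟨a, b, hab⟩ := mem_tensorProductSubgroup_iff.1 (hle hx)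
      exact mem_tensorProductSubgroup_iff.2 ⟨b, a, by rw [hswap]; exact hab⟩
    rcases tensor_quadratic hQ (by norm_num) hH.1.le hq (by norm_num) e' P G₂ G₁ (by rw [hswap]; exact hgram) hG₁ hle'
      with h | ⟨K, hK, hKa, hKn, -⟩
    · exact (hhalves h).elim
    · exact quad_field_ten hQ hH hirr hK hKa hKn
  · obtain ⟨F₀, r, P, ζ, hr, hc, hζ, hP, hle⟩ := subfield_cases hQ (by norm_num) hH.1.le hirr h
    exact .subfield F₀ r P ζ hr hc hζ hP
      (eq_inf_of_maximal hH hle (not_le_subfield hQ (by simp) hr.two_le hc P))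
  · exact absurd (typeTwo_cases hQ (Or.inr (Or.inl rfl)) h).1 (by norm_num)
  · exact absurd (tensorPower_cases hQ (Or.inr (Or.inl rfl)) hH.1.le hirr h).1 (by norm_num)
  · exact .residual (residual_class hQ (by norm_num) h)

end Cfsg.Agent.H6.OEven
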