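import Cfsg.Agent.H6.OEven.Special
import Cfsg.Agent.H6.OEven.Tensor
import Cfsg.Agent.H6.OEven.SmallBlocks
import Cfsg.Agent.H6.OEven.Decomp
import Cfsg.Agent.H6.OEven.Split4
import Cfsg.Agent.H6.OEven.SmallTensor
import Cfsg.Agent.H99.Aschbacher.FormMain

/-!
The maximal subgroups of Ω in dimension 12.
-/

set_option autoImplicit false

open scoped MatrixGroups Matrix

namespace Cfsg.Agent.H6.OEven

open Cfsg Cfsg.Geo Cfsg.Agent.H99.Asch

variable {F : Type*} [Field F] [Fintype F] {Q : (Fin 12 → F) → F}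
  {H : Subgroup (GL (Fin 12) F)}

/-- The reducible outcomes in dimension 12. -/
inductive RedTwelve (Q : (Fin 12 → F) → F) (H : Subgroup (GL (Fin 12) F)) : Prop
  | singular (W : Submodule F (Fin 12 → F)) (hW : W ≠ ⊥) (hs : IsTotallySingularQuad Q W)
      (heq : H = subspaceStabilizer W ⊓ omegaGL Q)
  | oddDim (hq : Odd (Fintype.card F)) (W : Submodule F (Fin 12 → F)) (hW : W ≠ ⊥) (hWt : W ≠ ⊤)
      (ho : Odd (Module.finrank F W)) (hd : 2 * Module.finrank F W ≠ 12)
      (hnd : IsNondegenerateOn (QuadraticMap.polar Q) W) (heq : H = subspaceStabilizer W ⊓ omegaGL Q)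
  | two (W : Submodule F (Fin 12 → F)) (hd : Module.finrank F W = 2)
      (hnd : IsNondegenerateOn (QuadraticMap.polar Q) W) (hplane : IsPlusTypeOn Q W → 4 ≤ Fintype.card F)
      (heq : H = subspaceStabilizer W ⊓ omegaGL Q)
  | four (W : Submodule F (Fin 12 → F)) (hd : Module.finrank F W = 4)
      (hnd : IsNondegenerateOn (QuadraticMap.polar Q) W) (heq : H = subspaceStabilizer W ⊓ omegaGL Q)
  | six (W : Submodule F (Fin 12 → F)) (hd : Module.finrank F W = 6)
      (hnd : IsNondegenerateOn (QuadraticMap.polar Q) W) (heq : H = subspaceStabilizer W ⊓ omegaGL Q)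
  | point (hq : ¬ Odd (Fintype.card F)) (v : Fin 12 → F) (hv : Q v ≠ 0)
      (heq : H = subspaceStabilizer (Submodule.span F {v}) ⊓ omegaGL Q)

theorem red_twelve (h : RedCase Q H) : RedTwelve Q H := by
  rcases h with ⟨W, hW, hs, -, heq⟩ | ⟨hq, W, hW, hWt, ho, hlt, hnd, heq⟩ | ⟨W, he, h2, hlt, hnd, hplane, heq⟩ |
    ⟨hq, v, hv, heq⟩ | ⟨W, hd, hnd, heq⟩
  · exact .singular W hW hs heq
  · exact .oddDim hq W hW hWt ho (by omega) hnd heq
  · obtain ⟨j, hj⟩ := he
    rcases (show Module.finrank F W = 2 ∨ Module.finrank F W = 4 by omega) with h | h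
    · exact .two W h hnd (hplane h) heq
    · exact .four W h hnd heq
  · exact .point hq v hv heq
  · exact .six W (by omega) hnd heq

/-- The three kinds of outcome in dimension 12. -/
theorem twelve_split (hQ : IsNondegenerateQuadraticForm Q) (hH : IsMaximalIn (omegaGL Q) H) :
    RedTwelve Q H ∨
      (∃ (t k : ℕ) (D : Fin t → Submodule F (Fin 12 → F)),
        IsOrthogonalMDecomposition Q k D ∧ t * k = 12 ∧ H = decompositionStabilizer D ⊓ omegaGL Q) ∨
      (ActsIrreducibly (matrixSet H) ∧ InFormIrreducible (polarData hQ) H) := by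
  rcases form_aschbacher (polarData hQ) (by simp) (hH.1.le.trans (omega_le_isom hQ)) with h | h | h
  · exact Or.inl (red_twelve (red_of_subspace hQ (by norm_num) hH h))
  · rcases dec_cases hQ (by norm_num) ⟨6, rfl⟩ hH h with h | ⟨t, k, D, hD, htk, heq⟩
    · exact Or.inl (red_twelve h)
    · exact Or.inr (Or.inl ⟨t, k, D, hD, htk, heq⟩)
  · exact Or.inr (Or.inr h)

/-- Two isometric halves of a form of plus type. -/
theorem half_blocks (hQ : IsNondegenerateQuadraticForm Q) (hplus : IsPlusTypeOn Q ⊤)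
    (hH : IsMaximalIn (omegaGL Q) H) {W : Submodule F (Fin 12 → F)} (hd : Module.finrank F W = 6)
    (hnd : IsNondegenerateOn (QuadraticMap.polar Q) W) (heq : H = subspaceStabilizer W ⊓ omegaGL Q) :
    ∃ D : Fin 2 → Submodule F (Fin 12 → F), IsOrthogonalMDecomposition Q 6 D ∧
      H = decompositionStabilizer D ⊓ omegaGL Q := by
  obtain ⟨hdec, heq'⟩ := half_decomp hQ hH (by norm_num) (by omega) hnd (heq ▸ inf_le_left)
  obtain ⟨hnd', hdim, horth, hdis⟩ := nondeg_perp hQ hnd
  rw [hd] at hdec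
  have horth' : AreOrthogonalFor (QuadraticMap.polar Q) (H5.perp (qf hQ) W) W := fun u hu w hw => by
    rw [QuadraticMap.polar_comm]; exact horth w hw u hu
  have hiso : AreIsometricFor Q W (H5.perp (qf hQ) W) :=
    isometric_of_types hQ hnd hnd' (m := 3) (by omega) (by omega)
      ⟨fun h => plus_cancel hQ hplus horth' hdis.symm (by simp; omega) h,
        fun h => plus_cancel hQ hplus horth hdis (by simp; omega) h⟩
  refine ⟨_, ⟨hdec, fun i j => ?_⟩, heq'⟩
  fin_cases i <;> fin_cases j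
  · exact ⟨LinearEquiv.refl F _, fun w => rfl⟩
  · exact hiso
  · exact isometric_symm hiso
  · exact ⟨LinearEquiv.refl F _, fun w => rfl⟩

/-- The shapes of a decomposition in dimension 12. -/
lemma shapes_twelve {t k : ℕ} (h : t * k = 12) (ht : 2 ≤ t) :
    (k = 1 ∧ t = 12) ∨ (k = 2 ∧ t = 6) ∨ (k = 3 ∧ t = 4) ∨ (k = 4 ∧ t = 3) ∨ (k = 6 ∧ t = 2) := by
  have hk : k ≤ 6 := by nlinarith
  interval_cases k <;> omega

/-- A normalised field in dimension 12 has degree two or three. -/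
theorem field_twelve (hQ : IsNondegenerateQuadraticForm Q) (hH : IsMaximalIn (omegaGL Q) H)
    {N : Subgroup (GL (Fin 12) F)} (h : InFormField (polarData hQ) H N) :
    (∃ K : Subalgebra F (Matrix (Fin 12) (Fin 12) F), IsFieldSubalgebra 2 K ∧
        H = subalgebraNormalizer K ⊓ omegaGL Q) ∨
      (∃ K : Subalgebra F (Matrix (Fin 12) (Fin 12) F), IsFieldSubalgebra 3 K ∧
        H = subalgebraNormalizer K ⊓ omegaGL Q) := by
  obtain ⟨r, L, hr, hr12, hL, -, hLn⟩ := field_prime hQ (by norm_num) h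
  have hle := Nat.le_of_dvd (by norm_num) hr12
  obtain rfl | rfl : r = 2 ∨ r = 3 := by
    rcases (hr.dvd_mul.1 (show r ∣ 4 * 3 from hr12)) with h | h
    · exact Or.inl ((Nat.prime_dvd_prime_iff_eq hr Nat.prime_two).1 (hr.dvd_of_dvd_pow (show r ∣ 2 ^ 2 from h)))
    · exact Or.inr ((Nat.prime_dvd_prime_iff_eq hr Nat.prime_three).1 h)
  · exact Or.inl ⟨L, hL, field_eq hQ (by norm_num) hH hr (by norm_num) hL hLn⟩
  · exact Or.inr ⟨L, hL, field_eq hQ (by norm_num) hH hr (by norm_num) hL hLn⟩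

/-- A decomposition into two totally singular halves. -/
theorem halves_twelve (hQ : IsNondegenerateQuadraticForm Q) (hH : IsMaximalIn (omegaGL Q) H)
    (hirr : ActsIrreducibly (matrixSet H)) (h : InFormHalves (polarData hQ) H) :
    ∃ D : Fin 2 → Submodule F (Fin 12 → F), IsMDecomposition 6 D ∧ (∀ i, IsTotallySingularQuad Q (D i)) ∧
      H = decompositionStabilizer D ⊓ omegaGL Q := by
  obtain ⟨k, V, hk, hV, hs, hle⟩ := halves_singular hQ (by norm_num) hH.1.le hirr h
  obtain rfl : k = 6 := by omega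
  exact ⟨V, hV, hs, eq_inf_of_maximal hH hle (not_le_decomposition hQ (by simp) hV (by simp))⟩

/-- The tensor structure of the polar form. -/
lemma tensor_structure (hQ : IsNondegenerateQuadraticForm Q) {s t : ℕ} {e : Fin 12 ≃ Fin s × Fin t}
    {P : GL (Fin 12) F} {G₁ : Matrix (Fin s) (Fin s) F} {G₂ : Matrix (Fin t) (Fin t) F}
    (hgram : (polarData hQ).gramAt P = tens e G₁ G₂) :
    IsTensorFormStructure id (QuadraticMap.polar Q) (gramForm (RingHom.id F) G₁) (gramForm (RingHom.id F) G₂) e P := by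
  have := isTensorFormStructure_of (polarData hQ) (σ' := id) (fun a => rfl) e P one_ne_zero
    (hgram.trans (one_smul F _).symm)
  rwa [polarData_form, polarData_σ] at this

/-- An alternating tensor frame of shape 2 × 6. -/
theorem alt_tensor (hQ : IsNondegenerateQuadraticForm Q) (hH : IsMaximalIn (omegaGL Q) H)
    (hirr : ActsIrreducibly (matrixSet H)) (e : Fin 12 ≃ Fin 2 × Fin 6) (P : GL (Fin 12) F) (G₁ : GL (Fin 2) F)
    (G₂ : GL (Fin 6) F)
    (hgram : (polarData hQ).gramAt P = tens e (G₁ : Matrix (Fin 2) (Fin 2) F) (G₂ : Matrix (Fin 6) (Fin 6) F))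
    (h₁ : IsSymplecticForm (gramForm (RingHom.id F) (G₁ : Matrix (Fin 2) (Fin 2) F)))
    (h₂ : IsSymplecticForm (gramForm (RingHom.id F) (G₂ : Matrix (Fin 6) (Fin 6) F)))
    (hle : H ≤ tensorProductSubgroup 2 6 e P) :
    3 ≤ Fintype.card F ∧ ∃ (e : Fin 12 ≃ Fin 2 × Fin 6) (P : Matrix.GeneralLinearGroup (Fin 12) F)
      (f₁ : (Fin 2 → F) → (Fin 2 → F) → F) (f₂ : (Fin 6 → F) → (Fin 6 → F) → F),
      IsSymplecticForm f₁ ∧ IsSymplecticForm f₂ ∧ IsTensorFormStructure id (QuadraticMap.polar Q) f₁ f₂ e P ∧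
      (∀ (x₁ : Fin 2 → F) (x₂ : Fin 6 → F),
        Q (Matrix.mulVec (P : Matrix (Fin 12) (Fin 12) F) ((fun a : Fin 2 × Fin 6 => x₁ a.1 * x₂ a.2) ∘ e)) = 0) ∧
      H = tensorProductSubgroup 2 6 e P ⊓ omegaGL Q := by
  have hT := tensor_structure hQ hgram
  have hpure := tensor_pure_singular hQ (by norm_num) hH.1.le hirr le_rfl (by norm_num) e P G₁ G₂ hgram h₁ h₂ hle
  refine ⟨?_, e, P, _, _, h₁, h₂, hT, hpure,
    eq_inf_of_maximal hH hle (not_le_tensor hQ (by simp) e P (by simp))⟩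
  by_contra hc
  have h1 := Fintype.one_lt_card (α := F)
  exact false_of_between hH hle
    (not_maximal_tensor_two Q hQ (by omega) 6 (by norm_num) e P _ _ h₁ h₂ hT hpure)

end Cfsg.Agent.H6.OEven
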